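-- helper93 library: piece N2 of helper71's CALL S5637 (all mixed transvections), with the
-- statement of piece LX3 (for `Fin b`) as a hypothesis.
import Mathlib
import Cfsg.Agent.Helper71.T4Defs

set_option autoImplicit false

namespace Cfsg.Agent.Helper93.T4N2

open Matrix Cfsg.Agent.Helper71.T4
open scoped Kronecker

variable {F : Type*} [Field F] {a b : Nat}

/-- `w βᵀ` is not scalar when `β w = 0`, `w ≠ 0`, `β ≠ 0`. -/
theorem vmv_not_scalar (hb : 1 ≤ b) (w β : Fin b → F) (h : β ⬝ᵥ w = 0) (hw : w ≠ 0) (hβ : β ≠ 0) :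
    ¬ ∃ c : F, vecMulVec w β = c • (1 : Matrix (Fin b) (Fin b) F) := by
  rintro ⟨c, hc⟩
  have hsq := vecMulVec_sq w β h
  rw [hc] at hsq
  have hc0 : c = 0 := by
    have h1 := congrFun (congrFun hsq ⟨0, hb⟩) ⟨0, hb⟩
    simp only [Matrix.mul_smul, Matrix.smul_apply,
      Matrix.one_apply_eq, smul_eq_mul, mul_one, Matrix.zero_apply] at h1
    exact mul_self_eq_zero.mp h1
  rw [hc0, zero_smul] at hc
  obtain ⟨k, hk⟩ : ∃ k, w k ≠ 0 := by
    by_contra h'
    push Not at h'
    exact hw (funext h')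
  obtain ⟨l, hl⟩ : ∃ l, β l ≠ 0 := by
    by_contra h'
    push Not at h'
    exact hβ (funext h')
  have h2 := congrFun (congrFun hc k) l
  rw [Matrix.vecMulVec_apply, Matrix.zero_apply] at h2
  exact mul_ne_zero hk hl h2

/-- Piece N2 of CALL S5637, with the conclusion of piece LX3 for `Fin b` as a hypothesis. -/
theorem tvC_all_of_lx3
    (hlx3 : ∀ (X' : AddSubgroup (Matrix (Fin b) (Fin b) F)),
      (∀ (i j : Fin b), i ≠ j → ∀ (c : F) (X : Matrix (Fin b) (Fin b) F), X ∈ X' →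
        Matrix.transvection i j c * X * Matrix.transvection i j (-c) ∈ X') →
      ∀ (X : Matrix (Fin b) (Fin b) F), X ∈ X' →
        (¬ ∃ c : F, X = c • (1 : Matrix (Fin b) (Fin b) F)) →
        ∀ (i j : Fin b), i ≠ j → ∀ c : F, Matrix.single i j c ∈ X')
    (hb : 3 ≤ b) (M : Subgroup (GL (Fin a × Fin b) F)) (hS : HasS M)
    (w β : Fin b → F) (h : β ⬝ᵥ w = 0) (hw : w ≠ 0) (hβ : β ≠ 0)
    (hC : ∀ i j : Fin a, i ≠ j → InM M (1 + Matrix.single i j (1 : F) ⊗ₖ vecMulVec w β)) :
    ∀ (i j : Fin a) (k l : Fin b), i ≠ j → k ≠ l → ∀ c : F,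
      InM M (Matrix.transvection (i, k) (j, l) c) := by
  intro i j k l hij hkl c
  obtain ⟨E, hE⟩ : ∃ E : Matrix (Fin a) (Fin a) F, E = Matrix.single i j (1 : F) := ⟨_, rfl⟩
  have hEE : E * E = 0 := by
    rw [hE]
    exact Matrix.single_mul_single_of_ne (c := (1 : F)) i j i (Ne.symm hij) (1 : F)
  have hmul : ∀ Y Y' : Matrix (Fin b) (Fin b) F,
      (1 + E ⊗ₖ Y) * (1 + E ⊗ₖ Y') = 1 + E ⊗ₖ (Y + Y') := by
    intro Y Y'
    rw [add_mul, one_mul, mul_add, mul_one, ← Matrix.mul_kronecker_mul, hEE,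
      Matrix.zero_kronecker, add_zero, Matrix.kronecker_add]
    abel
  let 𝒴 : AddSubgroup (Matrix (Fin b) (Fin b) F) :=
    { carrier := {Y | InM M (1 + E ⊗ₖ Y)}
      zero_mem' := by
        show InM M (1 + E ⊗ₖ (0 : Matrix (Fin b) (Fin b) F))
        rw [Matrix.kronecker_zero, add_zero]
        exact InM.one M
      add_mem' := by
        intro Y Y' hY hY'
        show InM M (1 + E ⊗ₖ (Y + Y'))
        rw [← hmul]
        exact InM.mul hY hY'
      neg_mem' := by
        intro Y hY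
        show InM M (1 + E ⊗ₖ (-Y))
        apply InM.inv hY
        rw [hmul, add_neg_cancel, Matrix.kronecker_zero, add_zero] }
  have hmem : ∀ Y : Matrix (Fin b) (Fin b) F, Y ∈ 𝒴 ↔ InM M (1 + E ⊗ₖ Y) := fun Y => Iff.rfl
  have hconj : ∀ (k l : Fin b), k ≠ l → ∀ (c : F) (X : Matrix (Fin b) (Fin b) F), X ∈ 𝒴 →
      Matrix.transvection k l c * X * Matrix.transvection k l (-c) ∈ 𝒴 := by
    intro k l hkl c X hX
    rw [hmem] at hX ⊢
    have hT : InM M ((1 : Matrix (Fin a) (Fin a) F) ⊗ₖ Matrix.transvection k l c) :=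
      hS 1 _ Matrix.det_one (Matrix.det_transvection_of_ne k l hkl c)
    have hT' : InM M ((1 : Matrix (Fin a) (Fin a) F) ⊗ₖ Matrix.transvection k l (-c)) :=
      hS 1 _ Matrix.det_one (Matrix.det_transvection_of_ne k l hkl (-c))
    have hTT : Matrix.transvection k l c * Matrix.transvection k l (-c) =
        (1 : Matrix (Fin b) (Fin b) F) := by
      rw [Matrix.transvection_mul_transvection_same k l hkl, add_neg_cancel,
        Matrix.transvection_zero]
    have hprod := (hT.mul hX).mul hT'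
    have heq : (1 : Matrix (Fin a) (Fin a) F) ⊗ₖ Matrix.transvection k l c * (1 + E ⊗ₖ X) *
        (1 : Matrix (Fin a) (Fin a) F) ⊗ₖ Matrix.transvection k l (-c) =
        1 + E ⊗ₖ (Matrix.transvection k l c * X * Matrix.transvection k l (-c)) := by
      rw [mul_add, add_mul, mul_one, ← Matrix.mul_kronecker_mul, ← Matrix.mul_kronecker_mul,
        ← Matrix.mul_kronecker_mul, one_mul, one_mul, mul_one, hTT, Matrix.one_kronecker_one]
    rw [heq] at hprod
    exact hprod
  have h0 : vecMulVec w β ∈ 𝒴 := by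
    rw [hmem, hE]
    exact hC i j hij
  have hres := hlx3 𝒴 hconj (vecMulVec w β) h0 (vmv_not_scalar (by omega) w β h hw hβ) k l hkl c
  rw [hmem, hE, Matrix.single_kronecker_single, one_mul] at hres
  exact hres

end Cfsg.Agent.Helper93.T4N2
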