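-- helper93 library: piece ZC1 of helper71's CALL S5637 (not all blocks vanish).
import Mathlib
import Cfsg.Agent.Helper71.T4Defs

set_option autoImplicit false

namespace Cfsg.Agent.Helper93.T4ZC1

open Matrix Cfsg.Agent.Helper71.T4
open scoped Kronecker

variable {F : Type*} [Field F] {a b : Nat}

theorem zc_key (x y : Matrix (Fin a × Fin b) (Fin a × Fin b) F) (hyx : y * x = 1)
    (β w' γ : Fin b → F) (hγ : γ ⬝ᵥ w' = 1)
    (h : ∀ w β' : Fin b → F, β ⬝ᵥ w = 0 → β' ⬝ᵥ w' = 0 → blk x β' w = 0)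
    (w β₂ : Fin b → F) (hw : β ⬝ᵥ w = 0) :
    blk y β₂ w' * blk x γ w = (β₂ ⬝ᵥ w) • (1 : Matrix (Fin a) (Fin a) F) := by
  have h1 : ∀ l : Fin b, blk x (Pi.single l 1) w = w' l • blk x γ w := by
    intro l
    have h2 : (Pi.single l 1 - w' l • γ) ⬝ᵥ w' = 0 := by
      rw [sub_dotProduct, smul_dotProduct, hγ]
      simp [single_dotProduct]
    have h3 := h w (Pi.single l 1 - w' l • γ) hw h2
    rw [blk_sub_left, blk_smul_left, sub_eq_zero] at h3
    exact h3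
  have h4 : blk (y * x) β₂ w = blk y β₂ w' * blk x γ w := by
    rw [blk_mul]
    simp only [h1, Matrix.mul_smul]
    rw [blk_sum_right y β₂ w', Finset.sum_mul]
    exact Finset.sum_congr rfl fun l _ => by rw [Matrix.smul_mul]
  rw [← h4, hyx, blk_one]

/-! ## Piece ZC1 -/
theorem zc_nonzero (ha : 1 ≤ a) (hb : 3 ≤ b) (x y : Matrix (Fin a × Fin b) (Fin a × Fin b) F)
    (hxy : x * y = 1) (hyx : y * x = 1) (β w' : Fin b → F) (hβ : β ≠ 0)
    (h : ∀ w β' : Fin b → F, β ⬝ᵥ w = 0 → β' ⬝ᵥ w' = 0 → blk x β' w = 0) : False := by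
  have hone : (1 : Matrix (Fin a) (Fin a) F) ≠ 0 := by
    intro h0
    have := congrFun (congrFun h0 ⟨0, ha⟩) ⟨0, ha⟩
    simp at this
  obtain ⟨w₁, hw₁0, hw₁⟩ := exists_perp1 (by omega : 2 ≤ b) β
  rw [dotProduct_comm] at hw₁
  obtain ⟨β₂, hβ₂⟩ := exists_dot_eq_one w₁ hw₁0
  rw [dotProduct_comm] at hβ₂
  by_cases hw' : w' = 0
  · subst hw'
    have h1 : blk (y * x) β₂ w₁ = 0 := by
      rw [blk_mul]
      apply Finset.sum_eq_zero
      intro l _
      rw [h w₁ (Pi.single l 1) hw₁ (by simp), mul_zero]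
    rw [hyx, blk_one, hβ₂, one_smul] at h1
    exact hone h1
  · obtain ⟨γ, hγ⟩ := exists_dot_eq_one w' hw'
    rw [dotProduct_comm] at hγ
    have key := zc_key x y hyx β w' γ hγ h
    have hY : blk y β₂ w' * blk x γ w₁ = 1 := by rw [key w₁ β₂ hw₁, hβ₂, one_smul]
    have hY' : blk x γ w₁ * blk y β₂ w' = 1 := mul_eq_one_comm.mp hY
    obtain ⟨w₂, hw₂0, hw₂β, hw₂β₂⟩ := exists_perp2 hb β β₂
    rw [dotProduct_comm] at hw₂β hw₂β₂
    have h2 : blk y β₂ w' * blk x γ w₂ = 0 := by rw [key w₂ β₂ hw₂β, hw₂β₂, zero_smul]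
    have h3 : blk x γ w₂ = 0 := by
      have : blk x γ w₂ = blk x γ w₁ * (blk y β₂ w' * blk x γ w₂) := by
        rw [← mul_assoc, hY', one_mul]
      rw [this, h2, mul_zero]
    obtain ⟨β₃, hβ₃⟩ := exists_dot_eq_one w₂ hw₂0
    rw [dotProduct_comm] at hβ₃
    have h4 := key w₂ β₃ hw₂β
    rw [h3, mul_zero, hβ₃, one_smul] at h4
    exact hone h4.symm

end Cfsg.Agent.Helper93.T4ZC1
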