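import Mathlib
import Cfsg.Agent.Helper13.TLDefs

/-!
CALL S5954 (case B): shared lemmas for `T ^ 2 = λ² • 1` with `σ λ * λ = -1` in characteristic `≠ 2`:
the two eigenspaces are totally isotropic and paired nondegenerately.
-/

set_option autoImplicit false

namespace Cfsg.Agent.Helper93.TI5954

open Module Polynomial
open Cfsg.Agent.Helper13.TIu Cfsg.Agent.Helper13.TIsp

variable {F : Type*} [Field F] {σ : F →+* F} {V : Type*} [AddCommGroup V] [Module F V]
  [FiniteDimensional F V] (B : V →ₛₗ[σ] V →ₗ[F] F)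

theorem invB_ne_zero {mu : F} (hmu : σ mu * mu = -1) : mu ≠ 0 := by
  intro h
  rw [h, mul_zero] at hmu
  exact one_ne_zero (neg_eq_zero.1 hmu.symm)

theorem invB_neg {mu : F} (hmu : σ mu * mu = -1) : σ (-mu) * (-mu) = -1 := by
  rw [map_neg, neg_mul_neg]; exact hmu

/-- eigenvectors for `μ` with `σ μ * μ = -1` are mutually orthogonal -/
theorem invB_iso (h2 : (2 : F) ≠ 0) (T : Module.End F V) (hT : UPres B T) (mu : F)
    (hmu : σ mu * mu = -1) (u v : V) (hu : T u = mu • u) (hv : T v = mu • v) : B u v = 0 := by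
  have h := hT u v
  rw [hu, hv] at h
  simp only [map_smulₛₗ, LinearMap.smul_apply, smul_eq_mul, RingHom.id_apply] at h
  have h3 : 2 * B u v = 0 := by linear_combination (-1 : F) * h + B u v * hmu
  exact (mul_eq_zero.1 h3).resolve_left h2

theorem invB_sq_apply (T : Module.End F V) (mu : F)
    (hT2 : T ^ 2 = (mu ^ 2) • (1 : Module.End F V)) (x : V) : T (T x) = mu ^ 2 • x := by
  have h := congrArg (fun f : Module.End F V => f x) hT2
  simpa [pow_two] using h

/-- the `μ`-eigencomponent (times two) -/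
theorem invB_eig (T : Module.End F V) (mu : F) (hmu0 : mu ≠ 0)
    (hT2 : T ^ 2 = (mu ^ 2) • (1 : Module.End F V)) (x : V) :
    T (x + mu⁻¹ • T x) = mu • (x + mu⁻¹ • T x) := by
  rw [map_add, map_smul, invB_sq_apply T mu hT2, smul_add, smul_smul, smul_smul]
  have e1 : mu⁻¹ * mu ^ 2 = mu := by field_simp
  have e2 : mu * mu⁻¹ = 1 := mul_inv_cancel₀ hmu0
  rw [e1, e2, one_smul, add_comm]

theorem invB_sq_neg (T : Module.End F V) (mu : F)
    (hT2 : T ^ 2 = (mu ^ 2) • (1 : Module.End F V)) :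
    T ^ 2 = ((-mu) ^ 2) • (1 : Module.End F V) := by
  rw [neg_sq]; exact hT2

theorem invB_mem_sub (T : Module.End F V) (mu : F) (x : V) :
    x ∈ LinearMap.ker (T - mu • (1 : Module.End F V)) ↔ T x = mu • x := by
  rw [LinearMap.mem_ker, LinearMap.sub_apply, LinearMap.smul_apply, Module.End.one_apply,
    sub_eq_zero]

theorem invB_mem_add (T : Module.End F V) (mu : F) (x : V) :
    x ∈ LinearMap.ker (T + mu • (1 : Module.End F V)) ↔ T x = (-mu) • x := by
  rw [LinearMap.mem_ker, LinearMap.add_apply, LinearMap.smul_apply, Module.End.one_apply,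
    neg_smul, add_eq_zero_iff_eq_neg]

/-- an invariant subspace is the direct sum of its two eigen-parts -/
theorem invB_decomp (h2 : (2 : F) ≠ 0) (T : Module.End F V) (mu : F) (hmu0 : mu ≠ 0)
    (hT2 : T ^ 2 = (mu ^ 2) • (1 : Module.End F V)) (W : Submodule F V) (hWT : W.map T ≤ W) :
    W ≤ (W ⊓ LinearMap.ker (T - mu • (1 : Module.End F V))) ⊔
        (W ⊓ LinearMap.ker (T + mu • (1 : Module.End F V))) ∧
      (W ⊓ LinearMap.ker (T - mu • (1 : Module.End F V))) ⊓
        (W ⊓ LinearMap.ker (T + mu • (1 : Module.End F V))) = ⊥ := by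
  refine ⟨fun x hx => ?_, ?_⟩
  · have hTx : T x ∈ W := hWT (Submodule.mem_map_of_mem hx)
    have e : x = (2⁻¹ : F) • (x + mu⁻¹ • T x) + (2⁻¹ : F) • (x + (-mu)⁻¹ • T x) := by
      rw [inv_neg, neg_smul, ← smul_add]
      have e1 : x + mu⁻¹ • T x + (x + -(mu⁻¹ • T x)) = (2 : F) • x := by
        rw [two_smul]; abel
      rw [e1, smul_smul, inv_mul_cancel₀ h2, one_smul]
    rw [e]
    refine Submodule.add_mem_sup (Submodule.smul_mem _ _ ⟨?_, ?_⟩)
      (Submodule.smul_mem _ _ ⟨?_, ?_⟩)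
    · exact W.add_mem hx (W.smul_mem _ hTx)
    · exact (invB_mem_sub T mu _).2 (invB_eig T mu hmu0 hT2 x)
    · exact W.add_mem hx (W.smul_mem _ hTx)
    · exact (invB_mem_add T mu _).2
        (invB_eig T (-mu) (neg_ne_zero.2 hmu0) (invB_sq_neg T mu hT2) x)
  · rw [eq_bot_iff]
    rintro x ⟨⟨-, h1⟩, ⟨-, h3⟩⟩
    have e1 := (invB_mem_sub T mu x).1 h1
    have e3 := (invB_mem_add T mu x).1 h3
    rw [e1, neg_smul] at e3
    have h4 : (2 * mu) • x = 0 := by
      rw [mul_smul, two_smul]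
      nth_rewrite 1 [e3]
      exact neg_add_cancel _
    rcases smul_eq_zero.1 h4 with h5 | h5
    · exact absurd h5 (mul_ne_zero h2 hmu0)
    · exact (Submodule.mem_bot F).2 h5

/-- a totally isotropic `X` inside a nondegenerate `W ≤ X ⊔ Y` has dimension at most that of `Y` -/
theorem invB_le (hS : B.IsSymm) (X Y W : Submodule F V)
    (hX : ∀ u ∈ X, ∀ v ∈ X, B u v = 0) (hXW : X ≤ W) (hW : W ≤ X ⊔ Y) (hnd : UNd B W) :
    finrank F X ≤ finrank F Y := by
  classical
  obtain ⟨bY⟩ : Nonempty (Basis (Fin (finrank F Y)) F Y) := ⟨Module.finBasis F Y⟩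
  obtain ⟨L, hL⟩ : ∃ L : X →ₗ[F] (Fin (finrank F Y) → F), ∀ x j, L x j = B (bY j : V) (x : V) :=
    ⟨LinearMap.pi (fun j => (B (bY j : V)) ∘ₗ X.subtype), fun x j => by simp⟩
  have hinj : Function.Injective L := by
    rw [← LinearMap.ker_eq_bot, LinearMap.ker_eq_bot']
    intro x hx
    have h1 : ∀ j, B (bY j : V) (x : V) = 0 := fun j => by
      rw [← hL, hx, Pi.zero_apply]
    have h2 : ∀ y ∈ Y, B y (x : V) = 0 := by
      have hspan : Y ≤ LinearMap.ker (B.flip (x : V)) := by
        have e : Y = Submodule.span F (Set.range (fun j => (bY j : V))) := by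
          have h3 := congrArg (Submodule.map Y.subtype) bY.span_eq
          rw [Submodule.map_span, Submodule.map_subtype_top, ← Set.range_comp] at h3
          exact h3.symm
        rw [e, Submodule.span_le]
        rintro _ ⟨j, rfl⟩
        show B.flip (x : V) (bY j : V) = 0
        rw [LinearMap.flip_apply]
        exact h1 j
      intro y hy
      have := hspan hy
      rwa [LinearMap.mem_ker, LinearMap.flip_apply] at this
    have h3 : ∀ w ∈ W, B (x : V) w = 0 := by
      intro w hw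
      obtain ⟨a, ha, c, hc, rfl⟩ := Submodule.mem_sup.1 (hW hw)
      rw [map_add, hX _ x.2 a ha, zero_add, ← hS.eq c x, h2 c hc, map_zero]
    exact Subtype.ext (hnd x (hXW x.2) h3)
  have h := LinearMap.finrank_le_finrank_of_injective hinj
  rwa [Module.finrank_fin_fun] at h

end Cfsg.Agent.Helper93.TI5954
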