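import Mathlib
import Cfsg.Agent.Helper13.TLDefs
import Cfsg.Agent.Helper93.TLInvB

set_option autoImplicit false

namespace Cfsg.Agent.Helper93.TI5954

open Module Polynomial
open Cfsg.Agent.Helper13.TIu Cfsg.Agent.Helper13.TIsp

variable {F : Type*} [Field F] {σ : F →+* F} {V : Type*} [AddCommGroup V] [Module F V]
  [FiniteDimensional F V] (B : V →ₛₗ[σ] V →ₗ[F] F)

theorem uatom_aux (hS : B.IsSymm) (h2 : (2 : F) ≠ 0)
    (T : Module.End F V) (hT : UPres B T) (mu : F) (hmu : σ mu * mu = -1)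
    (hT2 : T ^ 2 = (mu ^ 2) • (1 : Module.End F V)) (E : Submodule F V) (hET : E.map T ≤ E)
    (hE : UNd B E) (v : V) (hvE : v ∈ E) (hv0 : v ≠ 0) (hTv : T v = mu • v) :
    ∃ Z : Submodule F V, Z ≤ E ∧ Z.map T ≤ Z ∧ UNd B Z ∧ finrank F Z = 2 := by
  have hmu0 := invB_ne_zero hmu
  obtain ⟨w', hw'E, hw'⟩ : ∃ w' ∈ E, B v w' ≠ 0 := by
    by_contra hcon
    push Not at hcon
    exact hv0 (hE v hvE hcon)
  have hTw'E : T w' ∈ E := hET (Submodule.mem_map_of_mem hw'E)
  obtain ⟨w, hwdef⟩ : ∃ w, w = w' + (-mu)⁻¹ • T w' := ⟨_, rfl⟩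
  have hwE : w ∈ E := by rw [hwdef]; exact E.add_mem hw'E (E.smul_mem _ hTw'E)
  have hTw : T w = (-mu) • w := by
    rw [hwdef]; exact invB_eig T (-mu) (neg_ne_zero.2 hmu0) (invB_sq_neg T mu hT2) w'
  have hvv : B v v = 0 := invB_iso B h2 T hT mu hmu v v hTv hTv
  have hww : B w w = 0 := invB_iso B h2 T hT (-mu) (invB_neg hmu) w w hTw hTw
  have hvw : B v w ≠ 0 := by
    have h0 : B v (w' + mu⁻¹ • T w') = 0 :=
      invB_iso B h2 T hT mu hmu v _ hTv (invB_eig T mu hmu0 hT2 w')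
    rw [map_add, map_smul, smul_eq_mul] at h0
    rw [hwdef, map_add, map_smul, smul_eq_mul, inv_neg]
    intro h
    apply hw'
    have h3 : 2 * B v w' = 0 := by linear_combination h + h0
    exact (mul_eq_zero.1 h3).resolve_left h2
  have hwv : B w v ≠ 0 := by
    rw [← hS.eq v w]
    exact fun h => hvw ((map_eq_zero σ).1 h)
  have key : ∀ a b : F, B (a • v + b • w) v = 0 → B (a • v + b • w) w = 0 → a = 0 ∧ b = 0 := by
    intro a b e1 e2
    simp only [map_add, map_smulₛₗ, LinearMap.add_apply, LinearMap.smul_apply, smul_eq_mul, hvv,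
      hww, mul_zero, zero_add, add_zero] at e1 e2
    refine ⟨?_, ?_⟩
    · exact (map_eq_zero σ).1 ((mul_eq_zero.1 e2).resolve_right hvw)
    · exact (map_eq_zero σ).1 ((mul_eq_zero.1 e1).resolve_right hwv)
  refine ⟨Submodule.span F {v, w}, ?_, ?_, ?_, ?_⟩
  · rw [Submodule.span_le]
    rintro x (rfl | rfl)
    · exact hvE
    · exact hwE
  · rw [Submodule.map_span, Submodule.span_le, Set.image_pair]
    rintro x (rfl | rfl)
    · rw [hTv]; exact Submodule.smul_mem _ _ (Submodule.subset_span (Set.mem_insert _ _))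
    · rw [hTw]
      exact Submodule.smul_mem _ _ (Submodule.subset_span (Set.mem_insert_of_mem _ rfl))
  · intro z hz hall
    obtain ⟨a, b, rfl⟩ := Submodule.mem_span_pair.1 hz
    obtain ⟨ha, hb⟩ := key a b (hall v (Submodule.subset_span (Set.mem_insert _ _)))
      (hall w (Submodule.subset_span (Set.mem_insert_of_mem _ rfl)))
    rw [ha, hb, zero_smul, zero_smul, add_zero]
  · have hli : LinearIndependent F ![v, w] := by
      rw [LinearIndependent.pair_iff]
      intro s t hst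
      exact key s t (by rw [hst, map_zero, LinearMap.zero_apply])
        (by rw [hst, map_zero, LinearMap.zero_apply])
    have h := finrank_span_eq_card hli
    rw [Matrix.range_cons_cons_empty] at h
    simpa using h

/-- UATOM2B (case B) of CALL S5954 -/
theorem uatom_invB (hσ2 : ∀ a, σ (σ a) = a) (hS : B.IsSymm) (h2 : (2 : F) ≠ 0)
    (T : Module.End F V) (hT : UPres B T) (lam : F) (hlam : σ lam * lam = -1)
    (hT2 : T ^ 2 = (lam ^ 2) • (1 : Module.End F V)) (E : Submodule F V) (hET : E.map T ≤ E)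
    (hE : UNd B E) (hE0 : E ≠ ⊥) :
    ∃ Z : Submodule F V, Z ≤ E ∧ Z.map T ≤ Z ∧ UNd B Z ∧ finrank F Z = 2 := by
  have hlam0 := invB_ne_zero hlam
  obtain ⟨x, hxE, hx0⟩ := (Submodule.ne_bot_iff E).1 hE0
  have hTxE : T x ∈ E := hET (Submodule.mem_map_of_mem hxE)
  by_cases h : x + lam⁻¹ • T x = 0
  · refine uatom_aux B hS h2 T hT (-lam) (invB_neg hlam) (invB_sq_neg T lam hT2) E hET hE
      (x + (-lam)⁻¹ • T x) (E.add_mem hxE (E.smul_mem _ hTxE)) ?_
      (invB_eig T (-lam) (neg_ne_zero.2 hlam0) (invB_sq_neg T lam hT2) x)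
    intro h'
    apply hx0
    have e : (2 : F) • x = (x + lam⁻¹ • T x) + (x + (-lam)⁻¹ • T x) := by
      rw [inv_neg, neg_smul, two_smul]; abel
    rw [h, h', add_zero] at e
    exact (smul_eq_zero.1 e).resolve_left h2
  · exact uatom_aux B hS h2 T hT lam hlam hT2 E hET hE (x + lam⁻¹ • T x)
      (E.add_mem hxE (E.smul_mem _ hTxE)) h (invB_eig T lam hlam0 hT2 x)

end Cfsg.Agent.Helper93.TI5954
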