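import Mathlib
import Cfsg.Agent.Helper13.TLDefs
import Cfsg.Agent.Helper93.TLInvB

set_option autoImplicit false

namespace Cfsg.Agent.Helper93.TI5954

open Module Polynomial
open Cfsg.Agent.Helper13.TIu Cfsg.Agent.Helper13.TIsp

variable {F : Type*} [Field F] {σ : F →+* F} {V : Type*} [AddCommGroup V] [Module F V]
  [FiniteDimensional F V] (B : V →ₛₗ[σ] V →ₗ[F] F)

/-- UDET2B (case B) of CALL S5954 -/
theorem udet_invB (hσ2 : ∀ a, σ (σ a) = a) (hS : B.IsSymm) (hnd : UNd B ⊤) (h2 : (2 : F) ≠ 0)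
    (T : Module.End F V) (hT : UPres B T) (lam : F) (hlam : σ lam * lam = -1)
    (hT2 : T ^ 2 = (lam ^ 2) • (1 : Module.End F V)) :
    Even (finrank F V) ∧ LinearMap.det T = (-(lam ^ 2)) ^ (finrank F V / 2) := by
  obtain ⟨hle, hbot⟩ := invB_decomp h2 T lam (invB_ne_zero hlam) hT2 ⊤ le_top
  rw [top_inf_eq, top_inf_eq] at hle hbot
  obtain ⟨X, hXdef⟩ : ∃ X, X = LinearMap.ker (T - lam • (1 : Module.End F V)) := ⟨_, rfl⟩
  obtain ⟨Y, hYdef⟩ : ∃ Y, Y = LinearMap.ker (T + lam • (1 : Module.End F V)) := ⟨_, rfl⟩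
  rw [← hXdef, ← hYdef] at hle hbot
  have hXT : ∀ u ∈ X, T u = lam • u := fun u hu => (invB_mem_sub T lam u).1 (hXdef ▸ hu)
  have hYT : ∀ u ∈ Y, T u = (-lam) • u := fun u hu => (invB_mem_add T lam u).1 (hYdef ▸ hu)
  have hXiso : ∀ u ∈ X, ∀ v ∈ X, B u v = 0 := fun u hu v hv =>
    invB_iso B h2 T hT lam hlam u v (hXT u hu) (hXT v hv)
  have hYiso : ∀ u ∈ Y, ∀ v ∈ Y, B u v = 0 := fun u hu v hv =>
    invB_iso B h2 T hT (-lam) (invB_neg hlam) u v (hYT u hu) (hYT v hv)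
  have h1 : finrank F X ≤ finrank F Y := invB_le B hS X Y ⊤ hXiso le_top hle hnd
  have h3 : finrank F Y ≤ finrank F X :=
    invB_le B hS Y X ⊤ hYiso le_top (by rw [sup_comm]; exact hle) hnd
  have hsup : X ⊔ Y = ⊤ := top_le_iff.1 hle
  have h4 := Submodule.finrank_sup_add_finrank_inf_eq X Y
  rw [hsup, hbot, finrank_bot, add_zero, finrank_top] at h4
  have hc : IsCompl X Y := IsCompl.of_eq hbot hsup
  have hk : finrank F V / 2 = finrank F X := by omega
  have hYX : finrank F Y = finrank F X := le_antisymm h3 h1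
  refine ⟨⟨finrank F X, by omega⟩, ?_⟩
  rw [hk]
  obtain ⟨f, hfdef⟩ : ∃ f : Module.End F (X × Y), f = LinearMap.prodMap
      (lam • (LinearMap.id : X →ₗ[F] X)) ((-lam) • (LinearMap.id : Y →ₗ[F] Y)) := ⟨_, rfl⟩
  have hTe : T = ((Submodule.prodEquivOfIsCompl X Y hc : (X × Y) ≃ₗ[F] V) : (X × Y) →ₗ[F] V) ∘ₗ
      f ∘ₗ ((Submodule.prodEquivOfIsCompl X Y hc).symm : V →ₗ[F] (X × Y)) := by
    apply LinearMap.ext
    intro z
    obtain ⟨⟨x, y⟩, rfl⟩ := (Submodule.prodEquivOfIsCompl X Y hc).surjective z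
    rw [LinearMap.comp_apply, LinearMap.comp_apply, LinearEquiv.coe_coe, LinearEquiv.coe_coe,
      LinearEquiv.symm_apply_apply, Submodule.coe_prodEquivOfIsCompl',
      Submodule.coe_prodEquivOfIsCompl', hfdef]
    simp only [LinearMap.prodMap_apply, LinearMap.smul_apply, LinearMap.id_apply,
      Submodule.coe_smul]
    rw [map_add, hXT _ x.2, hYT _ y.2]
  rw [hTe, LinearMap.det_conj, hfdef, LinearMap.det_prodMap, LinearMap.det_smul,
    LinearMap.det_smul, LinearMap.det_id, LinearMap.det_id, mul_one, mul_one, hYX, ← mul_pow]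
  congr 1
  ring

end Cfsg.Agent.Helper93.TI5954
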