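import Mathlib
import Cfsg.Agent.Helper13.TLDefs
import Cfsg.Agent.Helper93.TLInvB

set_option autoImplicit false

namespace Cfsg.Agent.Helper93.TI5954

open Module Polynomial
open Cfsg.Agent.Helper13.TIu Cfsg.Agent.Helper13.TIsp

variable {F : Type*} [Field F] {σ : F →+* F} {V : Type*} [AddCommGroup V] [Module F V]
  [FiniteDimensional F V] (B : V →ₛₗ[σ] V →ₗ[F] F)

/-- UEVEN2B (case B) of CALL S5954 -/
theorem ueven_invB (hσ2 : ∀ a, σ (σ a) = a) (hS : B.IsSymm) (h2 : (2 : F) ≠ 0)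
    (T : Module.End F V) (hT : UPres B T) (lam : F) (hlam : σ lam * lam = -1)
    (hT2 : T ^ 2 = (lam ^ 2) • (1 : Module.End F V)) (W : Submodule F V) (hWT : W.map T ≤ W)
    (hW : UNd B W) : Even (finrank F W) := by
  obtain ⟨hle, hbot⟩ := invB_decomp h2 T lam (invB_ne_zero hlam) hT2 W hWT
  obtain ⟨X, hXdef⟩ : ∃ X, X = W ⊓ LinearMap.ker (T - lam • (1 : Module.End F V)) := ⟨_, rfl⟩
  obtain ⟨Y, hYdef⟩ : ∃ Y, Y = W ⊓ LinearMap.ker (T + lam • (1 : Module.End F V)) := ⟨_, rfl⟩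
  rw [← hXdef, ← hYdef] at hle hbot
  have hXW : X ≤ W := hXdef ▸ inf_le_left
  have hYW : Y ≤ W := hYdef ▸ inf_le_left
  have hXiso : ∀ u ∈ X, ∀ v ∈ X, B u v = 0 := by
    intro u hu v hv
    rw [hXdef] at hu hv
    exact invB_iso B h2 T hT lam hlam u v ((invB_mem_sub T lam u).1 hu.2)
      ((invB_mem_sub T lam v).1 hv.2)
  have hYiso : ∀ u ∈ Y, ∀ v ∈ Y, B u v = 0 := by
    intro u hu v hv
    rw [hYdef] at hu hv
    exact invB_iso B h2 T hT (-lam) (invB_neg hlam) u v ((invB_mem_add T lam u).1 hu.2)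
      ((invB_mem_add T lam v).1 hv.2)
  have h1 : finrank F X ≤ finrank F Y := invB_le B hS X Y W hXiso hXW hle hW
  have h3 : finrank F Y ≤ finrank F X :=
    invB_le B hS Y X W hYiso hYW (by rw [sup_comm]; exact hle) hW
  have hsup : X ⊔ Y = W := le_antisymm (sup_le hXW hYW) hle
  have h4 := Submodule.finrank_sup_add_finrank_inf_eq X Y
  rw [hsup, hbot, finrank_bot, add_zero] at h4
  exact ⟨finrank F X, by omega⟩

end Cfsg.Agent.Helper93.TI5954
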