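import Mathlib
import Cfsg.Prelude.Def_GeometricClasses
import Cfsg.Prelude.Def_Classical
import Cfsg.Agent.Helper58.TSDefs
import Cfsg.Agent.Helper43.PrimeOrdO3
import Cfsg.Agent.Helper33.OType

set_option autoImplicit false

/-!
# Sub-CALL TB (helper43), piece TYPEPROD.
-/

namespace Cfsg.Agent.Helper93.TB

open Module Polynomial Cfsg Cfsg.Geo Cfsg.Agent.Helper58.TS
open Cfsg.Agent.Helper43 Cfsg.Agent.Helper43.OrthEven Cfsg.Agent.Helper43.CycFactors
  Cfsg.Agent.Helper43.PrimeOrdMat
open scoped MatrixGroups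

universe u

section lin

variable {F : Type*} [Field F] {Va Vb : Type*} [AddCommGroup Va] [Module F Va] [AddCommGroup Vb]
  [Module F Vb]

/-- the second factor, when the first is the zero space -/
def sndEquiv [Subsingleton Va] : Vb ≃ₗ[F] Va × Vb where
  toFun y := (0, y)
  map_add' x y := by simp
  map_smul' c x := by simp
  invFun p := p.2
  left_inv _ := rfl
  right_inv p := Prod.ext (Subsingleton.elim _ _) rfl

/-- the first factor, when the second is the zero space -/
def fstEquiv [Subsingleton Vb] : Va ≃ₗ[F] Va × Vb where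
  toFun x := (x, 0)
  map_add' x y := by simp
  map_smul' c x := by simp
  invFun p := p.1
  left_inv _ := rfl
  right_inv p := Prod.ext rfl (Subsingleton.elim _ _)

theorem hasTS_zero (Qa : QuadraticForm F Va) : HasTS Qa 0 :=
  ⟨⊥, Nat.zero_le _, fun u hu => by rw [(Submodule.mem_bot F).1 hu, map_zero]⟩

/-- TYPEPROD [S-M]: type additivity `Cfsg.Agent.Helper33.OType.hasTS_prod_iff` without the
positivity hypotheses. -/
theorem tb_type_prod [Fintype F] [FiniteDimensional F Va] [FiniteDimensional F Vb]
    (Qa : QuadraticForm F Va) (Qb : QuadraticForm F Vb) (ha : PolarNondeg Qa) (hb : PolarNondeg Qb)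
    (m₁ m₂ : ℕ) (hVa : finrank F Va = 2 * m₁) (hVb : finrank F Vb = 2 * m₂) :
    HasTS (Qa.prod Qb) (m₁ + m₂) ↔ (HasTS Qa m₁ ↔ HasTS Qb m₂) := by
  rcases Nat.eq_zero_or_pos m₁ with h1 | h1
  · subst h1
    have hsub : Subsingleton Va := Module.finrank_zero_iff.1 (by rw [hVa])
    have key : HasTS (Qa.prod Qb) m₂ ↔ HasTS Qb m₂ := by
      constructor
      · intro h
        refine hasTS_equiv Qb (fun z => (Qa.prod Qb) z) (sndEquiv (F := F) (Va := Va)).symm ?_ h
        intro z
        show Qb z.2 = (Qa.prod Qb) z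
        rw [QuadraticMap.prod_apply, Subsingleton.elim z.1 0, map_zero, zero_add]
      · intro h
        refine hasTS_equiv (Qa.prod Qb) (fun z => Qb z) (sndEquiv (F := F) (Va := Va)) ?_ h
        intro z
        show (Qa.prod Qb) ((0 : Va), z) = Qb z
        rw [QuadraticMap.prod_apply, map_zero, zero_add]
    rw [zero_add, key]
    constructor
    · intro h; exact ⟨fun _ => h, fun _ => hasTS_zero Qa⟩
    · intro h; exact h.1 (hasTS_zero Qa)
  rcases Nat.eq_zero_or_pos m₂ with h2 | h2
  · subst h2
    have hsub : Subsingleton Vb := Module.finrank_zero_iff.1 (by rw [hVb])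
    have key : HasTS (Qa.prod Qb) m₁ ↔ HasTS Qa m₁ := by
      constructor
      · intro h
        refine hasTS_equiv Qa (fun z => (Qa.prod Qb) z) (fstEquiv (F := F) (Vb := Vb)).symm ?_ h
        intro z
        show Qa z.1 = (Qa.prod Qb) z
        rw [QuadraticMap.prod_apply, Subsingleton.elim z.2 0, map_zero, add_zero]
      · intro h
        refine hasTS_equiv (Qa.prod Qb) (fun z => Qa z) (fstEquiv (F := F) (Vb := Vb)) ?_ h
        intro z
        show (Qa.prod Qb) (z, (0 : Vb)) = Qa z
        rw [QuadraticMap.prod_apply, map_zero, add_zero]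
    rw [add_zero, key]
    constructor
    · intro h; exact ⟨fun _ => hasTS_zero Qb, fun _ => h⟩
    · intro h; exact h.2 (hasTS_zero Qb)
  · exact Cfsg.Agent.Helper33.OType.hasTS_prod_iff h1 h2 hVa hVb Qa Qb ha hb

end lin

end Cfsg.Agent.Helper93.TB
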