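import Mathlib
import Cfsg.Prelude.Def_GeometricClasses
import Cfsg.Prelude.Def_Classical
import Cfsg.Agent.Helper58.TSDefs
import Cfsg.Agent.Helper43.PrimeOrdO3
import Cfsg.Agent.Helper33.OType

set_option autoImplicit false

/-!
# Sub-CALL TB (helper43), pieces PRODTS, PRODND and SEL.
-/

namespace Cfsg.Agent.Helper93.TB

open Module Polynomial Cfsg Cfsg.Geo Cfsg.Agent.Helper58.TS
open Cfsg.Agent.Helper43 Cfsg.Agent.Helper43.OrthEven Cfsg.Agent.Helper43.CycFactors
  Cfsg.Agent.Helper43.PrimeOrdMat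
open scoped MatrixGroups

universe u

section lin

variable {F : Type*} [Field F] {Va Vb : Type*} [AddCommGroup Va] [Module F Va] [AddCommGroup Vb]
  [Module F Vb]

/-- a product of submodules as a product of modules -/
def subProdEquiv (Ua : Submodule F Va) (Ub : Submodule F Vb) : ↥(Ua.prod Ub) ≃ₗ[F] ↥Ua × ↥Ub where
  toFun w := (⟨w.1.1, (Submodule.mem_prod.1 w.2).1⟩, ⟨w.1.2, (Submodule.mem_prod.1 w.2).2⟩)
  map_add' x y := rfl
  map_smul' c x := rfl
  invFun p := ⟨(p.1.1, p.2.1), Submodule.mem_prod.2 ⟨p.1.2, p.2.2⟩⟩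
  left_inv _ := rfl
  right_inv _ := rfl

/-- PRODTS [S, generic]: a totally singular product subspace. -/
theorem tb_prod_ts [FiniteDimensional F Va] [FiniteDimensional F Vb] (Qa : QuadraticForm F Va)
    (Qb : QuadraticForm F Vb) (Ua : Submodule F Va) (Ub : Submodule F Vb)
    (h : ∀ w ∈ Ua.prod Ub, (Qa.prod Qb) w = 0) :
    (∀ u ∈ Ua, Qa u = 0) ∧ (∀ u ∈ Ub, Qb u = 0) ∧
      finrank F ↥(Ua.prod Ub) = finrank F Ua + finrank F Ub := by
  refine ⟨?_, ?_, ?_⟩
  · intro u hu
    have h1 := h (u, 0) (Submodule.mem_prod.2 ⟨hu, Ub.zero_mem⟩)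
    rw [QuadraticMap.prod_apply, map_zero, add_zero] at h1
    exact h1
  · intro u hu
    have h1 := h (0, u) (Submodule.mem_prod.2 ⟨Ua.zero_mem, hu⟩)
    rw [QuadraticMap.prod_apply, map_zero, zero_add] at h1
    exact h1
  · rw [LinearEquiv.finrank_eq (subProdEquiv Ua Ub), Module.finrank_prod]

/-- PRODND [S, generic]: the orthogonal sum of two spaces with nondegenerate polar forms. -/
theorem tb_prod_nd (Qa : QuadraticForm F Va) (Qb : QuadraticForm F Vb) (ha : PolarNondeg Qa)
    (hb : PolarNondeg Qb) : PolarNondeg (Qa.prod Qb) := by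
  intro v hv
  have h1 : v.1 = 0 := by
    apply ha
    intro w
    have h := hv (w, 0)
    rw [QuadraticMap.polar_prod] at h
    simpa using h
  have h2 : v.2 = 0 := by
    apply hb
    intro w
    have h := hv (0, w)
    rw [QuadraticMap.polar_prod] at h
    simpa using h
  exact Prod.ext h1 h2

end lin

/-- SEL [S, pure finset combinatorics]: the multiplicities of the bad element for `i` even. -/
theorem tb_sel {α : Type*} [DecidableEq α] (J : Finset α) (A o : ℕ) (hJ : 1 ≤ J.card)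
    (ho : o ≤ J.card) (hoA : o ≤ A) (hpar : Even (A - o)) :
    ∃ (S : Finset α) (c : α → ℕ), S ⊆ J ∧ ∑ P ∈ S, c P = A ∧ ∑ P ∈ S, c P % 2 = o := by
  rcases Nat.eq_zero_or_pos o with h0 | h0
  · subst h0
    obtain ⟨P₁, hP₁⟩ := Finset.card_pos.1 hJ
    refine ⟨{P₁}, fun _ => A, Finset.singleton_subset_iff.2 hP₁, ?_, ?_⟩
    · rw [Finset.sum_singleton]
    · rw [Finset.sum_singleton]
      rw [Nat.sub_zero] at hpar
      exact Nat.even_iff.1 hpar
  · obtain ⟨S, hSJ, hScard⟩ := Finset.exists_subset_card_eq ho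
    have hSne : S.Nonempty := Finset.card_pos.1 (by rw [hScard]; exact h0)
    obtain ⟨P₁, hP₁⟩ := hSne
    refine ⟨S, fun P => 1 + if P = P₁ then A - o else 0, hSJ, ?_, ?_⟩
    · rw [Finset.sum_add_distrib, Finset.sum_ite_eq' S P₁, if_pos hP₁, Finset.sum_const,
        smul_eq_mul, mul_one, hScard]
      omega
    · have h1 : ∀ P ∈ S, (1 + if P = P₁ then A - o else 0) % 2 = 1 := by
        intro P _
        split_ifs
        · obtain ⟨k, hk⟩ := hpar
          omega
        · rfl
      rw [Finset.sum_congr rfl h1, Finset.sum_const, smul_eq_mul, mul_one, hScard]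

end Cfsg.Agent.Helper93.TB
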