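import Mathlib
import Cfsg.Agent.Helper43.OTDefs
import Cfsg.Agent.Helper13.Quad

set_option autoImplicit false

/-!
# CALL OT (S5972, helper43), piece REFL: an involution of the isometry group is the product of the
reflections in an orthogonal basis of its `(-1)`-eigenspace.
-/

namespace Cfsg.Agent.Helper93.OT5972

open Module Polynomial Cfsg.Agent.Helper90.HT Cfsg.Agent.Helper43.OT
open Cfsg.Agent.Helper43.C3O (gm)
open Matrix

universe u

section grp

variable {F : Type u} [Field F] [Fintype F] {ι : Type} [Fintype ι] [DecidableEq ι]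

omit [Fintype F] in
theorem refl_prod_fix (Q : QuadraticForm F (ι → F)) (L : List (ι → F)) (x : ι → F)
    (hx : ∀ v ∈ L, QuadraticMap.polar ⇑Q v x = 0) :
    (L.map (fun v => Cfsg.reflectionMatrix ⇑Q v)).prod *ᵥ x = x := by
  induction L with
  | nil => simp
  | cons v L ih =>
    rw [List.map_cons, List.prod_cons, ← Matrix.mulVec_mulVec,
      ih (fun w hw => hx w (List.mem_cons_of_mem _ hw))]
    exact Cfsg.Agent.Helper13.reflection_fix Q v x (hx v List.mem_cons_self)

omit [Fintype F] in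
theorem refl_prod_neg (Q : QuadraticForm F (ι → F)) :
    ∀ (s : ℕ) (b : Fin s → ι → F) (_ : ∀ j, Q (b j) ≠ 0)
      (_ : ∀ j l, j ≠ l → QuadraticMap.polar ⇑Q (b j) (b l) = 0) (j : Fin s),
      ((List.ofFn b).map (fun v => Cfsg.reflectionMatrix ⇑Q v)).prod *ᵥ b j = - b j := by
  intro s
  induction s with
  | zero => intro b _ _ j; exact j.elim0
  | succ n ih =>
    intro b hb0 hbo j
    rw [List.ofFn_succ, List.map_cons, List.prod_cons, ← Matrix.mulVec_mulVec]
    refine Fin.cases ?_ (fun j' => ?_) j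
    · rw [refl_prod_fix Q _ (b 0) ?_]
      · exact Cfsg.Agent.Helper13.reflection_self Q (b 0) (hb0 0)
      · intro v hv
        rw [List.mem_ofFn] at hv
        obtain ⟨l, rfl⟩ := hv
        exact hbo _ _ (Fin.succ_ne_zero l)
    · rw [ih (fun i => b i.succ) (fun i => hb0 _)
        (fun i l hil => hbo _ _ (fun h => hil (Fin.succ_injective _ h))) j']
      rw [Matrix.mulVec_neg, Cfsg.Agent.Helper13.reflection_fix Q (b 0) (b j'.succ)
        (hbo _ _ (Fin.succ_ne_zero j').symm)]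

/-- REFL: an involution is the product of the reflections in an orthogonal basis of its
`(-1)`-eigenspace. -/
theorem ot_refl_prod (Q : QuadraticForm F (ι → F)) (h2 : (2 : F) ≠ 0)
    (hQ : (QuadraticMap.polarBilin Q).Nondegenerate) (g : ↥(Cfsg.isometryGroup F ⇑Q))
    (hg2 : gm g * gm g = 1) (s : ℕ) (b : Fin s → ι → F) (hb0 : ∀ j, Q (b j) ≠ 0)
    (hbo : ∀ j l, j ≠ l → QuadraticMap.polar ⇑Q (b j) (b l) = 0)
    (hspan : Submodule.span F (Set.range b) = LinearMap.ker (Matrix.toLin' (gm g) + 1)) :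
    gm g = ((List.ofFn b).map (fun v => Cfsg.reflectionMatrix ⇑Q v)).prod := by
  have hiso : ∀ x, Q (gm g *ᵥ x) = Q x := fun x => g.2 x x
  have hpol : ∀ x y, QuadraticMap.polar ⇑Q (gm g *ᵥ x) (gm g *ᵥ y) = QuadraticMap.polar ⇑Q x y := by
    intro x y
    unfold QuadraticMap.polar
    rw [← Matrix.mulVec_add, hiso, hiso, hiso]
  have hker : ∀ y, y ∈ LinearMap.ker (Matrix.toLin' (gm g) + 1) ↔ gm g *ᵥ y = - y := by
    intro y
    rw [LinearMap.mem_ker, LinearMap.add_apply, Matrix.toLin'_apply, Module.End.one_apply,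
      add_eq_zero_iff_eq_neg]
  have hbker : ∀ j, gm g *ᵥ b j = - b j := fun j =>
    (hker _).1 (hspan ▸ Submodule.subset_span (Set.mem_range_self j))
  have hRneg : ∀ y ∈ LinearMap.ker (Matrix.toLin' (gm g) + 1),
      ((List.ofFn b).map (fun v => Cfsg.reflectionMatrix ⇑Q v)).prod *ᵥ y = - y := by
    intro y hy
    rw [← hspan] at hy
    induction hy using Submodule.span_induction with
    | mem y hy => obtain ⟨j, rfl⟩ := hy; exact refl_prod_neg Q s b hb0 hbo j
    | zero => simp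
    | add y z _ _ hy hz => rw [Matrix.mulVec_add, hy, hz, neg_add]
    | smul c y _ hy => rw [Matrix.mulVec_smul, hy, smul_neg]
  have hRfix : ∀ y, gm g *ᵥ y = y →
      ((List.ofFn b).map (fun v => Cfsg.reflectionMatrix ⇑Q v)).prod *ᵥ y = y := by
    intro y hy
    apply refl_prod_fix
    intro v hv
    rw [List.mem_ofFn] at hv
    obtain ⟨j, rfl⟩ := hv
    have h1 : QuadraticMap.polar ⇑Q (b j) y = - QuadraticMap.polar ⇑Q (b j) y := by
      conv_lhs => rw [← hpol (b j) y, hbker j, hy, QuadraticMap.polar_neg_left]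
    have h3 : (2 : F) * QuadraticMap.polar ⇑Q (b j) y = 0 := by linear_combination h1
    exact (mul_eq_zero.1 h3).resolve_left h2
  apply Matrix.toLin'.injective
  apply LinearMap.ext
  intro x
  rw [Matrix.toLin'_apply, Matrix.toLin'_apply]
  have hMM : ∀ y, gm g *ᵥ (gm g *ᵥ y) = y := by
    intro y; rw [Matrix.mulVec_mulVec, hg2, Matrix.one_mulVec]
  have hx : x = (2 : F)⁻¹ • (x + gm g *ᵥ x) + (2 : F)⁻¹ • (x - gm g *ᵥ x) := by
    rw [← smul_add, show x + gm g *ᵥ x + (x - gm g *ᵥ x) = (2 : F) • x by rw [two_smul]; abel,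
      smul_smul, inv_mul_cancel₀ h2, one_smul]
  have hp : gm g *ᵥ ((2 : F)⁻¹ • (x + gm g *ᵥ x)) = (2 : F)⁻¹ • (x + gm g *ᵥ x) := by
    rw [Matrix.mulVec_smul, Matrix.mulVec_add, hMM, add_comm]
  have hm : gm g *ᵥ ((2 : F)⁻¹ • (x - gm g *ᵥ x)) = - ((2 : F)⁻¹ • (x - gm g *ᵥ x)) := by
    rw [Matrix.mulVec_smul, Matrix.mulVec_sub, hMM, ← smul_neg, neg_sub]
  conv_lhs => rw [hx]
  conv_rhs => rw [hx]
  rw [Matrix.mulVec_add, Matrix.mulVec_add, hp, hm, hRfix _ hp, hRneg _ ((hker _).2 hm)]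

end grp

end Cfsg.Agent.Helper93.OT5972
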