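import Mathlib
import Cfsg.Agent.Helper43.OTDefs
import Cfsg.Agent.Helper45.Spinor
import Cfsg.Agent.Helper93.OTREFL

set_option autoImplicit false

/-!
# CALL OT (S5972, helper43), piece SPINSQ: the `(-1)`-eigenspace of an involution of `Ω` has even
dimension and square discriminant.
-/

namespace Cfsg.Agent.Helper93.OT5972

open Module Polynomial Cfsg.Agent.Helper90.HT Cfsg.Agent.Helper43.OT
open Cfsg.Agent.Helper43.C3O (gm)

universe u

section grp2

variable {F : Type u} [Field F] [Fintype F] {ι : Type} [Fintype ι] [DecidableEq ι]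

/-- SPINSQ (uses REFL, `Helper45.spin_prod_refl`, `Helper45.mem_omega_iff`). -/
theorem ot_spin_sq (Q : QuadraticForm F (ι → F)) (h2 : (2 : F) ≠ 0)
    (hQ : (QuadraticMap.polarBilin Q).Nondegenerate) (hcard : 2 ≤ Fintype.card ι)
    (g : ↥(Cfsg.isometryGroup F ⇑Q)) (hgΩ : g ∈ Cfsg.Omega F ⇑Q) (hg2 : gm g * gm g = 1)
    (s : ℕ) (b : Fin s → ι → F) (hb0 : ∀ j, Q (b j) ≠ 0)
    (hbo : ∀ j l, j ≠ l → QuadraticMap.polar ⇑Q (b j) (b l) = 0)
    (hspan : Submodule.span F (Set.range b) = LinearMap.ker (Matrix.toLin' (gm g) + 1)) :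
    Even s ∧ IsSquare (∏ j, Q (b j)) := by
  have hrefl := ot_refl_prod Q h2 hQ g hg2 s b hb0 hbo hspan
  have hchar : ringChar F ≠ 2 := by
    intro hc
    apply h2
    have h3 : ((ringChar F : ℕ) : F) = 0 := ringChar.Nat.cast_ringChar
    rw [hc] at h3
    exact_mod_cast h3
  obtain ⟨ε, hε⟩ := FiniteField.exists_nonsquare hchar
  obtain ⟨hs1, hsε⟩ := (Cfsg.Agent.Helper45.mem_omega_iff Q h2 hQ hcard ε hε g).1 hgΩ
  obtain ⟨hprod, hsq, _⟩ := Cfsg.Agent.Helper45.spin_prod_refl Q h2 ε hε (List.ofFn b)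
    (by
      intro v hv
      rw [List.mem_ofFn] at hv
      obtain ⟨j, rfl⟩ := hv
      exact hb0 j) g hrefl
  rw [hs1, hsε, one_mul, List.length_ofFn] at hprod
  constructor
  · exact (neg_one_pow_eq_one_iff_even (by decide : (-1 : ℤˣ) ≠ 1)).1 hprod.symm
  · have h4 := hsq.1 hsε
    rw [List.map_ofFn, List.prod_ofFn] at h4
    exact h4

end grp2

end Cfsg.Agent.Helper93.OT5972
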