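import Mathlib
import Cfsg.Prelude.Def_Sporadic_a

set_option autoImplicit false
set_option linter.unusedSectionVars false

/-!
Abstract Golay codes: a binary code `C` of dimension 12 on 24 coordinates with minimum weight
at least 8.  Cosets (words of weight at most 4), Steiner system of the octads, spanning by
octads, double evenness.  Stated for an arbitrary coordinate type `α` with 24 elements, so that
it applies both to `Fin 24` and to `Cfsg.GolayPt`.
-/

namespace Cfsg.Agent.Helper93

open Finset

section Words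

variable {α : Type*} [Fintype α] [DecidableEq α]

/-- the support of a binary word -/
def supp (u : α → ZMod 2) : Finset α := Finset.univ.filter (fun i => u i ≠ 0)

/-- the binary word with a given support -/
def ind (s : Finset α) : α → ZMod 2 := fun i => if i ∈ s then 1 else 0

theorem zmod2_cases : ∀ x : ZMod 2, x = 0 ∨ x = 1 := by decide

theorem mem_supp {u : α → ZMod 2} {i : α} : i ∈ supp u ↔ u i = 1 := by
  unfold supp
  rw [Finset.mem_filter]
  constructor
  · rintro ⟨_, h⟩
    rcases zmod2_cases (u i) with h0 | h1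
    · exact absurd h0 h
    · exact h1
  · intro h
    refine ⟨Finset.mem_univ _, ?_⟩
    rw [h]; decide

theorem not_mem_supp {u : α → ZMod 2} {i : α} : i ∉ supp u ↔ u i = 0 := by
  rw [mem_supp]
  rcases zmod2_cases (u i) with h0 | h1
  · rw [h0]; simp
  · rw [h1]; simp

theorem hammingNorm_eq_card_supp (u : α → ZMod 2) : hammingNorm u = (supp u).card := by
  unfold hammingNorm supp
  congr

theorem supp_ind (s : Finset α) : supp (ind s) = s := by
  ext i
  rw [mem_supp]
  unfold ind
  by_cases h : i ∈ s <;> simp [h]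

theorem ind_supp (u : α → ZMod 2) : ind (supp u) = u := by
  funext i
  unfold ind
  by_cases h : i ∈ supp u
  · rw [if_pos h]; exact (mem_supp.mp h).symm
  · rw [if_neg h]; exact (not_mem_supp.mp h).symm

theorem supp_injective : Function.Injective (supp : (α → ZMod 2) → Finset α) := by
  intro u v h
  rw [← ind_supp u, ← ind_supp v, h]

theorem supp_eq_empty {u : α → ZMod 2} : supp u = ∅ ↔ u = 0 := by
  constructor
  · intro h
    rw [← ind_supp u, h]
    funext i
    simp [ind]
  · rintro rfl
    ext i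
    simp [mem_supp]

theorem supp_add (u v : α → ZMod 2) : supp (u + v) = symmDiff (supp u) (supp v) := by
  ext i
  rw [Finset.mem_symmDiff, mem_supp, mem_supp, mem_supp, Pi.add_apply]
  rcases zmod2_cases (u i) with h0 | h0 <;> rcases zmod2_cases (v i) with h1 | h1 <;>
    rw [h0, h1] <;> decide

theorem sub_eq_add' (u v : α → ZMod 2) : u - v = u + v := by
  funext i
  rw [Pi.sub_apply, Pi.add_apply]
  rcases zmod2_cases (u i) with h0 | h0 <;> rcases zmod2_cases (v i) with h1 | h1 <;>
    rw [h0, h1] <;> decide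

theorem card_symmDiff_add (s t : Finset α) :
    (symmDiff s t).card + 2 * (s ∩ t).card = s.card + t.card := by
  have h1 : (symmDiff s t) = (s \ t) ∪ (t \ s) := rfl
  have hd : Disjoint (s \ t) (t \ s) := by
    rw [Finset.disjoint_left]
    intro a ha hb
    rw [Finset.mem_sdiff] at ha hb
    exact ha.2 hb.1
  rw [h1, Finset.card_union_of_disjoint hd]
  have e1 := Finset.card_sdiff_add_card_inter s t
  have e2 := Finset.card_sdiff_add_card_inter t s
  rw [Finset.inter_comm t s] at e2
  omega

/-- weight of a sum -/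
theorem norm_add (u v : α → ZMod 2) :
    hammingNorm (u + v) + 2 * (supp u ∩ supp v).card = hammingNorm u + hammingNorm v := by
  rw [hammingNorm_eq_card_supp, hammingNorm_eq_card_supp, hammingNorm_eq_card_supp, supp_add]
  exact card_symmDiff_add _ _

/-- the dot product counts the common support modulo 2 -/
theorem dot_eq_card (u v : α → ZMod 2) :
    ∑ i, u i * v i = (((supp u ∩ supp v).card : ℕ) : ZMod 2) := by
  have : ∀ i, u i * v i = if i ∈ supp u ∩ supp v then 1 else 0 := by
    intro i
    by_cases h : i ∈ supp u ∩ supp v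
    · rw [if_pos h]
      rw [Finset.mem_inter, mem_supp, mem_supp] at h
      rw [h.1, h.2]; decide
    · rw [if_neg h]
      rw [Finset.mem_inter, not_and_or, not_mem_supp, not_mem_supp] at h
      rcases h with h | h <;> rw [h] <;> simp
  simp_rw [this]
  rw [Finset.sum_ite_mem, Finset.univ_inter, Finset.sum_const, nsmul_eq_mul, mul_one]

theorem dot_eq_zero_iff (u v : α → ZMod 2) :
    ∑ i, u i * v i = 0 ↔ Even (supp u ∩ supp v).card := by
  rw [dot_eq_card, ZMod.natCast_eq_zero_iff_even]

/-- the number of binary words of a given weight -/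
theorem card_weight_eq (k : ℕ) :
    (Finset.univ.filter (fun u : α → ZMod 2 => hammingNorm u = k)).card =
      (Fintype.card α).choose k := by
  rw [← Finset.card_univ (α := α), ← Finset.card_powersetCard k (Finset.univ : Finset α)]
  apply Finset.card_bij (fun u _ => supp u)
  · intro u hu
    rw [Finset.mem_filter] at hu
    rw [Finset.mem_powersetCard]
    exact ⟨Finset.subset_univ _, by rw [← hammingNorm_eq_card_supp]; exact hu.2⟩
  · intro u _ v _ h
    exact supp_injective h
  · intro s hs
    rw [Finset.mem_powersetCard] at hs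
    refine ⟨ind s, ?_, supp_ind s⟩
    rw [Finset.mem_filter]
    exact ⟨Finset.mem_univ _, by rw [hammingNorm_eq_card_supp, supp_ind]; exact hs.2⟩

end Words

section Code

variable {α : Type*} [Fintype α] [DecidableEq α]
  (C : Submodule (ZMod 2) (α → ZMod 2))

/-- Two distinct words of weight at most 4 in one coset of a code of minimum weight at least 8
both have weight 4 and have disjoint supports. -/
theorem coset_pair (hmin : ∀ w ∈ C, w ≠ 0 → 8 ≤ hammingNorm w) {u u' : α → ZMod 2}
    (h : u - u' ∈ C) (hne : u ≠ u') (hu : hammingNorm u ≤ 4) (hu' : hammingNorm u' ≤ 4) :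
    hammingNorm u = 4 ∧ hammingNorm u' = 4 ∧ Disjoint (supp u) (supp u') := by
  have h8 := hmin _ h (sub_ne_zero.mpr hne)
  rw [sub_eq_add'] at h8
  have hadd := norm_add u u'
  have hc : (supp u ∩ supp u').card = 0 := by omega
  refine ⟨by omega, by omega, ?_⟩
  rw [Finset.disjoint_iff_inter_eq_empty]
  exact Finset.card_eq_zero.mp hc

open Classical in
/-- words of weight at most 3 in the coset of `w` -/
noncomputable def T3 (w : α → ZMod 2) : Finset (α → ZMod 2) :=
  (Finset.univ.filter (fun u : α → ZMod 2 => hammingNorm u ≤ 3)).filter (fun u => u - w ∈ C)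

open Classical in
/-- words of weight 4 in the coset of `w` -/
noncomputable def T4 (w : α → ZMod 2) : Finset (α → ZMod 2) :=
  (Finset.univ.filter (fun u : α → ZMod 2 => hammingNorm u = 4)).filter (fun u => u - w ∈ C)

theorem mem_T3 {w u : α → ZMod 2} : u ∈ T3 C w ↔ hammingNorm u ≤ 3 ∧ u - w ∈ C := by
  simp only [T3, Finset.mem_filter, Finset.mem_univ, true_and]

theorem mem_T4 {w u : α → ZMod 2} : u ∈ T4 C w ↔ hammingNorm u = 4 ∧ u - w ∈ C := by
  simp only [T4, Finset.mem_filter, Finset.mem_univ, true_and]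

theorem same_coset {w u u' : α → ZMod 2} (h : u - w ∈ C) (h' : u' - w ∈ C) : u - u' ∈ C := by
  have : u - u' = (u - w) - (u' - w) := by abel
  rw [this]
  exact C.sub_mem h h'

theorem card_T3_le (hmin : ∀ w ∈ C, w ≠ 0 → 8 ≤ hammingNorm w) (w : α → ZMod 2) :
    (T3 C w).card ≤ 1 := by
  rw [Finset.card_le_one]
  intro u hu u' hu'
  rw [mem_T3] at hu hu'
  by_contra hne
  have := coset_pair C hmin (same_coset C hu.2 hu'.2) hne (by omega) (by omega)
  omega

theorem T4_empty_of_T3 (hmin : ∀ w ∈ C, w ≠ 0 → 8 ≤ hammingNorm w) (w : α → ZMod 2)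
    (h : (T3 C w).Nonempty) : T4 C w = ∅ := by
  obtain ⟨u, hu⟩ := h
  rw [mem_T3] at hu
  rw [Finset.eq_empty_iff_forall_notMem]
  intro u' hu'
  rw [mem_T4] at hu'
  have hne : u ≠ u' := by
    rintro rfl
    omega
  have := coset_pair C hmin (same_coset C hu.2 hu'.2) hne (by omega) (by omega)
  omega

theorem T4_disjoint (hmin : ∀ w ∈ C, w ≠ 0 → 8 ≤ hammingNorm w) (w : α → ZMod 2)
    {u u' : α → ZMod 2} (hu : u ∈ T4 C w) (hu' : u' ∈ T4 C w) (hne : u ≠ u') :
    Disjoint (supp u) (supp u') := by
  rw [mem_T4] at hu hu'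
  exact (coset_pair C hmin (same_coset C hu.2 hu'.2) hne (by omega) (by omega)).2.2

theorem card_T4_mul (hmin : ∀ w ∈ C, w ≠ 0 → 8 ≤ hammingNorm w) (w : α → ZMod 2) :
    ((T4 C w).biUnion supp).card = 4 * (T4 C w).card := by
  rw [Finset.card_biUnion]
  · rw [Finset.sum_const_nat (m := 4)]
    · ring
    · intro u hu
      rw [mem_T4] at hu
      rw [← hammingNorm_eq_card_supp]; exact hu.1
  · intro u hu u' hu' hne
    exact T4_disjoint C hmin w hu hu' hne

theorem card_T4_le (hα : Fintype.card α = 24) (hmin : ∀ w ∈ C, w ≠ 0 → 8 ≤ hammingNorm w)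
    (w : α → ZMod 2) : (T4 C w).card ≤ 6 := by
  have h1 := card_T4_mul C hmin w
  have h2 : ((T4 C w).biUnion supp).card ≤ Fintype.card α := Finset.card_le_univ _
  omega

open Classical in
theorem card_coset_filter (u : α → ZMod 2) :
    (Finset.univ.filter (fun w : α → ZMod 2 => u - w ∈ C)).card = Nat.card C := by
  rw [Nat.card_eq_fintype_card, Fintype.card_subtype]
  apply Finset.card_bij (fun w _ => u - w)
  · intro w hw
    rw [Finset.mem_filter] at hw ⊢
    exact ⟨Finset.mem_univ _, hw.2⟩
  · intro w _ w' _ h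
    exact sub_right_injective h
  · intro c hc
    rw [Finset.mem_filter] at hc
    refine ⟨u - c, ?_, by abel⟩
    rw [Finset.mem_filter]
    refine ⟨Finset.mem_univ _, ?_⟩
    have : u - (u - c) = c := by abel
    rw [this]; exact hc.2

theorem card_C (hdim : Module.finrank (ZMod 2) C = 12) : Nat.card C = 4096 := by
  have : Module.Finite (ZMod 2) C := Module.finite_of_finrank_pos (by omega)
  rw [Module.natCard_eq_pow_finrank (K := ZMod 2) (V := C), hdim]
  simp

open Classical in
theorem sum_card_T3 (hα : Fintype.card α = 24) (hdim : Module.finrank (ZMod 2) C = 12) :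
    ∑ w : α → ZMod 2, (T3 C w).card = 2325 * 4096 := by
  have h := Finset.sum_card_bipartiteAbove_eq_sum_card_bipartiteBelow
    (s := (Finset.univ : Finset (α → ZMod 2)))
    (t := Finset.univ.filter (fun u : α → ZMod 2 => hammingNorm u ≤ 3))
    (fun (w u : α → ZMod 2) => u - w ∈ C)
  have e1 : ∀ w : α → ZMod 2, (T3 C w).card =
      (Finset.bipartiteAbove (fun (w u : α → ZMod 2) => u - w ∈ C)
        (Finset.univ.filter (fun u : α → ZMod 2 => hammingNorm u ≤ 3)) w).card := by
    intro w
    unfold T3 Finset.bipartiteAbove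
    congr 1
  simp_rw [e1]
  rw [h]
  have e2 : ∀ u : α → ZMod 2, (Finset.bipartiteBelow (fun (w u : α → ZMod 2) => u - w ∈ C)
      (Finset.univ : Finset (α → ZMod 2)) u).card = 4096 := by
    intro u
    unfold Finset.bipartiteBelow
    rw [card_coset_filter C u, card_C C hdim]
  simp_rw [e2]
  rw [Finset.sum_const, smul_eq_mul]
  congr 1
  -- count the words of weight at most 3
  have hfib := Finset.card_eq_sum_card_fiberwise
    (s := Finset.univ.filter (fun u : α → ZMod 2 => hammingNorm u ≤ 3))
    (t := Finset.range 4) (f := fun u : α → ZMod 2 => hammingNorm u)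
    (by
      intro u hu
      rw [Finset.mem_coe, Finset.mem_filter] at hu
      rw [Finset.mem_coe, Finset.mem_range]
      show hammingNorm u < 4
      omega)
  rw [hfib]
  have e3 : ∀ k ∈ Finset.range 4,
      ((Finset.univ.filter (fun u : α → ZMod 2 => hammingNorm u ≤ 3)).filter
        (fun u => hammingNorm u = k)).card = (24).choose k := by
    intro k hk
    rw [Finset.mem_range] at hk
    rw [← hα, ← card_weight_eq (α := α) k]
    congr 1
    ext u
    simp only [Finset.mem_filter, Finset.mem_univ, true_and]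
    constructor
    · exact fun h => h.2
    · exact fun h => ⟨by omega, h⟩
  rw [Finset.sum_congr rfl e3]
  decide

open Classical in
theorem sum_card_T4 (hα : Fintype.card α = 24) (hdim : Module.finrank (ZMod 2) C = 12) :
    ∑ w : α → ZMod 2, (T4 C w).card = 10626 * 4096 := by
  have h := Finset.sum_card_bipartiteAbove_eq_sum_card_bipartiteBelow
    (s := (Finset.univ : Finset (α → ZMod 2)))
    (t := Finset.univ.filter (fun u : α → ZMod 2 => hammingNorm u = 4))
    (fun (w u : α → ZMod 2) => u - w ∈ C)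
  have e1 : ∀ w : α → ZMod 2, (T4 C w).card =
      (Finset.bipartiteAbove (fun (w u : α → ZMod 2) => u - w ∈ C)
        (Finset.univ.filter (fun u : α → ZMod 2 => hammingNorm u = 4)) w).card := by
    intro w
    unfold T4 Finset.bipartiteAbove
    congr 1
  simp_rw [e1]
  rw [h]
  have e2 : ∀ u : α → ZMod 2, (Finset.bipartiteBelow (fun (w u : α → ZMod 2) => u - w ∈ C)
      (Finset.univ : Finset (α → ZMod 2)) u).card = 4096 := by
    intro u
    unfold Finset.bipartiteBelow
    rw [card_coset_filter C u, card_C C hdim]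
  simp_rw [e2]
  rw [Finset.sum_const, smul_eq_mul]
  congr 1
  have := card_weight_eq (α := α) 4
  rw [hα] at this
  rw [show (10626 : ℕ) = (24).choose 4 by decide, ← this]

/-- The key count: every coset contains exactly one word of weight at most 3 and no word of
weight 4, or no word of weight at most 3 and exactly six words of weight 4. -/
theorem coset_count (hα : Fintype.card α = 24) (hdim : Module.finrank (ZMod 2) C = 12)
    (hmin : ∀ w ∈ C, w ≠ 0 → 8 ≤ hammingNorm w) (w : α → ZMod 2) :
    ((T3 C w).card = 1 ∧ (T4 C w).card = 0) ∨ ((T3 C w).card = 0 ∧ (T4 C w).card = 6) := by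
  have hle : ∀ w ∈ (Finset.univ : Finset (α → ZMod 2)),
      6 * (T3 C w).card + (T4 C w).card ≤ 6 := by
    intro w _
    have h3 := card_T3_le C hmin w
    have h4 := card_T4_le C hα hmin w
    by_cases h : (T3 C w).Nonempty
    · rw [T4_empty_of_T3 C hmin w h, Finset.card_empty]; omega
    · rw [Finset.not_nonempty_iff_eq_empty] at h
      rw [h, Finset.card_empty]; omega
  have hsum : ∑ w : α → ZMod 2, (6 * (T3 C w).card + (T4 C w).card) =
      ∑ _w : α → ZMod 2, 6 := by
    rw [Finset.sum_add_distrib, ← Finset.mul_sum, sum_card_T3 C hα hdim, sum_card_T4 C hα hdim,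
      Finset.sum_const, Finset.card_univ, Fintype.card_fun, hα, ZMod.card, smul_eq_mul]
    norm_num
  have hall := (Finset.sum_eq_sum_iff_of_le hle).mp hsum w (Finset.mem_univ w)
  have h3 := card_T3_le C hmin w
  by_cases h : (T3 C w).Nonempty
  · left
    rw [T4_empty_of_T3 C hmin w h, Finset.card_empty] at hall ⊢
    omega
  · right
    rw [Finset.not_nonempty_iff_eq_empty] at h
    rw [h, Finset.card_empty] at hall ⊢
    omega

theorem coset_set_eq (w : α → ZMod 2) :
    {u : α → ZMod 2 | u - w ∈ C ∧ hammingNorm u ≤ 4} = ↑(T3 C w) ∪ ↑(T4 C w) := by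
  ext u
  rw [Set.mem_ofPred_eq, Set.mem_union, Finset.mem_coe, Finset.mem_coe, mem_T3, mem_T4]
  constructor
  · rintro ⟨h1, h2⟩
    by_cases h : hammingNorm u ≤ 3
    · exact Or.inl ⟨h, h1⟩
    · exact Or.inr ⟨by omega, h1⟩
  · rintro (⟨h1, h2⟩ | ⟨h1, h2⟩)
    · exact ⟨h2, by omega⟩
    · exact ⟨h2, by omega⟩

/-- The coset theorem (general form of S5623). -/
theorem coset_structure (hα : Fintype.card α = 24) (hdim : Module.finrank (ZMod 2) C = 12)
    (hmin : ∀ w ∈ C, w ≠ 0 → 8 ≤ hammingNorm w) (w : α → ZMod 2) :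
    (∃ u : α → ZMod 2, {u : α → ZMod 2 | u - w ∈ C ∧ hammingNorm u ≤ 4} = {u} ∧
        hammingNorm u ≤ 3) ∨
    ({u : α → ZMod 2 | u - w ∈ C ∧ hammingNorm u ≤ 4}.ncard = 6 ∧
      ∀ u ∈ {u : α → ZMod 2 | u - w ∈ C ∧ hammingNorm u ≤ 4}, hammingNorm u = 4 ∧
        ∀ u' ∈ {u : α → ZMod 2 | u - w ∈ C ∧ hammingNorm u ≤ 4}, u ≠ u' →
          Disjoint (Finset.univ.filter fun i => u i ≠ 0) (Finset.univ.filter fun i => u' i ≠ 0)) := by
  rw [coset_set_eq C w]
  rcases coset_count C hα hdim hmin w with ⟨h3, h4⟩ | ⟨h3, h4⟩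
  · left
    rw [Finset.card_eq_one] at h3
    obtain ⟨u, hu⟩ := h3
    rw [Finset.card_eq_zero] at h4
    refine ⟨u, ?_, ?_⟩
    · rw [hu, h4]; simp
    · have : u ∈ T3 C w := by rw [hu]; exact Finset.mem_singleton_self u
      exact (mem_T3 C).mp this |>.1
  · right
    rw [Finset.card_eq_zero] at h3
    rw [h3, Finset.coe_empty, Set.empty_union]
    refine ⟨by rw [Set.ncard_coe_finset]; exact h4, ?_⟩
    intro u hu
    rw [Finset.mem_coe] at hu
    refine ⟨((mem_T4 C).mp hu).1, ?_⟩
    intro u' hu' hne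
    rw [Finset.mem_coe] at hu'
    exact T4_disjoint C hmin w hu hu' hne

theorem support₂_eq_supp (u : α → ZMod 2) : Cfsg.support₂ u = supp u := by
  unfold Cfsg.support₂ supp
  congr

/-- Through any 5 coordinates there is a codeword of weight 8. -/
theorem exists_octad (hα : Fintype.card α = 24) (hdim : Module.finrank (ZMod 2) C = 12)
    (hmin : ∀ w ∈ C, w ≠ 0 → 8 ≤ hammingNorm w) (s : Finset α) (hs : s.card = 5) :
    ∃ c ∈ C, hammingNorm c = 8 ∧ s ⊆ supp c := by
  have hne : s.Nonempty := by
    rw [← Finset.card_pos]; omega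
  obtain ⟨a, ha⟩ := hne
  set s' := s.erase a with hs'
  have hs'card : s'.card = 4 := by
    rw [hs', Finset.card_erase_of_mem ha, hs]
  set w := ind s' with hw
  have hwn : hammingNorm w = 4 := by
    rw [hammingNorm_eq_card_supp, hw, supp_ind, hs'card]
  have hwT : w ∈ T4 C w := by
    rw [mem_T4]
    exact ⟨hwn, by rw [sub_self]; exact C.zero_mem⟩
  have h6 : (T4 C w).card = 6 := by
    rcases coset_count C hα hdim hmin w with ⟨_, h4⟩ | ⟨_, h4⟩
    · rw [Finset.card_eq_zero] at h4
      rw [h4] at hwT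
      exact absurd hwT (Finset.notMem_empty _)
    · exact h4
  have hun : (T4 C w).biUnion supp = Finset.univ := by
    apply Finset.eq_univ_of_card
    rw [card_T4_mul C hmin w, h6, hα]
  have haU : a ∈ (T4 C w).biUnion supp := by rw [hun]; exact Finset.mem_univ a
  rw [Finset.mem_biUnion] at haU
  obtain ⟨u', hu'T, hau'⟩ := haU
  have hu'w : u' ≠ w := by
    rintro rfl
    rw [hw, supp_ind, hs'] at hau'
    exact (Finset.notMem_erase a s) hau'
  have hdisj := T4_disjoint C hmin w hu'T hwT hu'w
  have hu' := (mem_T4 C).mp hu'T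
  refine ⟨u' - w, hu'.2, ?_, ?_⟩
  · rw [sub_eq_add']
    have := norm_add u' w
    rw [Finset.disjoint_iff_inter_eq_empty.mp hdisj, Finset.card_empty] at this
    omega
  · rw [sub_eq_add', supp_add]
    intro x hx
    rw [Finset.mem_symmDiff]
    by_cases hxa : x = a
    · left
      rw [hxa]
      refine ⟨hau', ?_⟩
      rw [hw, supp_ind, hs']
      exact Finset.notMem_erase a s
    · right
      have hxs' : x ∈ supp w := by
        rw [hw, supp_ind, hs']
        exact Finset.mem_erase.mpr ⟨hxa, hx⟩
      refine ⟨hxs', ?_⟩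
      intro hxu'
      exact (Finset.disjoint_left.mp hdisj) hxu' hxs'

/-- Two codewords of weight 8 sharing 5 coordinates coincide. -/
theorem octad_unique (hmin : ∀ w ∈ C, w ≠ 0 → 8 ≤ hammingNorm w) {c₁ c₂ : α → ZMod 2}
    (h₁ : c₁ ∈ C) (h₂ : c₂ ∈ C) (hn₁ : hammingNorm c₁ = 8) (hn₂ : hammingNorm c₂ = 8)
    (s : Finset α) (hs : s.card = 5) (hs₁ : s ⊆ supp c₁) (hs₂ : s ⊆ supp c₂) : c₁ = c₂ := by
  by_contra hne
  have h8 := hmin _ (C.sub_mem h₁ h₂) (sub_ne_zero.mpr hne)
  rw [sub_eq_add'] at h8
  have hadd := norm_add c₁ c₂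
  have hsub : s ⊆ supp c₁ ∩ supp c₂ := Finset.subset_inter hs₁ hs₂
  have := Finset.card_le_card hsub
  omega

/-- The words of weight 8 of an abstract Golay code form a Steiner system S(5,8,24)
(general form of S5622). -/
theorem steiner (hα : Fintype.card α = 24) (hdim : Module.finrank (ZMod 2) C = 12)
    (hmin : ∀ w ∈ C, w ≠ 0 → 8 ≤ hammingNorm w) :
    (∃ w ∈ C, hammingNorm w = 8) ∧
      Cfsg.IsSteinerSystem 5 8 (Cfsg.wordsOfWeight (C : Set (α → ZMod 2)) 8) := by
  refine ⟨?_, ?_, ?_⟩
  · obtain ⟨s, _, hs⟩ := Finset.exists_subset_card_eq (s := (Finset.univ : Finset α)) (n := 5)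
      (by rw [Finset.card_univ, hα]; norm_num)
    obtain ⟨c, hc, hcn, _⟩ := exists_octad C hα hdim hmin s hs
    exact ⟨c, hc, hcn⟩
  · rintro b ⟨_, hb⟩
    exact hb
  · intro s hs
    obtain ⟨c, hc, hcn, hsc⟩ := exists_octad C hα hdim hmin s hs
    refine ⟨supp c, ⟨⟨⟨c, hc, support₂_eq_supp c⟩, ?_⟩, hsc⟩, ?_⟩
    · rw [← hammingNorm_eq_card_supp]; exact hcn
    · rintro b ⟨⟨⟨c', hc', rfl⟩, hb⟩, hsb⟩
      rw [support₂_eq_supp] at hb hsb ⊢
      have : c' = c := octad_unique C hmin hc' hc
        (by rw [hammingNorm_eq_card_supp]; exact hb) hcn s hs hsb hsc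
      rw [this]

/-- An abstract Golay code is spanned by its words of weight 8 (general form of S5624). -/
theorem span_octads (hα : Fintype.card α = 24) (hdim : Module.finrank (ZMod 2) C = 12)
    (hmin : ∀ w ∈ C, w ≠ 0 → 8 ≤ hammingNorm w) :
    Submodule.span (ZMod 2) {w : α → ZMod 2 | w ∈ C ∧ hammingNorm w = 8} = C := by
  apply le_antisymm
  · rw [Submodule.span_le]
    rintro w ⟨hw, _⟩
    exact hw
  · have key : ∀ n : ℕ, ∀ c ∈ C, hammingNorm c = n →
        c ∈ Submodule.span (ZMod 2) {w : α → ZMod 2 | w ∈ C ∧ hammingNorm w = 8} := by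
      intro n
      induction n using Nat.strong_induction_on with
      | _ n ih =>
        intro c hc hn
        by_cases hc0 : c = 0
        · rw [hc0]; exact Submodule.zero_mem _
        · have h8 := hmin c hc hc0
          rw [hammingNorm_eq_card_supp] at h8
          obtain ⟨s, hs, hs5⟩ := Finset.exists_subset_card_eq (s := supp c) (n := 5) (by omega)
          obtain ⟨o, ho, hon, hso⟩ := exists_octad C hα hdim hmin s hs5
          have hlt : hammingNorm (c + o) < n := by
            have h1 := norm_add c o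
            have hsub : s ⊆ supp c ∩ supp o := Finset.subset_inter hs hso
            have h2 := Finset.card_le_card hsub
            omega
          have hmem := ih _ hlt (c + o) (C.add_mem hc ho) rfl
          have hco : c = (c + o) + o := by
            rw [add_assoc, ← sub_eq_add' o o, sub_self, add_zero]
          rw [hco]
          exact Submodule.add_mem _ hmem (Submodule.subset_span ⟨ho, hon⟩)
    intro c hc
    exact key _ c hc rfl

/-- A self-orthogonal abstract Golay code is doubly even (general form of S5621). -/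
theorem doubly_even (hα : Fintype.card α = 24) (hdim : Module.finrank (ZMod 2) C = 12)
    (horth : ∀ v ∈ C, ∀ w ∈ C, ∑ i, v i * w i = 0)
    (hmin : ∀ w ∈ C, w ≠ 0 → 8 ≤ hammingNorm w) : ∀ w ∈ C, 4 ∣ hammingNorm w := by
  intro w hw
  rw [← span_octads C hα hdim hmin] at hw
  have hgoal : w ∈ C ∧ 4 ∣ hammingNorm w := by
    refine Submodule.span_induction (p := fun x _ => x ∈ C ∧ 4 ∣ hammingNorm x) ?_ ?_ ?_ ?_ hw
    · rintro x ⟨hx, hx8⟩
      exact ⟨hx, by rw [hx8]; norm_num⟩
    · exact ⟨C.zero_mem, by simp⟩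
    · rintro x y _ _ ⟨hx, hx4⟩ ⟨hy, hy4⟩
      refine ⟨C.add_mem hx hy, ?_⟩
      have h1 := norm_add x y
      have h2 := (dot_eq_zero_iff x y).mp (horth x hx y hy)
      obtain ⟨k, hk⟩ := h2
      omega
    · rintro a x _ ⟨hx, hx4⟩
      rcases zmod2_cases a with rfl | rfl
      · rw [zero_smul]
        exact ⟨C.zero_mem, by simp⟩
      · rw [one_smul]
        exact ⟨hx, hx4⟩
  exact hgoal.2

end Code

end Cfsg.Agent.Helper93
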