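import Mathlib
import Cfsg.Prelude.Def_Sporadic_a
import Cfsg.Agent.Helper93.GolayAbs

/-!
Two binary codes spanned by their words of weight 8, whose systems of weight-8 supports are
isomorphic, are equivalent.
-/

set_option autoImplicit false
set_option linter.unusedSectionVars false

namespace Cfsg.Agent.Helper93

open Cfsg

section CodeEquiv

variable {α : Type*} {β : Type*} [Fintype α] [DecidableEq α] [Fintype β] [DecidableEq β]

theorem support₂_mem_wordsOfWeight (C : Submodule (ZMod 2) (α → ZMod 2)) (w : α → ZMod 2)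
    (n : ℕ) : support₂ w ∈ wordsOfWeight (C : Set (α → ZMod 2)) n ↔
      w ∈ C ∧ hammingNorm w = n := by
  unfold wordsOfWeight supports
  rw [Set.mem_ofPred_eq, hammingNorm_eq_card_supp, ← support₂_eq_supp]
  constructor
  · rintro ⟨⟨w', hw', h⟩, hn⟩
    rw [support₂_eq_supp, support₂_eq_supp] at h
    have hww : w' = w := supp_injective h
    rw [← hww]
    rw [← hww] at hn
    exact ⟨hw', hn⟩
  · rintro ⟨hw, hn⟩
    exact ⟨⟨w, hw, rfl⟩, hn⟩

theorem support₂_comp (e : α ≃ β) (w : β → ZMod 2) :
    (support₂ (fun i => w (e i))).image e = support₂ w := by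
  ext x
  unfold support₂
  simp only [Finset.mem_image, Finset.mem_filter, Finset.mem_univ, true_and]
  constructor
  · rintro ⟨i, hi, rfl⟩
    exact hi
  · intro hx
    exact ⟨e.symm x, by simpa using hx, by simp⟩

theorem code_equiv_of_iso (C : Submodule (ZMod 2) (α → ZMod 2))
    (C' : Submodule (ZMod 2) (β → ZMod 2))
    (hC : Submodule.span (ZMod 2) {w : α → ZMod 2 | w ∈ C ∧ hammingNorm w = 8} = C)
    (hC' : Submodule.span (ZMod 2) {w : β → ZMod 2 | w ∈ C' ∧ hammingNorm w = 8} = C')
    (e : α ≃ β)
    (he : (fun b => b.image e) '' wordsOfWeight (C : Set (α → ZMod 2)) 8 =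
      wordsOfWeight (C' : Set (β → ZMod 2)) 8) :
    ∀ w : β → ZMod 2, w ∈ C' ↔ (fun i => w (e i)) ∈ C := by
  have hinj : Function.Injective (fun b : Finset α => b.image e) :=
    Finset.image_injective e.injective
  -- weight-8 words correspond
  have h8 : ∀ w : β → ZMod 2, (w ∈ C' ∧ hammingNorm w = 8) ↔
      ((fun i => w (e i)) ∈ C ∧ hammingNorm (fun i => w (e i)) = 8) := by
    intro w
    rw [← support₂_mem_wordsOfWeight, ← support₂_mem_wordsOfWeight, ← he, ← support₂_comp e w]
    exact hinj.mem_set_image
  let L : (β → ZMod 2) →ₗ[ZMod 2] (α → ZMod 2) := LinearMap.funLeft (ZMod 2) (ZMod 2) e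
  let L' : (α → ZMod 2) →ₗ[ZMod 2] (β → ZMod 2) := LinearMap.funLeft (ZMod 2) (ZMod 2) e.symm
  have hL : ∀ w : β → ZMod 2, L w = fun i => w (e i) := fun w => rfl
  have hL' : ∀ v : α → ZMod 2, L' v = fun i => v (e.symm i) := fun v => rfl
  have hLL' : ∀ v : α → ZMod 2, L (L' v) = v := by
    intro v; funext i; simp [hL, hL']
  have hL'L : ∀ w : β → ZMod 2, L' (L w) = w := by
    intro w; funext i; simp [hL, hL']
  intro w
  constructor
  · intro hw
    rw [← hC'] at hw
    have : ∀ x ∈ Submodule.span (ZMod 2) {w : β → ZMod 2 | w ∈ C' ∧ hammingNorm w = 8},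
        L x ∈ C := by
      intro x hx
      induction hx using Submodule.span_induction with
      | mem x hx => exact ((h8 x).1 hx).1
      | zero => rw [map_zero]; exact C.zero_mem
      | add x y _ _ hx hy => rw [map_add]; exact C.add_mem hx hy
      | smul a x _ hx => rw [map_smul]; exact C.smul_mem a hx
    exact this w hw
  · intro hw
    have hw' : L w ∈ C := hw
    rw [← hC] at hw'
    have : ∀ x ∈ Submodule.span (ZMod 2) {w : α → ZMod 2 | w ∈ C ∧ hammingNorm w = 8},
        L' x ∈ C' := by
      intro x hx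
      induction hx using Submodule.span_induction with
      | mem x hx =>
        have := (h8 (L' x)).2 (by
          have e1 : (fun i => L' x (e i)) = x := hLL' x
          rw [e1]; exact hx)
        exact this.1
      | zero => rw [map_zero]; exact C'.zero_mem
      | add x y _ _ hx hy => rw [map_add]; exact C'.add_mem hx hy
      | smul a x _ hx => rw [map_smul]; exact C'.smul_mem a hx
    have := this _ hw'
    rw [hL'L] at this
    exact this

end CodeEquiv

end Cfsg.Agent.Helper93
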