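/-
Helper93: orbit-stabiliser steps for subgroups of permutations of the 24 points, orders of groups given by
lists of tables, centralisers in `Cfsg.M24`, and the tetrads of a sextet.
-/
import Cfsg.Agent.Helper93.M24Fast

set_option autoImplicit false

namespace Cfsg.Agent.Helper93

open Cfsg Cfsg.Agent.Helper91
open scoped Pointwise

/-! ## Orbit-stabiliser -/

/-- Orbit-stabiliser for a subgroup of permutations of the points. -/
theorem card_orbit_step (G : Subgroup (Equiv.Perm GolayPt)) (b : GolayPt) (Ω : Finset GolayPt)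
    (h1 : ∀ g ∈ G, g b ∈ Ω) (h2 : ∀ y ∈ Ω, ∃ g ∈ G, g b = y) :
    Nat.card G = Ω.card * Nat.card ↥(G ⊓ MulAction.stabilizer (Equiv.Perm GolayPt) b) := by
  have h := Subgroup.card_mul_index (MulAction.stabilizer G b)
  rw [MulAction.index_stabilizer] at h
  have horbit : MulAction.orbit G b = (Ω : Set GolayPt) := by
    ext y
    constructor
    · rintro ⟨g, rfl⟩
      exact h1 g.1 g.2
    · intro hy
      obtain ⟨g, hg, e⟩ := h2 y hy
      exact ⟨⟨g, hg⟩, e⟩
  have e : ↥(MulAction.stabilizer G b) ≃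
      ↥(G ⊓ MulAction.stabilizer (Equiv.Perm GolayPt) b) :=
    { toFun := fun x => ⟨x.1.1, ⟨x.1.2, x.2⟩⟩
      invFun := fun y => ⟨⟨y.1, y.2.1⟩, y.2.2⟩
      left_inv := fun x => rfl
      right_inv := fun y => rfl }
  rw [← h, horbit, Set.ncard_coe_finset, Nat.card_congr e, Nat.mul_comm]

/-- The permutation of a table (the identity for an invalid table). -/
noncomputable def permT' (T : List Nat) : Equiv.Perm GolayPt :=
  if h : validTab T = true then permT T h else 1

theorem permT'_eq {T : List Nat} (h : validTab T = true) : permT' T = permT T h := dif_pos h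

/-- The order of a group whose elements are given by a list of distinct valid tables. -/
theorem card_of_tabs (G : Subgroup (Equiv.Perm GolayPt)) (L : List (List Nat)) (hL : L.Nodup)
    (hv : ∀ T ∈ L, validTab T = true) (h1 : ∀ T ∈ L, permT' T ∈ G)
    (h2 : ∀ g ∈ G, ∃ T ∈ L, permT' T = g) : Nat.card G = L.length := by
  classical
  have hset : (G : Set (Equiv.Perm GolayPt)) = ↑(L.toFinset.image permT') := by
    ext g
    simp only [Finset.coe_image, List.coe_toFinset, Set.mem_image, SetLike.mem_coe]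
    constructor
    · intro hg
      obtain ⟨T, hT, e⟩ := h2 g hg
      exact ⟨T, hT, e⟩
    · rintro ⟨T, hT, rfl⟩
      exact h1 T hT
  have hc : Nat.card G = (G : Set (Equiv.Perm GolayPt)).ncard := rfl
  rw [hc, hset, Set.ncard_coe_finset, Finset.card_image_of_injOn, List.toFinset_card_of_nodup hL]
  intro S hS T hT e
  rw [Finset.mem_coe, List.mem_toFinset] at hS hT
  rw [permT'_eq (hv S hS), permT'_eq (hv T hT)] at e
  exact permT_inj _ _ e

/-! ## Centralisers -/

/-- The centraliser of `t` in `M24`. -/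
def centM (t : Equiv.Perm GolayPt) : Subgroup (Equiv.Perm GolayPt) :=
  M24 ⊓ Subgroup.centralizer {t}

theorem mem_centM {t c : Equiv.Perm GolayPt} : c ∈ centM t ↔ c ∈ M24 ∧ c * t = t * c := by
  rw [centM, Subgroup.mem_inf, Subgroup.mem_centralizer_iff]
  constructor
  · rintro ⟨h1, h2⟩
    exact ⟨h1, (h2 t rfl).symm⟩
  · rintro ⟨h1, h2⟩
    refine ⟨h1, ?_⟩
    intro h hh
    rw [Set.mem_singleton_iff] at hh
    rw [hh, h2]

theorem conj_mem_centM {u t c : Equiv.Perm GolayPt} (hu : u ∈ M24) (hc : c ∈ centM t) :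
    u * c * u⁻¹ ∈ centM (u * t * u⁻¹) := by
  rw [mem_centM] at hc ⊢
  refine ⟨mul_mem (mul_mem hu hc.1) (inv_mem hu), ?_⟩
  have e1 : u * c * u⁻¹ * (u * t * u⁻¹) = u * (c * t) * u⁻¹ := by group
  have e2 : u * t * u⁻¹ * (u * c * u⁻¹) = u * (t * c) * u⁻¹ := by group
  rw [e1, e2, hc.2]

theorem conj_mem_centM' {u t c : Equiv.Perm GolayPt} (hu : u ∈ M24)
    (hc : c ∈ centM (u * t * u⁻¹)) : u⁻¹ * c * u ∈ centM t := by
  have := conj_mem_centM (inv_mem hu) hc
  have e : u⁻¹ * (u * t * u⁻¹) * u⁻¹⁻¹ = t := by group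
  rw [e, inv_inv] at this
  exact this

/-- Conjugate elements have centralisers of the same order. -/
theorem card_centM_conj {u : Equiv.Perm GolayPt} (hu : u ∈ M24) (t : Equiv.Perm GolayPt) :
    Nat.card (centM (u * t * u⁻¹)) = Nat.card (centM t) := by
  apply Nat.card_congr
  exact
    { toFun := fun c => ⟨u⁻¹ * c.1 * u, conj_mem_centM' hu c.2⟩
      invFun := fun c => ⟨u * c.1 * u⁻¹, conj_mem_centM hu c.2⟩
      left_inv := fun c => Subtype.ext (by simp only; group)
      right_inv := fun c => Subtype.ext (by simp only; group) }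

/-! ## Tetrads of a sextet -/

theorem sextet_disjoint {S : Finset (Finset GolayPt)} (hS : S ∈ sextets) {t u : Finset GolayPt}
    (ht : t ∈ S) (hu : u ∈ S) (hne : t ≠ u) : Disjoint t u := by
  obtain ⟨-, h4, hun⟩ := hS
  have ho := hun t ht u hu hne
  have h1 := Finset.card_union_add_card_inter t u
  rw [Helper26.octads_card ho, h4 t ht, h4 u hu] at h1
  rw [Finset.disjoint_iff_inter_eq_empty, ← Finset.card_eq_zero]
  omega

/-- The tetrads of a sextet cover the 24 points. -/
theorem sextet_cover {S : Finset (Finset GolayPt)} (hS : S ∈ sextets) (p : GolayPt) :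
    ∃ t ∈ S, p ∈ t := by
  have hcard : (S.biUnion id).card = 24 := by
    rw [Finset.card_biUnion]
    · have : ∀ t ∈ S, (id t).card = 4 := fun t ht => hS.2.1 t ht
      rw [Finset.sum_congr rfl this, Finset.sum_const, hS.1]; rfl
    · intro t ht u hu hne
      exact sextet_disjoint hS ht hu hne
  have huniv : S.biUnion id = Finset.univ := by
    apply Finset.eq_univ_of_card
    rw [hcard, Helper26.card_golayPt]
  have hp : p ∈ S.biUnion id := by rw [huniv]; exact Finset.mem_univ p
  rw [Finset.mem_biUnion] at hp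
  exact hp

theorem sextet_tetrad_unique {S : Finset (Finset GolayPt)} (hS : S ∈ sextets) {t u : Finset GolayPt}
    (ht : t ∈ S) (hu : u ∈ S) {p : GolayPt} (hp : p ∈ t) (hp' : p ∈ u) : t = u := by
  by_contra hne
  exact Finset.disjoint_left.1 (sextet_disjoint hS ht hu hne) hp hp'

end Cfsg.Agent.Helper93
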