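import Mathlib
import Cfsg.Prelude.Def_GeometricClasses
import Cfsg.Prelude.Def_Classical
import Cfsg.Agent.Helper58.TSDefs
import Cfsg.Agent.Helper43.PrimeOrdO3
import Cfsg.Agent.Helper33.OType
import Cfsg.Agent.Helper43.OTDefs
import Cfsg.Agent.Helper90.BGChain
import Cfsg.Agent.Helper46.BGLIRR
import Cfsg.Agent.Helper47.HTHTIB

set_option autoImplicit false

/-!
# Sub-CALL TB (helper43), piece CYCB.
-/

namespace Cfsg.Agent.Helper93.TB

open Module Polynomial Cfsg Cfsg.Geo Cfsg.Agent.Helper58.TS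
open Cfsg.Agent.Helper43 Cfsg.Agent.Helper43.OrthEven Cfsg.Agent.Helper43.CycFactors
  Cfsg.Agent.Helper43.PrimeOrdMat
open scoped MatrixGroups

universe u

section fin

variable {F : Type u} [Field F] [Fintype F]

/-- CYCB [S-M]: invariant totally singular subspaces of a block: dimension divisible by `i`, at most
half the dimension. -/
theorem tb_cyc_bound (r : ℕ) [Fact r.Prime] (hrF : (r : F) ≠ 0) {V : Type u} [AddCommGroup V]
    [Module F V] [FiniteDimensional F V] (Q : QuadraticForm F V) (T : Module.End F V)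
    (hnd : PolarNondeg Q) (hT : ∀ v, Q (T v) = Q v) (hcyc : aeval T (cyclotomic r F) = 0)
    (U : Submodule F V) (hUT : U.map T ≤ U) (hU : ∀ u ∈ U, Q u = 0) :
    ∃ s, finrank F U = orderOf ((Fintype.card F : ℕ) : ZMod r) * s ∧
      2 * finrank F U ≤ finrank F V := by
  -- `T ^ r = 1`
  have hTr : T ^ r = 1 := by
    have h1 : aeval T (cyclotomic r F * (X - 1)) = 0 := by
      rw [map_mul, hcyc, zero_mul]
    rw [Polynomial.cyclotomic_prime_mul_X_sub_one] at h1
    simp only [map_sub, map_pow, aeval_X, map_one] at h1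
    exact sub_eq_zero.1 h1
  -- no fixed vectors
  have hker : U ⊓ LinearMap.ker (T - 1) = ⊥ := by
    rw [eq_bot_iff]
    rintro v ⟨-, hv⟩
    have hv' : T v = v := by
      have e := LinearMap.mem_ker.1 hv
      rw [LinearMap.sub_apply, Module.End.one_apply, sub_eq_zero] at e
      exact e
    have hfix : ∀ j : ℕ, (T ^ j) v = v := by
      intro j
      induction j with
      | zero => simp
      | succ j ih => rw [pow_succ, Module.End.mul_apply, hv', ih]
    have h1 : aeval T (cyclotomic r F) v = (r : F) • v := by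
      rw [Polynomial.cyclotomic_prime, map_sum, LinearMap.sum_apply]
      simp only [map_pow, aeval_X, hfix]
      rw [Finset.sum_const, Finset.card_range, Nat.cast_smul_eq_nsmul]
    rw [hcyc, LinearMap.zero_apply] at h1
    rcases smul_eq_zero.1 h1.symm with h0 | h0
    · exact absurd h0 hrF
    · exact (Submodule.mem_bot F).2 h0
  have hdvd := Cfsg.Agent.Helper90.BG.cyc_dvd T r (orderOf ((Fintype.card F : ℕ) : ZMod r)) hrF hTr
    (fun g hg hgd => Cfsg.Agent.Helper46.bgl_irr_factor_degree r hrF g hg hgd) U hUT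
  rw [hker, finrank_bot, Nat.sub_zero] at hdvd
  obtain ⟨s, hs⟩ := hdvd
  refine ⟨s, hs, ?_⟩
  have hb := Cfsg.Agent.Helper47.HT5953.ht_bound (RingHom.id F) (Cfsg.Agent.Helper43.OT.ph Q)
    (Cfsg.Agent.Helper43.OT.isHerm_ph Q) ⊤ U
    (fun v _ hv => hnd v (fun w => hv w Submodule.mem_top)) le_top
    (fun u hu v hv => by
      rw [Cfsg.Agent.Helper43.OT.ph_apply, QuadraticMap.polar, hU _ (U.add_mem hu hv), hU u hu,
        hU v hv]
      simp)
  rw [finrank_top] at hb
  exact hb

end fin

end Cfsg.Agent.Helper93.TB
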