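import Mathlib
import Cfsg.Agent.Helper43.OTDefs

set_option autoImplicit false

/-!
# Sub-CALL TSOG (helper98), piece SING.
-/

namespace Cfsg.Agent.Helper93.TSOG

open Module Polynomial Cfsg.Agent.Helper90.HT Cfsg.Agent.Helper43.OT

variable {F : Type*} [Field F] {V : Type*} [AddCommGroup V] [Module F V] [FiniteDimensional F V]

/-- SING [S-M]: an invariant subspace, totally isotropic for the polar form and without fixed
vectors, is totally singular (all characteristics). -/
theorem og_sing (Q : QuadraticForm F V) (T : Module.End F V) (hT : ∀ v, Q (T v) = Q v)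
    (W₀ : Submodule F V) (hW₀ : HTI (ph Q) W₀) (hWT : W₀.map T ≤ W₀)
    (hWk : W₀ ⊓ LinearMap.ker (T - 1) = ⊥) : ∀ w ∈ W₀, Q w = 0 := by
  have hmem : ∀ x ∈ W₀, (T - 1) x ∈ W₀ := by
    intro x hx
    rw [LinearMap.sub_apply, Module.End.one_apply]
    exact W₀.sub_mem (hWT ⟨x, hx, rfl⟩) hx
  have hinj : Function.Injective ((T - 1).restrict hmem) := by
    rw [injective_iff_map_eq_zero]
    intro x hx
    have h1 : (T - 1) x.1 = 0 := by
      have := congrArg Subtype.val hx
      simpa using this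
    have h2 : x.1 ∈ W₀ ⊓ LinearMap.ker (T - 1) := ⟨x.2, LinearMap.mem_ker.2 h1⟩
    rw [hWk] at h2
    exact Subtype.ext ((Submodule.mem_bot F).1 h2)
  have hsurj := LinearMap.injective_iff_surjective.1 hinj
  have key : ∀ a b : V, Q (a - b) = Q a + Q b - ph Q a b := by
    intro a b
    have e1 : QuadraticMap.polar Q a (-b) = Q (a + -b) - Q a - Q (-b) := rfl
    rw [QuadraticMap.polar_neg_right, QuadraticMap.map_neg] at e1
    rw [sub_eq_add_neg, ph_apply]
    linear_combination -e1
  intro w hw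
  obtain ⟨v, hv⟩ := hsurj ⟨w, hw⟩
  have hv' : T v.1 - v.1 = w := by
    have := congrArg Subtype.val hv
    simpa using this
  have h0 : ph Q v.1 v.1 = 0 := hW₀ v.1 v.2 v.1 v.2
  rw [ph_self] at h0
  rw [← hv', key, hT, hW₀ (T v.1) (hWT ⟨v.1, v.2, rfl⟩) v.1 v.2, sub_zero, ← two_mul]
  exact h0

end Cfsg.Agent.Helper93.TSOG
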