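import Cfsg.Agent.Helper40.SUDefs

set_option autoImplicit false

namespace Cfsg.Agent.Helper93.SU

open Cfsg Cfsg.Lie Cfsg.Agent.Helper36 Cfsg.Agent.Helper40.DZ Cfsg.Agent.Helper40.SU

variable {D : ChevalleyDatum} {F : Type*} [Field F] {η : ℕ → ℕ → ℤ}

/-- FAC -/
theorem chev_factor (R : BRel D F η) {i : ℕ} (hi : i < D.rank) :
    ∀ u ∈ D.posUnipotent F, ∃ u' ∈ Subgroup.closure (upGens D F i), ∃ t : F,
      u = u' * xGL R.xadd (D.simple i) t := by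
  intro u hu
  obtain ⟨h1, h2⟩ := up_main R.xadd R.cf R.up hi
  have hu' : u ∈ ((Subgroup.closure (upGens D F i) ⊔ D.rootSubgroup F (D.simple i) :
      Subgroup (GL D.Idx F)) : Set (GL D.Idx F)) := by
    rw [h2]; exact hu
  rw [Subgroup.coe_mul_of_right_le_normalizer_left _ _ (le_sup_left.trans h1)] at hu'
  obtain ⟨u₁, hu₁, x, hx, rfl⟩ := hu'
  obtain ⟨t, rfl⟩ := (mem_rootSubgroup_iff R.xadd _ x).mp hx
  exact ⟨u₁, hu₁, t, rfl⟩

end Cfsg.Agent.Helper93.SU
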