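import Cfsg.Agent.Helper40.SUDefs

set_option autoImplicit false

namespace Cfsg.Agent.Helper93.SU

open Cfsg Cfsg.Lie Cfsg.Agent.Helper36 Cfsg.Agent.Helper40.DZ Cfsg.Agent.Helper40.SU

variable {D : ChevalleyDatum} {F : Type*} [Field F] {η : ℕ → ℕ → ℤ}

/-- BU -/
theorem chev_BU (R : BRel D F η) :
    ∀ b ∈ D.borelSubgroup F, ∀ u ∈ D.posUnipotent F, b * u * b⁻¹ ∈ D.posUnipotent F := by
  intro b hb u hu
  have hle : D.borelSubgroup F ≤
      Subgroup.normalizer (D.posUnipotent F : Set (GL D.Idx F)) := by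
    have : D.posUnipotent F ⊔ D.diagonalSubgroup F ≤
        Subgroup.normalizer (D.posUnipotent F : Set (GL D.Idx F)) :=
      sup_le Subgroup.le_normalizer R.hU
    exact this
  exact (Subgroup.mem_normalizer_iff.mp (hle hb) u).mp hu

end Cfsg.Agent.Helper93.SU
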