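import Cfsg.Agent.Helper40.SUDefs

set_option autoImplicit false

namespace Cfsg.Agent.Helper93.SU

open Cfsg Cfsg.Lie Cfsg.Agent.Helper36 Cfsg.Agent.Helper40.DZ Cfsg.Agent.Helper40.SU

variable {D : ChevalleyDatum} {F : Type*} [Field F] {η : ℕ → ℕ → ℤ}

/-- H1 -/
theorem chev_h_one (R : BRel D F η) {i : ℕ} (hi : i < D.rank) : hh R i (tau R i 1) = 1 := by
  have he : ((η i (D.simple i) : ℤ) : F) * ((η i (D.simple i) : ℤ) : F) = 1 :=
    R.eta_mul_self hi (R.wf.simple_lt i hi)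
  have hinv : ((η i (D.simple i) : ℤ) : F)⁻¹ = ((η i (D.simple i) : ℤ) : F) :=
    inv_eq_of_mul_eq_one_right he
  have ht : tau R i (tau R i 1) = 1 := by
    unfold tau
    rw [mul_one, hinv, he, inv_one]
  unfold hh
  rw [ht, ← R.n_sq_inv hi]
  group

end Cfsg.Agent.Helper93.SU
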