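import Cfsg.Agent.Helper40.SUDefs

set_option autoImplicit false

namespace Cfsg.Agent.Helper93.SU

open Cfsg Cfsg.Lie Cfsg.Agent.Helper36 Cfsg.Agent.Helper40.DZ Cfsg.Agent.Helper40.SU

variable {D : ChevalleyDatum} {F : Type*} [Field F] {η : ℕ → ℕ → ℤ}

/-- HM -/
theorem chev_h_mem (R : BRel D F η) {i : ℕ} (hi : i < D.rank) (c : F) (hc : c ≠ 0) :
    hh R i c ∈ D.diagonalSubgroup F := by
  have he : ((η i (D.simple i) : ℤ) : F) * ((η i (D.simple i) : ℤ) : F) = 1 :=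
    R.eta_mul_self hi (R.wf.simple_lt i hi)
  have hne : ((η i (D.simple i) : ℤ) : F) ≠ 0 := by
    intro h
    rw [h, mul_zero] at he
    exact zero_ne_one he
  have ht : -tau R i c ≠ 0 := by
    unfold tau
    exact neg_ne_zero.mpr (inv_ne_zero (mul_ne_zero hne hc))
  unfold hh
  exact mul_mem (R.n_conj_H' hi _ (hGL_mem _ (R.wf.simple_lt i hi) ht)) (R.n_sq_mem hi)

end Cfsg.Agent.Helper93.SU
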