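import Cfsg.Agent.Helper40.SUDefs

set_option autoImplicit false

namespace Cfsg.Agent.Helper93.SU

open Cfsg Cfsg.Lie Cfsg.Agent.Helper36 Cfsg.Agent.Helper40.DZ Cfsg.Agent.Helper40.SU

variable {D : ChevalleyDatum} {F : Type*} [Field F] {η : ℕ → ℕ → ℤ}

/-- HX -/
theorem chev_Hx (R : BRel D F η) {i : ℕ} (hi : i < D.rank) :
    ∀ g ∈ D.diagonalSubgroup F, ∃ σ : F ≃ F, ∀ c : F,
      g * xGL R.xadd (D.simple i) c = xGL R.xadd (D.simple i) (σ c) * g := by
  intro g hg
  have hlt := R.wf.simple_lt i hi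
  obtain ⟨χ, hχ⟩ := R.hx g hg (D.simple i) hlt
  have hne : χ ≠ 0 := by
    intro h0
    have h1 := hχ 1
    rw [h0, zero_mul, xGL_zero] at h1
    have h2 : xGL R.xadd (D.simple i) (1 : F) = 1 := by
      have : xGL R.xadd (D.simple i) (1 : F) = g⁻¹ * (g * xGL R.xadd (D.simple i) 1 * g⁻¹) * g := by
        group
      rw [this, h1]; group
    have h3 : D.x F (D.simple i) (1 : F) = 1 := by
      have := congrArg (fun z : GL D.Idx F => (z : Matrix D.Idx D.Idx F)) h2
      simpa [xGL_val] using this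
    exact one_ne_zero (R.xinj (D.simple i) hlt 1 h3)
  refine ⟨Equiv.mulLeft₀ χ hne, ?_⟩
  intro c
  have := hχ c
  rw [Equiv.mulLeft₀_apply, ← this]
  group

end Cfsg.Agent.Helper93.SU
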