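import Cfsg.Agent.Helper40.SUDefs

set_option autoImplicit false

namespace Cfsg.Agent.Helper93.SU

open Cfsg Cfsg.Lie Cfsg.Agent.Helper36 Cfsg.Agent.Helper40.DZ Cfsg.Agent.Helper40.SU

variable {D : ChevalleyDatum} {F : Type*} [Field F] {η : ℕ → ℕ → ℤ}

/-- REL -/
theorem chev_rel (R : BRel D F η) {i : ℕ} (hi : i < D.rank) (c : F) (hc : c ≠ 0) :
    ∃ u ∈ D.posUnipotent F, R.n i * xGL R.xadd (D.simple i) c * R.n i =
      xGL R.xadd (D.simple i) (tau R i c) * R.n i * hh R i c * u := by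
  have hlt := R.wf.simple_lt i hi
  have hpos := R.wf.simple_pos i hi
  have hnn : R.n i * R.n i ∈ Subgroup.normalizer (D.posUnipotent F : Set (GL D.Idx F)) :=
    R.hU (R.n_sq_mem hi)
  have hx : xGL R.xadd (D.simple i) (tau R i c) ∈ D.posUnipotent F :=
    xGL_mem_posUnipotent _ hpos _
  have hnn' : (R.n i * R.n i)⁻¹ ∈ Subgroup.normalizer (D.posUnipotent F : Set (GL D.Idx F)) :=
    inv_mem hnn
  refine ⟨(R.n i * R.n i)⁻¹ * xGL R.xadd (D.simple i) (tau R i c) * (R.n i * R.n i), ?_, ?_⟩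
  · have := (Subgroup.mem_normalizer_iff.mp hnn' _).mp hx
    rwa [inv_inv] at this
  · have e : R.n i * xGL R.xadd (D.simple i) c * R.n i =
        (R.n i * xGL R.xadd (D.simple i) c * (R.n i)⁻¹) * (R.n i * R.n i) := by group
    rw [e, R.conj_x hi hlt, R.wf.refl_simple i hi, R.xneg_eq hi]
    unfold hh
    have ht : (((η i (D.simple i) : ℤ) : F) * c)⁻¹ = tau R i c := rfl
    rw [ht]
    group

end Cfsg.Agent.Helper93.SU
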