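import Cfsg.Agent.Helper40.SUDefs

set_option autoImplicit false

namespace Cfsg.Agent.Helper93.SU

open Cfsg Cfsg.Lie Cfsg.Agent.Helper36 Cfsg.Agent.Helper40.DZ Cfsg.Agent.Helper40.SU

variable {D : ChevalleyDatum} {F : Type*} [Field F] {η : ℕ → ℕ → ℤ}

/-- TAU -/
theorem chev_tau (R : BRel D F η) {i : ℕ} (hi : i < D.rank) :
    (∀ c : F, c ≠ 0 → tau R i c ≠ 0) ∧ (∀ c : F, c ≠ 0 → tau R i (tau R i c) = c) ∧
      ∀ a : F, a ≠ 0 → ∃ c : F, c ≠ 0 ∧ -tau R i c = a := by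
  have he : ((η i (D.simple i) : ℤ) : F) * ((η i (D.simple i) : ℤ) : F) = 1 :=
    R.eta_mul_self hi (R.wf.simple_lt i hi)
  have hne : ((η i (D.simple i) : ℤ) : F) ≠ 0 := by
    intro h
    rw [h, mul_zero] at he
    exact zero_ne_one he
  have hinv : ((η i (D.simple i) : ℤ) : F)⁻¹ = ((η i (D.simple i) : ℤ) : F) :=
    inv_eq_of_mul_eq_one_right he
  have key : ∀ x : F, (((η i (D.simple i) : ℤ) : F) *
      (((η i (D.simple i) : ℤ) : F) * x)⁻¹)⁻¹ = x := by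
    intro x
    rw [mul_inv, inv_inv, hinv, ← mul_assoc, he, one_mul]
  refine ⟨?_, ?_, ?_⟩
  · intro c hc
    unfold tau
    exact inv_ne_zero (mul_ne_zero hne hc)
  · intro c hc
    unfold tau
    exact key c
  · intro a ha
    refine ⟨-(((η i (D.simple i) : ℤ) : F) * a)⁻¹, neg_ne_zero.mpr (inv_ne_zero (mul_ne_zero hne ha)), ?_⟩
    unfold tau
    rw [mul_neg, inv_neg, neg_neg]
    exact key a

end Cfsg.Agent.Helper93.SU
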