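import Cfsg.Agent.Helper40.SUDefs

set_option autoImplicit false

namespace Cfsg.Agent.Helper93.SU

open Cfsg Cfsg.Lie Cfsg.Agent.Helper36 Cfsg.Agent.Helper40.DZ Cfsg.Agent.Helper40.SU

variable {D : ChevalleyDatum} {F : Type*} [Field F] {η : ℕ → ℕ → ℤ}

/-- XN -/
theorem chev_x_norm (R : BRel D F η) {i : ℕ} (hi : i < D.rank) (t : F) :
    ∀ u ∈ Subgroup.closure (upGens D F i),
      xGL R.xadd (D.simple i) t * u * (xGL R.xadd (D.simple i) t)⁻¹ ∈
        Subgroup.closure (upGens D F i) := by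
  intro u hu
  obtain ⟨hN, -⟩ := up_main R.xadd R.cf R.up hi
  have := hN (Subgroup.mem_sup_left (xGL_mem_rootSubgroup R.xadd (D.simple i) t))
  exact (Subgroup.mem_normalizer_iff.mp this u).mp hu

end Cfsg.Agent.Helper93.SU
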