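import Mathlib
import Cfsg.Agent.Lead.H581Defs

/-!
CALL S4221, piece A6a: the numbers of involutions of types `invA`, `invB` do not depend on the quadruple.
-/

set_option autoImplicit false

namespace Cfsg.Agent.Helper93.H581A6a

open Cfsg.Agent.Lead.H581 Equiv

variable {α : Type*} [Fintype α] [DecidableEq α]

omit [Fintype α] [DecidableEq α] in
/-- conjugation by `g` carries `P` onto `Q` -/
theorem ncard_eq_of_conj (g : Perm α) (P Q : Set (Perm α)) (hPQ : ∀ u ∈ P, g * u * g⁻¹ ∈ Q)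
    (hQP : ∀ v ∈ Q, g⁻¹ * v * g ∈ P) : P.ncard = Q.ncard := by
  have hinj : Function.Injective (fun u : Perm α => g * u * g⁻¹) := by
    intro u v huv
    have huv' : g * u * g⁻¹ = g * v * g⁻¹ := huv
    exact mul_left_cancel (mul_right_cancel huv')
  have himg : Q = (fun u : Perm α => g * u * g⁻¹) '' P := by
    ext v
    constructor
    · intro hv
      refine ⟨g⁻¹ * v * g, hQP v hv, ?_⟩
      show g * (g⁻¹ * v * g) * g⁻¹ = v
      group
    · rintro ⟨u, hu, rfl⟩
      exact hPQ u hu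
  rw [himg, Set.ncard_image_of_injective _ hinj]

omit [Fintype α] [DecidableEq α] in
theorem inv_apply_of_apply {g : Perm α} {p q : α} (h : g p = q) : g⁻¹ q = p := by
  rw [← h]; exact g.symm_apply_apply p

/-- PIECE A6a (first half) -/
theorem invA_ncard_eq (G : Subgroup (Perm α)) (h : ℕ) (H : Hyp G h) (a b c d a' b' c' d' : α)
    (hd : Dist4 a b c d) (hd' : Dist4 a' b' c' d') : (invA G a b c d).ncard = (invA G a' b' c' d').ncard := by
  obtain ⟨g, hg, ga, gb, gc, gd⟩ := H.trans a b c d a' b' c' d' hd hd'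
  apply ncard_eq_of_conj g
  · rintro u ⟨hu, huu, ua, uc⟩
    refine ⟨G.mul_mem (G.mul_mem hg hu) (G.inv_mem hg), ?_, ?_, ?_⟩
    · calc g * u * g⁻¹ * (g * u * g⁻¹) = g * (u * u) * g⁻¹ := by group
        _ = 1 := by rw [huu]; group
    · show g (u (g⁻¹ a')) = b'
      rw [inv_apply_of_apply ga, ua, gb]
    · show g (u (g⁻¹ c')) = d'
      rw [inv_apply_of_apply gc, uc, gd]
  · rintro v ⟨hv, hvv, va, vc⟩
    refine ⟨G.mul_mem (G.mul_mem (G.inv_mem hg) hv) hg, ?_, ?_, ?_⟩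
    · calc g⁻¹ * v * g * (g⁻¹ * v * g) = g⁻¹ * (v * v) * g := by group
        _ = 1 := by rw [hvv]; group
    · show g⁻¹ (v (g a)) = b
      rw [ga, va, inv_apply_of_apply gb]
    · show g⁻¹ (v (g c)) = d
      rw [gc, vc, inv_apply_of_apply gd]

/-- PIECE A6a (second half) -/
theorem invB_ncard_eq (G : Subgroup (Perm α)) (h : ℕ) (H : Hyp G h) (a b c d a' b' c' d' : α)
    (hd : Dist4 a b c d) (hd' : Dist4 a' b' c' d') : (invB G a b c d).ncard = (invB G a' b' c' d').ncard := by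
  obtain ⟨g, hg, ga, gb, gc, gd⟩ := H.trans a b c d a' b' c' d' hd hd'
  apply ncard_eq_of_conj g
  · rintro u ⟨hu, huu, ua, uc, ud⟩
    refine ⟨G.mul_mem (G.mul_mem hg hu) (G.inv_mem hg), ?_, ?_, ?_, ?_⟩
    · calc g * u * g⁻¹ * (g * u * g⁻¹) = g * (u * u) * g⁻¹ := by group
        _ = 1 := by rw [huu]; group
    · show g (u (g⁻¹ a')) = b'
      rw [inv_apply_of_apply ga, ua, gb]
    · show g (u (g⁻¹ c')) = c'
      rw [inv_apply_of_apply gc, uc, gc]
    · show g (u (g⁻¹ d')) = d'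
      rw [inv_apply_of_apply gd, ud, gd]
  · rintro v ⟨hv, hvv, va, vc, vd⟩
    refine ⟨G.mul_mem (G.mul_mem (G.inv_mem hg) hv) hg, ?_, ?_, ?_, ?_⟩
    · calc g⁻¹ * v * g * (g⁻¹ * v * g) = g⁻¹ * (v * v) * g := by group
        _ = 1 := by rw [hvv]; group
    · show g⁻¹ (v (g a)) = b
      rw [ga, va, inv_apply_of_apply gb]
    · show g⁻¹ (v (g c)) = c
      rw [gc, vc, inv_apply_of_apply gc]
    · show g⁻¹ (v (g d)) = d
      rw [gd, vd, inv_apply_of_apply gd]

end Cfsg.Agent.Helper93.H581A6a
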