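-- helper93 library: piece P4 of helper57's CALL S4274.
import Mathlib
import Cfsg.Agent.Helper9.OrdTools
import Cfsg.Agent.Helper9.OrdTools2

set_option autoImplicit false

namespace Cfsg.Agent.Helper93

open Subgroup

/-- P4. For a Sylow subgroup `P` of prime order `p` and a prime `q ≠ p`: `q` divides `|C(P)|`
iff `G` has an element of order `p * q`. -/
theorem j1o_dvd_centralizer_iff {G : Type*} [Group G] [Finite G] {p : ℕ} [Fact p.Prime]
    (P : Sylow p G) (hP : Nat.card (P : Subgroup G) = p) (q : ℕ) (hq : q.Prime) (hqp : q ≠ p) :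
    q ∣ Nat.card (centralizer ((P : Subgroup G) : Set G)) ↔ ∃ g : G, orderOf g = p * q := by
  have hp : p.Prime := Fact.out
  have hS : ∀ Q : Sylow p G, Nat.card (Q : Subgroup G) = p := fun Q =>
    ((Sylow.card_eq_multiplicity Q).trans (Sylow.card_eq_multiplicity P).symm).trans hP
  have hcop : Nat.Coprime p q := (Nat.coprime_primes hp hq).mpr (Ne.symm hqp)
  constructor
  · intro hdvd
    have : Fact q.Prime := ⟨hq⟩
    obtain ⟨y, hy⟩ := exists_prime_orderOf_dvd_card' (G := centralizer ((P : Subgroup G) : Set G))
      q hdvd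
    have hy' : orderOf (y : G) = q := by rw [Subgroup.orderOf_coe]; exact hy
    -- a generator of `P`
    have hne : ∃ x ∈ (P : Subgroup G), x ≠ 1 := by
      by_contra hcon
      push Not at hcon
      have hbot : (P : Subgroup G) = ⊥ := by
        rw [Subgroup.eq_bot_iff_forall]
        exact hcon
      rw [hbot, Subgroup.card_bot] at hP
      exact hp.one_lt.ne hP
    obtain ⟨x, hxP, hx1⟩ := hne
    have hxo : orderOf x = p := by
      have h1 : orderOf x ∣ p := hP ▸ Subgroup.orderOf_dvd_natCard _ hxP
      rcases (Nat.dvd_prime hp).mp h1 with h2 | h2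
      · exact absurd (orderOf_eq_one_iff.mp h2) hx1
      · exact h2
    have hcomm : Commute x (y : G) := by
      have := Subgroup.mem_centralizer_iff.mp y.2 x hxP
      exact this
    refine ⟨x * (y : G), ?_⟩
    rw [hcomm.orderOf_mul_eq_mul_orderOf_of_coprime (by rw [hxo, hy']; exact hcop), hxo, hy']
  · rintro ⟨g, hg⟩
    have hq0 : 0 < q := hq.pos
    have hp0 : 0 < p := hp.pos
    have h1 : orderOf (g ^ q) = p := by
      have := orderOf_pow_orderOf_div (x := g) (orderOf_pos g).ne' (n := p)
        (by rw [hg]; exact dvd_mul_right p q)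
      rw [hg, Nat.mul_div_cancel_left q hp0] at this
      exact this
    have h2 : orderOf (g ^ p) = q := by
      have := orderOf_pow_orderOf_div (x := g) (orderOf_pos g).ne' (n := q)
        (by rw [hg]; exact dvd_mul_left q p)
      rw [hg, Nat.mul_div_cancel p hq0] at this
      exact this
    obtain ⟨Q, hQ⟩ := Cfsg.Agent.Helper9.OrdTools.exists_sylow_of_orderOf hS h1
    have hmem : g ^ p ∈ centralizer ((Q : Subgroup G) : Set G) := by
      rw [← Cfsg.Agent.Helper9.OrdTools.centralizer_singleton_eq hQ]
      rw [Subgroup.mem_centralizer_iff]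
      intro w hw
      rw [Set.mem_singleton_iff] at hw
      subst hw
      rw [← pow_add, ← pow_add, add_comm]
    have h3 : q ∣ Nat.card (centralizer ((Q : Subgroup G) : Set G)) := by
      rw [← h2]
      exact Subgroup.orderOf_dvd_natCard _ hmem
    rw [Cfsg.Agent.Helper9.OrdTools.card_centralizer_sylow_eq P Q]
    exact h3

end Cfsg.Agent.Helper93
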