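import Mathlib
import Cfsg.Agent.Lead.H581Defs

/-!
CALL S4221, piece A7a: the centraliser in `G` of the four-group `⟨y₁, y₂⟩` of type `(a b)`, `(c d)`
has order four times the order of its intersection with `stab4 G a b c d`.
-/

set_option autoImplicit false

namespace Cfsg.Agent.Helper93.H581A7a

open Cfsg.Agent.Lead.H581 Equiv

variable {α : Type*} [Fintype α] [DecidableEq α]

omit [Fintype α] [DecidableEq α] in
theorem bool_ite_inj {x y : α} (hxy : x ≠ y) {s t : Bool}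
    (h : (if s then y else x) = (if t then y else x)) : s = t := by
  cases s <;> cases t
  · rfl
  · simp only [Bool.false_eq_true, if_false, if_true] at h
    exact absurd h hxy
  · simp only [Bool.false_eq_true, if_false, if_true] at h
    exact absurd h.symm hxy
  · rfl

omit [Fintype α] [DecidableEq α] in
/-- a nontrivial involution of `G` does not fix four distinct points -/
theorem no_four_fixed (G : Subgroup (Perm α)) (h : ℕ) (H : Hyp G h) (u : Perm α) (hu : u ∈ G)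
    (hu2 : u * u = 1) (hu1 : u ≠ 1) (p q r s : α) (hd : Dist4 p q r s) (up : u p = p) (uq : u q = q)
    (ur : u r = r) (us : u s = s) : False := by
  have hmem : u ∈ stab4 G p q r s := ⟨hu, up, uq, ur, us⟩
  have hord : orderOf u = 2 := orderOf_eq_prime (by rw [pow_two]; exact hu2) hu1
  have hdvd : orderOf u ∣ Nat.card (stab4 G p q r s) := Subgroup.orderOf_dvd_natCard _ hmem
  rw [hord, H.card p q r s hd] at hdvd
  exact (Nat.not_even_iff_odd.mpr H.odd) (even_iff_two_dvd.mpr hdvd)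

omit [Fintype α] in
/-- `y` fixes `p`, `q`, the involution `z` interchanges them, `g` commutes with both:
then `g p ∈ {p, q}`. -/
theorem img_mem (G : Subgroup (Perm α)) (h : ℕ) (H : Hyp G h) (y z : Perm α) (hy : y ∈ G)
    (hyy : y * y = 1) (hy1 : y ≠ 1) (hzz : ∀ x, z (z x) = x) (p q : α) (hpq : p ≠ q) (yp : y p = p)
    (yq : y q = q) (zp : z p = q) (g : Perm α) (gy : ∀ x, y (g x) = g (y x))
    (gz : ∀ x, z (g x) = g (z x)) : g p = p ∨ g p = q := by
  by_contra hcon
  have hcon' : ¬ g p = p ∧ ¬ g p = q := not_or.mp hcon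
  obtain ⟨n1, n2⟩ := hcon'
  have zq : z q = p := by rw [← zp, hzz]
  have e : z (g p) = g q := by rw [gz, zp]
  have n3 : g q ≠ p := by
    intro h3
    apply n2
    rw [h3] at e
    rw [← hzz (g p), e, zp]
  have n4 : g q ≠ q := by
    intro h4
    apply n1
    rw [h4] at e
    rw [← hzz (g p), e, zq]
  have n5 : g p ≠ g q := fun h5 => hpq (g.injective h5)
  exact no_four_fixed G h H y hy hyy hy1 p q (g p) (g q)
    ⟨hpq, fun h' => n1 h'.symm, fun h' => n3 h'.symm, fun h' => n2 h'.symm, fun h' => n4 h'.symm, n5⟩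
    yp yq (by rw [gy, yp]) (by rw [gy, yq])

/-- PIECE A7a -/
theorem cent_card (G : Subgroup (Perm α)) (h : ℕ) (H : Hyp G h) (a b c d : α)
    (hd : Dist4 a b c d) (y₁ y₂ : Perm α) (hy₁ : y₁ ∈ G) (hy₂ : y₂ ∈ G) (h1 : y₁ * y₁ = 1) (h2 : y₂ * y₂ = 1)
    (hc : y₁ * y₂ = y₂ * y₁) (e1 : y₁ a = b) (e2 : y₁ c = c) (e3 : y₁ d = d) (e4 : y₂ a = a) (e5 : y₂ b = b)
    (e6 : y₂ c = d) :
    Nat.card ↥(G ⊓ Subgroup.centralizer ({y₁, y₂} : Set (Perm α))) =
      4 * Nat.card ↥(stab4 G a b c d ⊓ Subgroup.centralizer ({y₁, y₂} : Set (Perm α))) := by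
  obtain ⟨hab, hac, had, hbc, hbd, hcd⟩ := hd
  have hy1 : ∀ p, y₁ (y₁ p) = p := fun p => by
    have := congrArg (fun f : Perm α => f p) h1
    simpa using this
  have hy2 : ∀ p, y₂ (y₂ p) = p := fun p => by
    have := congrArg (fun f : Perm α => f p) h2
    simpa using this
  have e1' : y₁ b = a := by rw [← e1, hy1]
  have e6' : y₂ d = c := by rw [← e6, hy2]
  have y1ne : y₁ ≠ 1 := by
    intro h'; rw [h'] at e1; exact hab e1
  have y2ne : y₂ ≠ 1 := by
    intro h'; rw [h'] at e6; exact hcd e6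
  set Z : Subgroup (Perm α) := Subgroup.centralizer ({y₁, y₂} : Set (Perm α)) with hZ
  have memZ : ∀ g : Perm α, g ∈ Z ↔ y₁ * g = g * y₁ ∧ y₂ * g = g * y₂ := by
    intro g; rw [hZ, Subgroup.mem_centralizer_iff]; simp
  have y1Z : y₁ ∈ Z := (memZ y₁).2 ⟨rfl, hc.symm⟩
  have y2Z : y₂ ∈ Z := (memZ y₂).2 ⟨hc, rfl⟩
  have gcomm1 : ∀ g ∈ Z, ∀ p, y₁ (g p) = g (y₁ p) := fun g hg p => by
    have := congrArg (fun f : Perm α => f p) ((memZ g).1 hg).1
    simpa using this
  have gcomm2 : ∀ g ∈ Z, ∀ p, y₂ (g p) = g (y₂ p) := fun g hg p => by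
    have := congrArg (fun f : Perm α => f p) ((memZ g).1 hg).2
    simpa using this
  have memK : ∀ k : Perm α, k ∈ G → k ∈ Z → k a = a → k c = c → k ∈ stab4 G a b c d ⊓ Z := by
    intro k hk hkZ ka kc
    refine Subgroup.mem_inf.mpr ⟨⟨hk, ka, ?_, kc, ?_⟩, hkZ⟩
    · rw [← e1, ← gcomm1 k hkZ, ka]
    · rw [← e6, ← gcomm2 k hkZ, kc]
  have y1C : y₁ ∈ G ⊓ Z := Subgroup.mem_inf.mpr ⟨hy₁, y1Z⟩
  have y2C : y₂ ∈ G ⊓ Z := Subgroup.mem_inf.mpr ⟨hy₂, y2Z⟩
  have KleC : ∀ k : Perm α, k ∈ stab4 G a b c d ⊓ Z → k ∈ G ⊓ Z := fun k hk =>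
    Subgroup.mem_inf.mpr ⟨(Subgroup.mem_inf.mp hk).1.1, (Subgroup.mem_inf.mp hk).2⟩
  have Ka : ∀ k : Perm α, k ∈ stab4 G a b c d ⊓ Z → k a = a := fun k hk =>
    (Subgroup.mem_inf.mp hk).1.2.1
  have Kc : ∀ k : Perm α, k ∈ stab4 G a b c d ⊓ Z → k c = c := fun k hk =>
    (Subgroup.mem_inf.mp hk).1.2.2.2.1
  -- the parametrisation
  have hΦmem : ∀ t : Bool × Bool × ↥(stab4 G a b c d ⊓ Z),
      (if t.1 then y₁ else 1) * (if t.2.1 then y₂ else 1) * (t.2.2 : Perm α) ∈ G ⊓ Z := by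
    intro t
    refine (G ⊓ Z).mul_mem ((G ⊓ Z).mul_mem ?_ ?_) (KleC _ t.2.2.2)
    · split_ifs
      · exact y1C
      · exact (G ⊓ Z).one_mem
    · split_ifs
      · exact y2C
      · exact (G ⊓ Z).one_mem
  have hΦa : ∀ t : Bool × Bool × ↥(stab4 G a b c d ⊓ Z),
      ((if t.1 then y₁ else 1) * (if t.2.1 then y₂ else 1) * (t.2.2 : Perm α)) a =
        if t.1 then b else a := by
    rintro ⟨t1, t2, k, hk⟩
    simp only [Perm.mul_apply, Ka k hk]
    cases t1 <;> cases t2 <;> simp [e1, e4]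
  have hΦc : ∀ t : Bool × Bool × ↥(stab4 G a b c d ⊓ Z),
      ((if t.1 then y₁ else 1) * (if t.2.1 then y₂ else 1) * (t.2.2 : Perm α)) c =
        if t.2.1 then d else c := by
    rintro ⟨t1, t2, k, hk⟩
    simp only [Perm.mul_apply, Kc k hk]
    cases t1 <;> cases t2 <;> simp [e2, e3, e6]
  have hbij : Function.Bijective (fun t : Bool × Bool × ↥(stab4 G a b c d ⊓ Z) =>
      (⟨(if t.1 then y₁ else 1) * (if t.2.1 then y₂ else 1) * (t.2.2 : Perm α), hΦmem t⟩ : ↥(G ⊓ Z))) := by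
    constructor
    · intro t t' htt
      have hval : (if t.1 then y₁ else 1) * (if t.2.1 then y₂ else 1) * (t.2.2 : Perm α) =
          (if t'.1 then y₁ else 1) * (if t'.2.1 then y₂ else 1) * (t'.2.2 : Perm α) :=
        congrArg Subtype.val htt
      have ha := hΦa t
      rw [hval, hΦa t'] at ha
      have hc' := hΦc t
      rw [hval, hΦc t'] at hc'
      obtain ⟨t1, t2, k⟩ := t
      obtain ⟨t1', t2', k'⟩ := t'
      simp only at ha hc' hval
      have ht1 : t1 = t1' := bool_ite_inj hab ha.symm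
      have ht2 : t2 = t2' := bool_ite_inj hcd hc'.symm
      subst ht1
      subst ht2
      have hk : (k : Perm α) = k' := mul_left_cancel hval
      have hk' : k = k' := Subtype.ext hk
      rw [hk']
    · rintro ⟨g, hg⟩
      have hgG : g ∈ G := (Subgroup.mem_inf.mp hg).1
      have hgZ : g ∈ Z := (Subgroup.mem_inf.mp hg).2
      have ca : g a = a ∨ g a = b :=
        img_mem G h H y₂ y₁ hy₂ h2 y2ne hy1 a b hab e4 e5 e1 g (gcomm2 g hgZ) (gcomm1 g hgZ)
      have cc : g c = c ∨ g c = d :=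
        img_mem G h H y₁ y₂ hy₁ h1 y1ne hy2 c d hcd e2 e3 e6 g (gcomm1 g hgZ) (gcomm2 g hgZ)
      rcases ca with ga | ga <;> rcases cc with gc | gc
      · refine ⟨(false, false, ⟨g, memK g hgG hgZ ga gc⟩), ?_⟩
        apply Subtype.ext
        simp
      · refine ⟨(false, true, ⟨y₂ * g, memK (y₂ * g) (G.mul_mem hy₂ hgG) (Z.mul_mem y2Z hgZ)
          (by rw [Perm.mul_apply, ga, e4]) (by rw [Perm.mul_apply, gc, e6'])⟩), ?_⟩
        apply Subtype.ext
        show (if false = true then y₁ else 1) * (if true = true then y₂ else 1) * (y₂ * g) = g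
        simp only [Bool.false_eq_true, if_false, if_true, one_mul]
        rw [← mul_assoc, h2, one_mul]
      · refine ⟨(true, false, ⟨y₁ * g, memK (y₁ * g) (G.mul_mem hy₁ hgG) (Z.mul_mem y1Z hgZ)
          (by rw [Perm.mul_apply, ga, e1']) (by rw [Perm.mul_apply, gc, e2])⟩), ?_⟩
        apply Subtype.ext
        show (if true = true then y₁ else 1) * (if false = true then y₂ else 1) * (y₁ * g) = g
        simp only [Bool.false_eq_true, if_false, if_true, mul_one]
        rw [← mul_assoc, h1, one_mul]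
      · refine ⟨(true, true, ⟨y₂ * (y₁ * g), memK (y₂ * (y₁ * g))
          (G.mul_mem hy₂ (G.mul_mem hy₁ hgG)) (Z.mul_mem y2Z (Z.mul_mem y1Z hgZ))
          (by rw [Perm.mul_apply, Perm.mul_apply, ga, e1', e4])
          (by rw [Perm.mul_apply, Perm.mul_apply, gc, e3, e6'])⟩), ?_⟩
        apply Subtype.ext
        show (if true = true then y₁ else 1) * (if true = true then y₂ else 1) * (y₂ * (y₁ * g)) = g
        simp only [if_true]
        calc y₁ * y₂ * (y₂ * (y₁ * g)) = y₁ * (y₂ * y₂) * y₁ * g := by group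
          _ = g := by rw [h2, mul_one, h1, one_mul]
  have hcard := Nat.card_eq_of_bijective _ hbij
  rw [← hcard, Nat.card_prod, Nat.card_prod, Nat.card_eq_fintype_card (α := Bool), Fintype.card_bool]
  ring

end Cfsg.Agent.Helper93.H581A7a
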