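import Mathlib

/-!
# The exact Brauer–Wielandt formula for a four-group acting on a group of odd order

If `s`, `u` are commuting involutory endomorphisms of a group `X` of odd order, then
`|X| * |C_X(s, u)|^2 = |C_X(s)| * |C_X(u)| * |C_X(s u)|`.

`bw_card_eq` is the version for a subgroup `Y` of odd order normalised by two commuting
involutions `t₁`, `t₂` of an ambient group.
-/

namespace Cfsg.Agent.Helper93

section BWExact

variable {X : Type*} [Group X]

/-- In a finite group of odd order squares determine elements. -/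
theorem bwx_sq_inj (hodd : Odd (Nat.card X)) {a b : X} (h : a * a = b * b) : a = b := by
  obtain ⟨k, hk⟩ := hodd
  have ha : a ^ (2 * k + 1) = 1 := by rw [← hk]; exact pow_card_eq_one'
  have hb : b ^ (2 * k + 1) = 1 := by rw [← hk]; exact pow_card_eq_one'
  have e1 : a = (a * a) ^ (k + 1) := by
    rw [← pow_two, ← pow_mul]
    have : 2 * (k + 1) = (2 * k + 1) + 1 := by ring
    rw [this, pow_succ, ha, one_mul]
  have e2 : b = (b * b) ^ (k + 1) := by
    rw [← pow_two, ← pow_mul]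
    have : 2 * (k + 1) = (2 * k + 1) + 1 := by ring
    rw [this, pow_succ, hb, one_mul]
  rw [e1, e2, h]

/-- In a finite group of odd order every element has a square root which is a power of it. -/
theorem bwx_exists_sqrt (hodd : Odd (Nat.card X)) (a : X) : ∃ n : ℕ, a ^ n * a ^ n = a := by
  obtain ⟨k, hk⟩ := hodd
  have ha : a ^ (2 * k + 1) = 1 := by rw [← hk]; exact pow_card_eq_one'
  refine ⟨k + 1, ?_⟩
  rw [← pow_add]
  have : k + 1 + (k + 1) = (2 * k + 1) + 1 := by ring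
  rw [this, pow_succ, ha, one_mul]

/-- Uniqueness of the solution `w` of `w * v * w = y` in a group of odd order. -/
theorem bwx_uniq (hodd : Odd (Nat.card X)) {v y w w' : X} (h : w * v * w = y)
    (h' : w' * v * w' = y) : w = w' := by
  have e : (w * v) * (w * v) = (w' * v) * (w' * v) := by
    have e1 : (w * v) * (w * v) = (w * v * w) * v := by group
    have e2 : (w' * v) * (w' * v) = (w' * v * w') * v := by group
    rw [e1, e2, h, h']
  exact mul_right_cancel (bwx_sq_inj hodd e)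

/-- The fixed-point subgroup of an endomorphism. -/
def bwxFix (u : X →* X) : Subgroup X where
  carrier := {x | u x = x}
  mul_mem' := fun {a b} (ha : u a = a) (hb : u b = b) =>
    show u (a * b) = a * b by rw [map_mul, ha, hb]
  one_mem' := map_one u
  inv_mem' := fun {a} (ha : u a = a) => show u a⁻¹ = a⁻¹ by rw [map_inv, ha]

theorem bwx_mem_fix {u : X →* X} {x : X} : x ∈ bwxFix u ↔ u x = x := Iff.rfl

/-- An `s`-invariant subgroup `K` of an odd-order group factorises as
(fixed points) × (inverted elements). -/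
theorem bwx_split (hodd : Odd (Nat.card X)) (s : X →* X) (hss : ∀ x, s (s x) = x)
    (K : Subgroup X) (hK : ∀ x ∈ K, s x ∈ K) :
    Nat.card K = Nat.card {x : X // x ∈ K ∧ s x = x} *
      Nat.card {x : X // x ∈ K ∧ s x = x⁻¹} := by
  rw [← Nat.card_prod]
  symm
  apply Nat.card_eq_of_bijective
    (fun p : {x : X // x ∈ K ∧ s x = x} × {x : X // x ∈ K ∧ s x = x⁻¹} =>
      (⟨p.1.1 * p.2.1, K.mul_mem p.1.2.1 p.2.2.1⟩ : K))
  constructor
  · rintro ⟨⟨c, hcK, hc⟩, ⟨z, hzK, hz⟩⟩ ⟨⟨c', hcK', hc'⟩, ⟨z', hzK', hz'⟩⟩ h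
    simp only [Subtype.mk.injEq] at h
    have h2 : c * z⁻¹ = c' * z'⁻¹ := by
      have := congrArg s h
      simpa only [map_mul, hc, hz, hc', hz'] using this
    have h3 : z * z = z' * z' := by
      have e1 : z⁻¹ * z⁻¹ = (c * z)⁻¹ * (c * z⁻¹) := by group
      have e2 : z'⁻¹ * z'⁻¹ = (c' * z')⁻¹ * (c' * z'⁻¹) := by group
      have e3 : z⁻¹ * z⁻¹ = z'⁻¹ * z'⁻¹ := by rw [e1, e2, h, h2]
      have e4 := congrArg (fun t => t⁻¹) e3
      simpa only [mul_inv_rev, inv_inv] using e4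
    have hzz : z = z' := bwx_sq_inj hodd h3
    subst hzz
    have hcc : c = c' := mul_right_cancel h
    subst hcc
    rfl
  · rintro ⟨x, hx⟩
    obtain ⟨n, hn⟩ := bwx_exists_sqrt hodd ((s x)⁻¹ * x)
    set z : X := ((s x)⁻¹ * x) ^ n with hz_def
    have hzK : z ∈ K := pow_mem (K.mul_mem (K.inv_mem (hK x hx)) hx) n
    have hsz : s z = z⁻¹ := by
      rw [hz_def, map_pow, ← inv_pow]
      congr 1
      rw [map_mul, map_inv, hss]
      group
    have hsx : s x = x * z⁻¹ * z⁻¹ := by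
      have : z * z = (s x)⁻¹ * x := hn
      have e : x = s x * (z * z) := by rw [this]; group
      calc s x = s x * (z * z) * z⁻¹ * z⁻¹ := by group
        _ = x * z⁻¹ * z⁻¹ := by rw [← e]
    refine ⟨(⟨⟨x * z⁻¹, K.mul_mem hx (K.inv_mem hzK), ?_⟩, ⟨z, hzK, hsz⟩⟩ :
      {x : X // x ∈ K ∧ s x = x} × {x : X // x ∈ K ∧ s x = x⁻¹}), ?_⟩
    · rw [map_mul, map_inv, hsz, hsx]
      group
    · apply Subtype.ext
      show x * z⁻¹ * z = x
      group

/-- The twisted factorisation of the set of `s`-inverted elements. -/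
theorem bwx_twist (hodd : Odd (Nat.card X)) (s u : X →* X)
    (huu : ∀ x, u (u x) = x) (hsu : ∀ x, s (u x) = u (s x)) :
    Nat.card {x : X // s x = x⁻¹} = Nat.card {x : X // s x = x⁻¹ ∧ u x = x⁻¹} *
      Nat.card {x : X // s x = x⁻¹ ∧ u x = x} := by
  rw [← Nat.card_prod]
  symm
  apply Nat.card_eq_of_bijective
    (fun p : {x : X // s x = x⁻¹ ∧ u x = x⁻¹} × {x : X // s x = x⁻¹ ∧ u x = x} =>
      (⟨p.1.1 * p.2.1 * p.1.1, by
        rw [map_mul, map_mul, p.1.2.1, p.2.2.1]; group⟩ : {x : X // s x = x⁻¹}))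
  constructor
  · rintro ⟨⟨z, hz, hz2⟩, ⟨c, hc, hc2⟩⟩ ⟨⟨z', hz', hz2'⟩, ⟨c', hc', hc2'⟩⟩ h
    simp only [Subtype.mk.injEq] at h
    have hu : z⁻¹ * c * z⁻¹ = z'⁻¹ * c' * z'⁻¹ := by
      have := congrArg u h
      simpa only [map_mul, hz2, hc2, hz2', hc2'] using this
    have e1 : (z * z) * (z⁻¹ * c * z⁻¹) * (z * z) = z * c * z := by group
    have e2 : (z' * z') * (z⁻¹ * c * z⁻¹) * (z' * z') = z * c * z := by
      rw [hu, h]; group
    have hw : z * z = z' * z' := bwx_uniq hodd e1 e2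
    have hzz : z = z' := bwx_sq_inj hodd hw
    subst hzz
    have hcc : c = c' := mul_left_cancel (mul_right_cancel h)
    subst hcc
    rfl
  · rintro ⟨y, hy⟩
    obtain ⟨n, hn⟩ := bwx_exists_sqrt hodd (y * u y)
    set q : X := (y * u y) ^ n with hq_def
    set w : X := q * (u y)⁻¹ with hw_def
    have hwy : w * u y * w = y := by
      have e : w * u y * w = (q * q) * (u y)⁻¹ := by rw [hw_def]; group
      rw [e, hn]; group
    have huw : u w = w⁻¹ := by
      have e : u w * y * u w = u y := by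
        have := congrArg u hwy
        simpa only [map_mul, huu] using this
      have e' : (u w)⁻¹ * u y * (u w)⁻¹ = y := by rw [← e]; group
      exact inv_eq_iff_eq_inv.mp (bwx_uniq hodd e' hwy)
    have hsw : s w = w⁻¹ := by
      have e : s w * (u y)⁻¹ * s w = y⁻¹ := by
        have := congrArg s hwy
        simpa only [map_mul, hsu, hy, map_inv] using this
      have e' : (s w)⁻¹ * u y * (s w)⁻¹ = y := by
        have e2 := congrArg (fun t => t⁻¹) e
        simp only [mul_inv_rev, inv_inv] at e2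
        rw [mul_assoc]; exact e2
      exact inv_eq_iff_eq_inv.mp (bwx_uniq hodd e' hwy)
    obtain ⟨m, hm⟩ := bwx_exists_sqrt hodd w
    set z : X := w ^ m with hz_def
    have hsz : s z = z⁻¹ := by rw [hz_def, map_pow, hsw, inv_pow]
    have huz : u z = z⁻¹ := by rw [hz_def, map_pow, huw, inv_pow]
    have hzy : z * z * u y * (z * z) = y := by rw [hm]; exact hwy
    refine ⟨(⟨⟨z, hsz, huz⟩, ⟨z⁻¹ * y * z⁻¹, ?_, ?_⟩⟩ :
      {x : X // s x = x⁻¹ ∧ u x = x⁻¹} × {x : X // s x = x⁻¹ ∧ u x = x}), ?_⟩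
    · rw [map_mul, map_mul, map_inv, hsz, hy]; group
    · rw [map_mul, map_mul, map_inv, huz, inv_inv]
      have : u y = z⁻¹ * z⁻¹ * y * (z⁻¹ * z⁻¹) := by
        calc u y = z⁻¹ * z⁻¹ * (z * z * u y * (z * z)) * (z⁻¹ * z⁻¹) := by group
          _ = z⁻¹ * z⁻¹ * y * (z⁻¹ * z⁻¹) := by rw [hzy]
      rw [this]; group
    · apply Subtype.ext
      show z * (z⁻¹ * y * z⁻¹) * z = y
      group

/-- **Exact Brauer–Wielandt formula** for two commuting involutory endomorphisms of a finite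
group of odd order. -/
theorem bw_exact_hom (hodd : Odd (Nat.card X)) (s u : X →* X)
    (hss : ∀ x, s (s x) = x) (huu : ∀ x, u (u x) = x) (hsu : ∀ x, s (u x) = u (s x)) :
    Nat.card X * Nat.card {x : X // s x = x ∧ u x = x} ^ 2 =
      Nat.card {x : X // s x = x} * Nat.card {x : X // u x = x} *
        Nat.card {x : X // s (u x) = x} := by
  -- `K = ⊤`
  have h1 := bwx_split hodd s hss ⊤ (fun _ _ => Subgroup.mem_top _)
  have h1a : Nat.card (⊤ : Subgroup X) = Nat.card X :=
    Nat.card_congr Subgroup.topEquiv.toEquiv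
  have h1b : Nat.card {x : X // x ∈ (⊤ : Subgroup X) ∧ s x = x} = Nat.card {x : X // s x = x} :=
    Nat.card_congr (Equiv.subtypeEquivRight (fun x => by simp))
  have h1c : Nat.card {x : X // x ∈ (⊤ : Subgroup X) ∧ s x = x⁻¹} =
      Nat.card {x : X // s x = x⁻¹} :=
    Nat.card_congr (Equiv.subtypeEquivRight (fun x => by simp))
  rw [h1a, h1b, h1c] at h1
  -- `K = C(u)`
  have h2 := bwx_split hodd s hss (bwxFix u) (fun x hx => by
    rw [bwx_mem_fix] at hx ⊢
    rw [← hsu, hx])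
  have h2a : Nat.card (bwxFix u) = Nat.card {x : X // u x = x} :=
    Nat.card_congr (Equiv.subtypeEquivRight (fun x => bwx_mem_fix))
  have h2b : Nat.card {x : X // x ∈ bwxFix u ∧ s x = x} =
      Nat.card {x : X // s x = x ∧ u x = x} :=
    Nat.card_congr (Equiv.subtypeEquivRight (fun x => by rw [bwx_mem_fix]; exact and_comm))
  have h2c : Nat.card {x : X // x ∈ bwxFix u ∧ s x = x⁻¹} =
      Nat.card {x : X // s x = x⁻¹ ∧ u x = x} :=
    Nat.card_congr (Equiv.subtypeEquivRight (fun x => by rw [bwx_mem_fix]; exact and_comm))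
  rw [h2a, h2b, h2c] at h2
  -- `K = C(s u)`
  have h3 := bwx_split hodd s hss (bwxFix (s.comp u)) (fun x hx => by
    rw [bwx_mem_fix] at hx ⊢
    simp only [MonoidHom.comp_apply] at hx ⊢
    have e : u x = s x := by rw [← hx, hss, hx]
    rw [← hsu, hss, e])
  have h3a : Nat.card (bwxFix (s.comp u)) = Nat.card {x : X // s (u x) = x} :=
    Nat.card_congr (Equiv.subtypeEquivRight (fun x => bwx_mem_fix))
  have h3b : Nat.card {x : X // x ∈ bwxFix (s.comp u) ∧ s x = x} =
      Nat.card {x : X // s x = x ∧ u x = x} :=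
    Nat.card_congr (Equiv.subtypeEquivRight (fun x => by
      rw [bwx_mem_fix]
      simp only [MonoidHom.comp_apply]
      constructor
      · rintro ⟨h, h'⟩
        refine ⟨h', ?_⟩
        have e : u x = s x := by rw [← h, hss, h]
        rw [e, h']
      · rintro ⟨h, h'⟩
        exact ⟨by rw [h', h], h⟩))
  have h3c : Nat.card {x : X // x ∈ bwxFix (s.comp u) ∧ s x = x⁻¹} =
      Nat.card {x : X // s x = x⁻¹ ∧ u x = x⁻¹} :=
    Nat.card_congr (Equiv.subtypeEquivRight (fun x => by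
      rw [bwx_mem_fix]
      simp only [MonoidHom.comp_apply]
      constructor
      · rintro ⟨h, h'⟩
        refine ⟨h', ?_⟩
        have e : u x = s x := by rw [← h, hss, h]
        rw [e, h']
      · rintro ⟨h, h'⟩
        exact ⟨by rw [h', map_inv, h, inv_inv], h⟩))
  rw [h3a, h3b, h3c] at h3
  have h4 := bwx_twist hodd s u huu hsu
  rw [h1, h2, h3, h4]
  ring

end BWExact

/-- **Exact Brauer–Wielandt formula**: for a subgroup `Y` of odd order normalised by two
commuting involutions `t₁`, `t₂`,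
`|Y| * |C_Y(t₁, t₂)|^2 = |C_Y(t₁)| * |C_Y(t₂)| * |C_Y(t₁ t₂)|`. -/
theorem bw_card_eq {G : Type*} [Group G] (Y : Subgroup G) (hY : Odd (Nat.card Y))
    (t₁ t₂ : G) (h1 : t₁ * t₁ = 1) (h2 : t₂ * t₂ = 1) (hc : t₁ * t₂ = t₂ * t₁)
    (hn1 : ∀ y ∈ Y, t₁ * y * t₁⁻¹ ∈ Y) (hn2 : ∀ y ∈ Y, t₂ * y * t₂⁻¹ ∈ Y) :
    Nat.card Y * Nat.card ↥(Y ⊓ Subgroup.centralizer ({t₁, t₂} : Set G)) ^ 2 =
      Nat.card ↥(Y ⊓ Subgroup.centralizer ({t₁} : Set G)) *
        Nat.card ↥(Y ⊓ Subgroup.centralizer ({t₂} : Set G)) *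
          Nat.card ↥(Y ⊓ Subgroup.centralizer ({t₁ * t₂} : Set G)) := by
  let s : Y →* Y :=
    { toFun := fun y => ⟨t₁ * y * t₁⁻¹, hn1 y y.2⟩
      map_one' := by ext; simp
      map_mul' := by intro a b; ext; simp }
  let u : Y →* Y :=
    { toFun := fun y => ⟨t₂ * y * t₂⁻¹, hn2 y y.2⟩
      map_one' := by ext; simp
      map_mul' := by intro a b; ext; simp }
  have hs : ∀ y : Y, ((s y : Y) : G) = t₁ * y * t₁⁻¹ := fun y => rfl
  have hu : ∀ y : Y, ((u y : Y) : G) = t₂ * y * t₂⁻¹ := fun y => rfl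
  have hss : ∀ y, s (s y) = y := by
    intro y
    apply Subtype.ext
    rw [hs, hs]
    have : t₁ * (t₁ * (y : G) * t₁⁻¹) * t₁⁻¹ = (t₁ * t₁) * y * (t₁ * t₁)⁻¹ := by group
    rw [this, h1]; simp
  have huu : ∀ y, u (u y) = y := by
    intro y
    apply Subtype.ext
    rw [hu, hu]
    have : t₂ * (t₂ * (y : G) * t₂⁻¹) * t₂⁻¹ = (t₂ * t₂) * y * (t₂ * t₂)⁻¹ := by group
    rw [this, h2]; simp
  have hsu : ∀ y, s (u y) = u (s y) := by
    intro y
    apply Subtype.ext
    rw [hs, hu, hu, hs]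
    have e1 : t₁ * (t₂ * (y : G) * t₂⁻¹) * t₁⁻¹ = (t₁ * t₂) * y * (t₁ * t₂)⁻¹ := by group
    have e2 : t₂ * (t₁ * (y : G) * t₁⁻¹) * t₂⁻¹ = (t₂ * t₁) * y * (t₂ * t₁)⁻¹ := by group
    rw [e1, e2, hc]
  have key := bw_exact_hom hY s u hss huu hsu
  have conj_iff : ∀ (t g : G), t * g * t⁻¹ = g ↔ t * g = g * t := by
    intro t g
    constructor
    · intro h
      calc t * g = t * g * t⁻¹ * t := by group
        _ = g * t := by rw [h]
    · intro h
      rw [h]; group
  have e1 : Nat.card {x : Y // s x = x} = Nat.card ↥(Y ⊓ Subgroup.centralizer ({t₁} : Set G)) := by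
    refine Nat.card_congr (((Equiv.subtypeEquivRight (q := fun y : Y => t₁ * (y : G) = y * t₁)
      (fun y => ?_)).trans
      (Equiv.subtypeSubtypeEquivSubtypeInter (fun g : G => g ∈ Y)
        (fun g : G => t₁ * g = g * t₁))).trans (Equiv.subtypeEquivRight (fun g => ?_)))
    · rw [← conj_iff, ← hs]
      exact Subtype.ext_iff
    · rw [Subgroup.mem_inf, Subgroup.mem_centralizer_iff]
      simp
  have e2 : Nat.card {x : Y // u x = x} = Nat.card ↥(Y ⊓ Subgroup.centralizer ({t₂} : Set G)) := by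
    refine Nat.card_congr (((Equiv.subtypeEquivRight (q := fun y : Y => t₂ * (y : G) = y * t₂)
      (fun y => ?_)).trans
      (Equiv.subtypeSubtypeEquivSubtypeInter (fun g : G => g ∈ Y)
        (fun g : G => t₂ * g = g * t₂))).trans (Equiv.subtypeEquivRight (fun g => ?_)))
    · rw [← conj_iff, ← hu]
      exact Subtype.ext_iff
    · rw [Subgroup.mem_inf, Subgroup.mem_centralizer_iff]
      simp
  have e3 : Nat.card {x : Y // s (u x) = x} =
      Nat.card ↥(Y ⊓ Subgroup.centralizer ({t₁ * t₂} : Set G)) := by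
    refine Nat.card_congr (((Equiv.subtypeEquivRight
      (q := fun y : Y => t₁ * t₂ * (y : G) = y * (t₁ * t₂)) (fun y => ?_)).trans
      (Equiv.subtypeSubtypeEquivSubtypeInter (fun g : G => g ∈ Y)
        (fun g : G => t₁ * t₂ * g = g * (t₁ * t₂)))).trans (Equiv.subtypeEquivRight (fun g => ?_)))
    · rw [← conj_iff, Subtype.ext_iff, hs, hu]
      have : t₁ * (t₂ * (y : G) * t₂⁻¹) * t₁⁻¹ = t₁ * t₂ * y * (t₁ * t₂)⁻¹ := by group
      rw [this]
    · rw [Subgroup.mem_inf, Subgroup.mem_centralizer_iff]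
      simp
  have e4 : Nat.card {x : Y // s x = x ∧ u x = x} =
      Nat.card ↥(Y ⊓ Subgroup.centralizer ({t₁, t₂} : Set G)) := by
    refine Nat.card_congr (((Equiv.subtypeEquivRight
      (q := fun y : Y => t₁ * (y : G) = y * t₁ ∧ t₂ * (y : G) = y * t₂) (fun y => ?_)).trans
      (Equiv.subtypeSubtypeEquivSubtypeInter (fun g : G => g ∈ Y)
        (fun g : G => t₁ * g = g * t₁ ∧ t₂ * g = g * t₂))).trans
          (Equiv.subtypeEquivRight (fun g => ?_)))
    · rw [← conj_iff, ← conj_iff, ← hs, ← hu, Subtype.ext_iff, Subtype.ext_iff]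
    · rw [Subgroup.mem_inf, Subgroup.mem_centralizer_iff]
      simp
  rw [e1, e2, e3, e4] at key
  exact key

end Cfsg.Agent.Helper93
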