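import Mathlib
import Cfsg.Agent.Lead.H581Defs
import Cfsg.Agent.Helper93.BWExact

/-!
CALL S4221, piece A7b (`cent_orbit_rel`), with its dependencies (A5, A6a, A7a) as hypotheses.
-/

set_option autoImplicit false

namespace Cfsg.Agent.Helper93.H581A7bAux

open Cfsg.Agent.Lead.H581 Equiv

variable {α : Type*} [Fintype α] [DecidableEq α]

omit [Fintype α] [DecidableEq α] in
/-- an element of `G` whose inverse permutes `a b c d` normalises `stab4 G a b c d` -/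
theorem conj_mem_stab4 (G : Subgroup (Perm α)) (a b c d : α) (y : Perm α) (hy : y ∈ G)
    (ha : y⁻¹ a = a ∨ y⁻¹ a = b ∨ y⁻¹ a = c ∨ y⁻¹ a = d)
    (hb : y⁻¹ b = a ∨ y⁻¹ b = b ∨ y⁻¹ b = c ∨ y⁻¹ b = d)
    (hc : y⁻¹ c = a ∨ y⁻¹ c = b ∨ y⁻¹ c = c ∨ y⁻¹ c = d)
    (hd : y⁻¹ d = a ∨ y⁻¹ d = b ∨ y⁻¹ d = c ∨ y⁻¹ d = d) :
    ∀ g ∈ stab4 G a b c d, y * g * y⁻¹ ∈ stab4 G a b c d := by
  rintro g ⟨hg, ga, gb, gc, gd⟩
  have key : ∀ p, (y⁻¹ p = a ∨ y⁻¹ p = b ∨ y⁻¹ p = c ∨ y⁻¹ p = d) → (y * g * y⁻¹) p = p := by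
    intro p hp
    have e : g (y⁻¹ p) = y⁻¹ p := by
      rcases hp with h | h | h | h <;> rw [h] <;> assumption
    show y (g (y⁻¹ p)) = p
    rw [e]
    exact y.apply_symm_apply p
  exact ⟨G.mul_mem (G.mul_mem hy hg) (G.inv_mem hy), key a ha, key b hb, key c hc, key d hd⟩

/-- the numerical core: `h * k^2 = c₁ c₂ c₃`, `j₁ c₁ = h`, `j₂ c₂ = h`, `j₃ c₃ = h`
give `k^2 * (j₁ j₂ j₃) = h^2` -/
theorem bw_numeric {h k c₁ c₂ c₃ j₁ j₂ j₃ : ℕ} (hh : 0 < h) (e : h * k ^ 2 = c₁ * c₂ * c₃)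
    (e1 : j₁ * c₁ = h) (e2 : j₂ * c₂ = h) (e3 : j₃ * c₃ = h) : k ^ 2 * (j₁ * j₂ * j₃) = h ^ 2 := by
  have e' : h * (k ^ 2 * (j₁ * j₂ * j₃)) = h * h ^ 2 := by
    calc h * (k ^ 2 * (j₁ * j₂ * j₃)) = (h * k ^ 2) * (j₁ * j₂ * j₃) := by ring
      _ = (c₁ * c₂ * c₃) * (j₁ * j₂ * j₃) := by rw [e]
      _ = (j₁ * c₁) * (j₂ * c₂) * (j₃ * c₃) := by ring
      _ = h * h ^ 2 := by rw [e1, e2, e3]; ring
  exact Nat.eq_of_mul_eq_mul_left hh e'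

/-- PIECE A7b with the dependencies A5 (`IA`, `IB`), A6a (`EA`, `EB`), A7a (`CC`) as hypotheses. -/
theorem cent_orbit_rel_aux (G : Subgroup (Perm α)) (h : ℕ) (H : Hyp G h) (a b c d : α)
    (hd : Dist4 a b c d) (y₁ y₂ : Perm α) (hy₁ : y₁ ∈ G) (hy₂ : y₂ ∈ G) (h1 : y₁ * y₁ = 1) (h2 : y₂ * y₂ = 1)
    (hc : y₁ * y₂ = y₂ * y₁) (e1 : y₁ a = b) (e2 : y₁ c = c) (e3 : y₁ d = d) (e4 : y₂ a = a) (e5 : y₂ b = b)
    (e6 : y₂ c = d) (x : α) (hx : x ∈ regPts y₁ y₂)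
    (IA : ∀ a b c d : α, Dist4 a b c d → ∀ z ∈ invA G a b c d,
      (invA G a b c d).ncard * Nat.card ↥(stab4 G a b c d ⊓ Subgroup.centralizer ({z} : Set (Perm α))) = h)
    (IB : ∀ a b c d : α, Dist4 a b c d → ∀ y ∈ invB G a b c d,
      (invB G a b c d).ncard * Nat.card ↥(stab4 G a b c d ⊓ Subgroup.centralizer ({y} : Set (Perm α))) = h)
    (EA : ∀ a b c d a' b' c' d' : α, Dist4 a b c d → Dist4 a' b' c' d' →
      (invA G a b c d).ncard = (invA G a' b' c' d').ncard)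
    (EB : ∀ a b c d a' b' c' d' : α, Dist4 a b c d → Dist4 a' b' c' d' →
      (invB G a b c d).ncard = (invB G a' b' c' d').ncard)
    (CC : Nat.card ↥(G ⊓ Subgroup.centralizer ({y₁, y₂} : Set (Perm α))) =
      4 * Nat.card ↥(stab4 G a b c d ⊓ Subgroup.centralizer ({y₁, y₂} : Set (Perm α)))) :
    Nat.card ↥(G ⊓ Subgroup.centralizer ({y₁, y₂} : Set (Perm α))) * (invB G a b c d).ncard =
      4 * (invA G a b c d).ncard *
        Nat.card ↥(stab4 G x (y₁ x) (y₂ x) ((y₁ * y₂) x) ⊓ Subgroup.centralizer ({y₁, y₂} : Set (Perm α))) := by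
  obtain ⟨hab, hac, had, hbc, hbd, hcd⟩ := hd
  have hd : Dist4 a b c d := ⟨hab, hac, had, hbc, hbd, hcd⟩
  have hh : 0 < h := H.odd.pos
  -- pointwise facts
  have hy1 : ∀ p, y₁ (y₁ p) = p := fun p => by
    have := congrArg (fun f : Perm α => f p) h1
    simpa using this
  have hy2 : ∀ p, y₂ (y₂ p) = p := fun p => by
    have := congrArg (fun f : Perm α => f p) h2
    simpa using this
  have hcomm : ∀ p, y₁ (y₂ p) = y₂ (y₁ p) := fun p => by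
    have := congrArg (fun f : Perm α => f p) hc
    simpa using this
  have i1 : y₁⁻¹ = y₁ := inv_eq_of_mul_eq_one_left h1
  have i2 : y₂⁻¹ = y₂ := inv_eq_of_mul_eq_one_left h2
  have e1' : y₁ b = a := by rw [← e1, hy1]
  have e6' : y₂ d = c := by rw [← e6, hy2]
  have sq12 : (y₁ * y₂) * (y₁ * y₂) = 1 := by
    calc (y₁ * y₂) * (y₁ * y₂) = y₁ * (y₂ * y₁) * y₂ := by group
      _ = y₁ * (y₁ * y₂) * y₂ := by rw [hc]
      _ = (y₁ * y₁) * (y₂ * y₂) := by group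
      _ = 1 := by rw [h1, h2, one_mul]
  -- first quadruple
  have hHs : Nat.card (stab4 G a b c d) = h := H.card a b c d hd
  have hodd : Odd (Nat.card (stab4 G a b c d)) := by rw [hHs]; exact H.odd
  have n1 : ∀ g ∈ stab4 G a b c d, y₁ * g * y₁⁻¹ ∈ stab4 G a b c d :=
    conj_mem_stab4 G a b c d y₁ hy₁ (by rw [i1]; exact Or.inr (Or.inl e1))
      (by rw [i1]; exact Or.inl e1') (by rw [i1]; exact Or.inr (Or.inr (Or.inl e2)))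
      (by rw [i1]; exact Or.inr (Or.inr (Or.inr e3)))
  have n2 : ∀ g ∈ stab4 G a b c d, y₂ * g * y₂⁻¹ ∈ stab4 G a b c d :=
    conj_mem_stab4 G a b c d y₂ hy₂ (by rw [i2]; exact Or.inl e4)
      (by rw [i2]; exact Or.inr (Or.inl e5)) (by rw [i2]; exact Or.inr (Or.inr (Or.inr e6)))
      (by rw [i2]; exact Or.inr (Or.inr (Or.inl e6')))
  have BW := Cfsg.Agent.Helper93.bw_card_eq (stab4 G a b c d) hodd y₁ y₂ h1 h2 hc n1 n2
  rw [hHs] at BW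
  have hA := IB a b c d hd y₁ ⟨hy₁, h1, e1, e2, e3⟩
  have hd' : Dist4 c d a b := ⟨hcd, hac.symm, hbc.symm, had.symm, hbd.symm, hab⟩
  have hB := IB c d a b hd' y₂ ⟨hy₂, h2, e6, e4, e5⟩
  have hst : stab4 G c d a b = stab4 G a b c d := by
    ext g; simp only [mem_stab4]; tauto
  rw [hst, EB c d a b a b c d hd' hd] at hB
  have hC := IA a b c d hd (y₁ * y₂) ⟨G.mul_mem hy₁ hy₂, sq12,
    by rw [Perm.mul_apply, e4, e1], by rw [Perm.mul_apply, e6, e3]⟩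
  have N1 := bw_numeric hh BW hA hB hC
  -- second quadruple
  have hx' : y₁ x ≠ x ∧ y₂ x ≠ x ∧ (y₁ * y₂) x ≠ x := by
    rw [regPts, Finset.mem_filter] at hx
    exact hx.2
  obtain ⟨hx1, hx2, hx3⟩ := hx'
  have d12 : y₁ x ≠ y₂ x := by
    intro e; apply hx3; show y₁ (y₂ x) = x; rw [← e, hy1]
  have d13 : y₁ x ≠ (y₁ * y₂) x := by
    intro e; apply hx2; exact (y₁.injective e).symm
  have d23 : y₂ x ≠ (y₁ * y₂) x := by
    intro e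
    have e' : y₂ x = y₂ (y₁ x) := by rw [← hcomm]; exact e
    exact hx1 (y₂.injective e').symm
  have hdx : Dist4 x (y₁ x) (y₂ x) ((y₁ * y₂) x) := ⟨hx1.symm, hx2.symm, hx3.symm, d12, d13, d23⟩
  have hHx : Nat.card (stab4 G x (y₁ x) (y₂ x) ((y₁ * y₂) x)) = h := H.card _ _ _ _ hdx
  have hoddx : Odd (Nat.card (stab4 G x (y₁ x) (y₂ x) ((y₁ * y₂) x))) := by rw [hHx]; exact H.odd
  have m1 : ∀ g ∈ stab4 G x (y₁ x) (y₂ x) ((y₁ * y₂) x),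
      y₁ * g * y₁⁻¹ ∈ stab4 G x (y₁ x) (y₂ x) ((y₁ * y₂) x) :=
    conj_mem_stab4 G _ _ _ _ y₁ hy₁ (by rw [i1]; exact Or.inr (Or.inl rfl))
      (by rw [i1]; exact Or.inl (hy1 x)) (by rw [i1]; exact Or.inr (Or.inr (Or.inr rfl)))
      (by rw [i1]; exact Or.inr (Or.inr (Or.inl (hy1 _))))
  have m2 : ∀ g ∈ stab4 G x (y₁ x) (y₂ x) ((y₁ * y₂) x),
      y₂ * g * y₂⁻¹ ∈ stab4 G x (y₁ x) (y₂ x) ((y₁ * y₂) x) :=
    conj_mem_stab4 G _ _ _ _ y₂ hy₂ (by rw [i2]; exact Or.inr (Or.inr (Or.inl rfl)))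
      (by rw [i2]; exact Or.inr (Or.inr (Or.inr (hcomm x).symm)))
      (by rw [i2]; exact Or.inl (hy2 x))
      (by rw [i2]; refine Or.inr (Or.inl ?_); show y₂ (y₁ (y₂ x)) = y₁ x; rw [hcomm, hy2])
  have BW2 := Cfsg.Agent.Helper93.bw_card_eq (stab4 G x (y₁ x) (y₂ x) ((y₁ * y₂) x)) hoddx y₁ y₂ h1 h2 hc m1 m2
  rw [hHx] at BW2
  have kA := IA x (y₁ x) (y₂ x) ((y₁ * y₂) x) hdx y₁ ⟨hy₁, h1, rfl, rfl⟩
  rw [EA x (y₁ x) (y₂ x) ((y₁ * y₂) x) a b c d hdx hd] at kA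
  have hdx2 : Dist4 x (y₂ x) (y₁ x) ((y₁ * y₂) x) :=
    ⟨hx2.symm, hx1.symm, hx3.symm, d12.symm, d23, d13⟩
  have kB := IA x (y₂ x) (y₁ x) ((y₁ * y₂) x) hdx2 y₂ ⟨hy₂, h2, rfl, (hcomm x).symm⟩
  have hst2 : stab4 G x (y₂ x) (y₁ x) ((y₁ * y₂) x) = stab4 G x (y₁ x) (y₂ x) ((y₁ * y₂) x) := by
    ext g; simp only [mem_stab4]; tauto
  rw [hst2, EA x (y₂ x) (y₁ x) ((y₁ * y₂) x) a b c d hdx2 hd] at kB
  have hdx3 : Dist4 x ((y₁ * y₂) x) (y₁ x) (y₂ x) :=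
    ⟨hx3.symm, hx1.symm, hx2.symm, d13.symm, d23.symm, d12⟩
  have kC := IA x ((y₁ * y₂) x) (y₁ x) (y₂ x) hdx3 (y₁ * y₂) ⟨G.mul_mem hy₁ hy₂, sq12, rfl, by
    show y₁ (y₂ (y₁ x)) = y₂ x
    rw [← hcomm, hy1]⟩
  have hst3 : stab4 G x ((y₁ * y₂) x) (y₁ x) (y₂ x) = stab4 G x (y₁ x) (y₂ x) ((y₁ * y₂) x) := by
    ext g; simp only [mem_stab4]; tauto
  rw [hst3, EA x ((y₁ * y₂) x) (y₁ x) (y₂ x) a b c d hdx3 hd] at kC
  have N2 := bw_numeric hh BW2 kA kB kC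
  -- conclusion
  set k := Nat.card ↥(stab4 G a b c d ⊓ Subgroup.centralizer ({y₁, y₂} : Set (Perm α))) with hk
  set q := Nat.card ↥(stab4 G x (y₁ x) (y₂ x) ((y₁ * y₂) x) ⊓
    Subgroup.centralizer ({y₁, y₂} : Set (Perm α))) with hq
  set i := (invA G a b c d).ncard with hi
  set i' := (invB G a b c d).ncard with hi'
  have ipos : 0 < i := by
    rcases Nat.eq_zero_or_pos i with h0 | h0
    · rw [h0, zero_mul] at hC; omega
    · exact h0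
  have E : (k * i') ^ 2 * i = (q * i) ^ 2 * i := by
    calc (k * i') ^ 2 * i = k ^ 2 * (i' * i' * i) := by ring
      _ = h ^ 2 := N1
      _ = q ^ 2 * (i * i * i) := N2.symm
      _ = (q * i) ^ 2 * i := by ring
  have E2 : (k * i') ^ 2 = (q * i) ^ 2 := Nat.eq_of_mul_eq_mul_right ipos E
  have E3 : k * i' = q * i := Nat.pow_left_injective (by norm_num : (2 : ℕ) ≠ 0) E2
  rw [CC]
  calc 4 * k * i' = 4 * (k * i') := by ring
    _ = 4 * (q * i) := by rw [E3]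
    _ = 4 * i * q := by ring

end Cfsg.Agent.Helper93.H581A7bAux
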