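import Mathlib
import Cfsg.Agent.Lead.H581Defs
import Cfsg.Agent.Helper91.H581A5
import Cfsg.Agent.Helper93.H581A6a
import Cfsg.Agent.Helper93.H581A7a
import Cfsg.Agent.Helper93.H581A7bAux

/-!
CALL S4221, piece A7b: `cent_orbit_rel`.
-/

set_option autoImplicit false

namespace Cfsg.Agent.Helper93.H581A7b

open Cfsg.Agent.Lead.H581 Equiv

variable {α : Type*} [Fintype α] [DecidableEq α]

/-- PIECE A7b (uses P1, A5, A6a, A7a) -/
theorem cent_orbit_rel (G : Subgroup (Perm α)) (h : ℕ) (H : Hyp G h) (a b c d : α)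
    (hd : Dist4 a b c d) (y₁ y₂ : Perm α) (hy₁ : y₁ ∈ G) (hy₂ : y₂ ∈ G) (h1 : y₁ * y₁ = 1) (h2 : y₂ * y₂ = 1)
    (hc : y₁ * y₂ = y₂ * y₁) (e1 : y₁ a = b) (e2 : y₁ c = c) (e3 : y₁ d = d) (e4 : y₂ a = a) (e5 : y₂ b = b)
    (e6 : y₂ c = d) (x : α) (hx : x ∈ regPts y₁ y₂) :
    Nat.card ↥(G ⊓ Subgroup.centralizer ({y₁, y₂} : Set (Perm α))) * (invB G a b c d).ncard =
      4 * (invA G a b c d).ncard *
        Nat.card ↥(stab4 G x (y₁ x) (y₂ x) ((y₁ * y₂) x) ⊓ Subgroup.centralizer ({y₁, y₂} : Set (Perm α))) :=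
  Cfsg.Agent.Helper93.H581A7bAux.cent_orbit_rel_aux G h H a b c d hd y₁ y₂ hy₁ hy₂ h1 h2 hc e1 e2 e3 e4 e5 e6 x hx
    (fun a b c d hd z hz => Cfsg.Agent.Helper91.H581A5.invA_card G h H a b c d hd z hz)
    (fun a b c d hd y hy => Cfsg.Agent.Helper91.H581A5.invB_card G h H a b c d hd y hy)
    (fun a b c d a' b' c' d' hd hd' => Cfsg.Agent.Helper93.H581A6a.invA_ncard_eq G h H a b c d a' b' c' d' hd hd')
    (fun a b c d a' b' c' d' hd hd' => Cfsg.Agent.Helper93.H581A6a.invB_ncard_eq G h H a b c d a' b' c' d' hd hd')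
    (Cfsg.Agent.Helper93.H581A7a.cent_card G h H a b c d hd y₁ y₂ hy₁ hy₂ h1 h2 hc e1 e2 e3 e4 e5 e6)

end Cfsg.Agent.Helper93.H581A7b
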