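import Mathlib
import Cfsg.Agent.Lead.H581Defs
import Cfsg.Agent.Helper93.BWExact

/-!
CALL S4221, piece P1: the exact Brauer–Wielandt formula (wrapper of `Cfsg.Agent.Helper93.bw_card_eq`).
-/

set_option autoImplicit false

namespace Cfsg.Agent.Helper93.H581P1

/-- PIECE P1: the exact Brauer-Wielandt formula for a four-group acting on a group of odd order -/
theorem bw_exact {G : Type*} [Group G] [Finite G] (Y : Subgroup G) (hY : Odd (Nat.card Y)) (t₁ t₂ : G)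
    (h1 : t₁ * t₁ = 1) (h2 : t₂ * t₂ = 1) (hc : t₁ * t₂ = t₂ * t₁) (ht1 : t₁ ≠ 1) (ht2 : t₂ ≠ 1) (ht12 : t₁ ≠ t₂)
    (hn1 : ∀ y ∈ Y, t₁ * y * t₁⁻¹ ∈ Y) (hn2 : ∀ y ∈ Y, t₂ * y * t₂⁻¹ ∈ Y) :
    Nat.card Y * Nat.card ↥(Y ⊓ Subgroup.centralizer ({t₁, t₂} : Set G)) ^ 2 =
      Nat.card ↥(Y ⊓ Subgroup.centralizer ({t₁} : Set G)) * Nat.card ↥(Y ⊓ Subgroup.centralizer ({t₂} : Set G)) *
        Nat.card ↥(Y ⊓ Subgroup.centralizer ({t₁ * t₂} : Set G)) :=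
  Cfsg.Agent.Helper93.bw_card_eq Y hY t₁ t₂ h1 h2 hc hn1 hn2

end Cfsg.Agent.Helper93.H581P1
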