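import Mathlib
import Cfsg.Agent.Helper43.OTDefs

set_option autoImplicit false

/-!
# Sub-CALL TSOG (helper98), piece COMB.
-/

namespace Cfsg.Agent.Helper93.TSOG

open Module Polynomial Cfsg.Agent.Helper90.HT Cfsg.Agent.Helper43.OT

variable {F : Type*} [Field F] {V : Type*} [AddCommGroup V] [Module F V] [FiniteDimensional F V]

/-- COMB [S]: a totally singular subspace of the fixed space plus an invariant totally singular
subspace of `D` (orthogonal to `C`) is an invariant totally singular subspace. -/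
theorem og_comb (Q : QuadraticForm F V) (T : Module.End F V) (C D : Submodule F V)
    (hCD : C ⊓ D = ⊥) (horth : ∀ u ∈ C, ∀ v ∈ D, ph Q u v = 0)
    (hC : C ≤ LinearMap.ker (T - 1)) (N : Submodule F V) (hNC : N ≤ C)
    (hN : ∀ w ∈ N, Q w = 0) (W' : Submodule F V) (hW'D : W' ≤ D) (hW' : ∀ w ∈ W', Q w = 0)
    (hW'T : W'.map T ≤ W') :
    (∀ w ∈ N ⊔ W', Q w = 0) ∧ (N ⊔ W').map T ≤ N ⊔ W' ∧
      finrank F ↥(N ⊔ W') = finrank F N + finrank F W' := by
  refine ⟨?_, ?_, ?_⟩
  · intro w hw
    obtain ⟨n, hn, w', hw', rfl⟩ := Submodule.mem_sup.1 hw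
    have h1 : Q (n + w') = Q n + Q w' + ph Q n w' := by
      rw [ph_apply, QuadraticMap.polar]; ring
    rw [h1, hN n hn, hW' w' hw', horth n (hNC hn) w' (hW'D hw')]; simp
  · rw [Submodule.map_sup]
    apply sup_le_sup
    · rintro _ ⟨x, hx, rfl⟩
      have e := LinearMap.mem_ker.1 (hC (hNC hx))
      rw [LinearMap.sub_apply, Module.End.one_apply, sub_eq_zero] at e
      rw [e]; exact hx
    · exact hW'T
  · have hinf : N ⊓ W' = ⊥ := by
      rw [eq_bot_iff, ← hCD]; exact inf_le_inf hNC hW'D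
    have e := Submodule.finrank_sup_add_finrank_inf_eq N W'
    rw [hinf, finrank_bot, add_zero] at e
    exact e

end Cfsg.Agent.Helper93.TSOG
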