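import Mathlib
import Cfsg.Prelude.Def_GeometricClasses
import Cfsg.Prelude.Def_Classical
import Cfsg.Agent.Helper58.TSDefs
import Cfsg.Agent.Helper33.ODisc
import Cfsg.Agent.Helper13.FinQuad
import Cfsg.Agent.Helper98.OPar

set_option autoImplicit false

/-!
# Sub-CALL TSR2 (helper90), piece SKEX: an isometry with square `-1`.
-/

namespace Cfsg.Agent.Helper93.TSR2

open Module Cfsg Cfsg.Geo Cfsg.Agent.Helper58.TS
open scoped MatrixGroups

section pieces

variable {ι : Type} [Fintype ι] [DecidableEq ι] {F : Type*} [Field F] [Fintype F]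

/-- SKEX [L]: `-1` a nonsquare and (plus type iff `d` even): an isometry `g` with `g² = -1` exists
(orthonormal basis `u_j, w_j`; `g : u_j ↦ w_j ↦ -u_j`). -/
theorem r2_skew_ex (Q : (ι → F) → F) (hQ : IsNondegenerateQuadraticForm Q) (h2 : (2 : F) ≠ 0)
    (d : ℕ) (hd : 1 ≤ d) (hcard : Fintype.card ι = 2 * d) (hm1 : ¬ IsSquare (-1 : F))
    (htype : IsPlusTypeOn Q ⊤ ↔ Even d) :
    ∃ g : ↥(Cfsg.isometryGroup F Q),
      ((g : GL ι F) : Matrix ι ι F) * ((g : GL ι F) : Matrix ι ι F) = -1 := by
  classical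
  obtain ⟨B, hBdef⟩ : ∃ B : LinearMap.BilinForm F (ι → F),
      B = QuadraticMap.polarBilin (Cfsg.Agent.Helper98.op_qf Q hQ) := ⟨_, rfl⟩
  have hBapp : ∀ u v, B u v = QuadraticMap.polar Q u v := by
    intro u v; rw [hBdef]; rfl
  have hsymm : ∀ u v, B u v = B v u := by
    intro u v; rw [hBapp, hBapp]; exact QuadraticMap.polar_comm Q _ _
  have hS : B.IsSymm := ⟨hsymm⟩
  have hB : B.Nondegenerate := by
    rw [hBdef]; exact Cfsg.Agent.Helper98.op_qf_nondeg Q hQ
  have hfin : Module.finrank F (ι → F) = (2 * d - 1) + 1 := by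
    rw [Module.finrank_fintype_fun_eq_card, hcard]; omega
  obtain ⟨b, hbo, hb1, hlast⟩ :=
    Cfsg.Agent.Helper13.exists_orthonormalish_basis B h2 hS hB hfin (-1) hm1
  -- the last diagonal entry is `1`
  have hlast1 : B (b (Fin.last _)) (b (Fin.last _)) = 1 := by
    rcases hlast with h | h
    · exact h
    · exfalso
      have hdisc := Cfsg.Agent.Helper33.o_plus_iff_disc h2 Q hQ hd hcard b
      have hgram : (Matrix.of fun i j => QuadraticMap.polar Q (b i) (b j)) =
          Matrix.diagonal (fun i => B (b i) (b i)) := by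
        ext i j
        by_cases hij : i = j
        · subst hij
          rw [Matrix.of_apply, Matrix.diagonal_apply_eq, hBapp]
        · rw [Matrix.of_apply, Matrix.diagonal_apply_ne _ hij, ← hBapp]
          exact hbo i j hij
      have hdet : (Matrix.of fun i j => QuadraticMap.polar Q (b i) (b j)).det = -1 := by
        rw [hgram, Matrix.det_diagonal, Fin.prod_univ_castSucc, h,
          Finset.prod_eq_one (fun i _ => hb1 _ (Fin.castSucc_lt_last i).ne), one_mul]
      rw [hdet] at hdisc
      by_cases hev : Even d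
      · have hsq := hdisc.1 (htype.2 hev)
        rw [hev.neg_one_pow, one_mul] at hsq
        exact hm1 hsq
      · have hnp : ¬ IsPlusTypeOn Q ⊤ := fun hp => hev (htype.1 hp)
        apply hnp
        apply hdisc.2
        have hodd : Odd d := Nat.not_even_iff_odd.1 hev
        rw [hodd.neg_one_pow]
        exact ⟨1, by ring⟩
  have hb : ∀ i j, B (b i) (b j) = if i = j then 1 else 0 := by
    intro i j
    by_cases hij : i = j
    · subst hij
      rw [if_pos rfl]
      by_cases hl : i = Fin.last _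
      · rw [hl]; exact hlast1
      · exact hb1 i hl
    · rw [if_neg hij]; exact hbo i j hij
  -- reindex by `Fin d ⊕ Fin d`
  have hdd : d + d = 2 * d - 1 + 1 := by omega
  obtain ⟨e, he⟩ : ∃ e : Basis (Fin d ⊕ Fin d) F (ι → F),
      ∀ i j, B (e i) (e j) = if i = j then 1 else 0 := by
    refine ⟨b.reindex (finSumFinEquiv.trans (finCongr hdd)).symm, ?_⟩
    intro i j
    rw [Basis.reindex_apply, Basis.reindex_apply, hb]
    simp only [Equiv.symm_symm, EmbeddingLike.apply_eq_iff_eq]
  obtain ⟨γ, hγl, hγr⟩ : ∃ γ : (ι → F) →ₗ[F] (ι → F),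
      (∀ j, γ (e (Sum.inl j)) = e (Sum.inr j)) ∧ (∀ j, γ (e (Sum.inr j)) = - e (Sum.inl j)) := by
    refine ⟨e.constr F (Sum.elim (fun j => e (Sum.inr j)) (fun j => - e (Sum.inl j))), ?_, ?_⟩
    · intro j; rw [Basis.constr_basis]; rfl
    · intro j; rw [Basis.constr_basis]; rfl
  have hpres : ∀ x y, B (γ x) (γ y) = B x y := by
    have h : B.compl₁₂ γ γ = B := by
      apply LinearMap.BilinForm.ext_basis e
      intro i j
      rw [LinearMap.compl₁₂_apply]
      rcases i with i | i <;> rcases j with j | j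
      · rw [hγl, hγl, he, he]; simp
      · rw [hγl, hγr, map_neg, he, he]; simp
      · rw [hγr, hγl, map_neg, LinearMap.neg_apply, he, he]; simp
      · rw [hγr, hγr, map_neg, map_neg, LinearMap.neg_apply, neg_neg, he, he]; simp
    intro x y
    have h' := congrArg (fun C : LinearMap.BilinForm F (ι → F) => C x y) h
    simpa [LinearMap.compl₁₂_apply] using h'
  have hiso : ∀ x, Q (γ x) = Q x := by
    intro x
    have h := hpres x x
    have e1 : QuadraticMap.polar Q (γ x) (γ x) = 2 • Q (γ x) :=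
      QuadraticMap.polar_self (Cfsg.Agent.Helper98.op_qf Q hQ) (γ x)
    have e2 : QuadraticMap.polar Q x x = 2 • Q x :=
      QuadraticMap.polar_self (Cfsg.Agent.Helper98.op_qf Q hQ) x
    rw [hBapp, hBapp, e1, e2, two_smul, two_smul, ← two_mul, ← two_mul] at h
    exact mul_left_cancel₀ h2 h
  have hγγ : γ ∘ₗ γ = -LinearMap.id := by
    apply e.ext
    intro i
    rcases i with j | j
    · simp [hγl, hγr]
    · simp [hγl, hγr]
  obtain ⟨G, hGdef⟩ : ∃ G : Matrix ι ι F, G = LinearMap.toMatrix' γ := ⟨_, rfl⟩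
  have hGv : ∀ v, G.mulVec v = γ v := by
    intro v
    rw [hGdef, ← Matrix.toLin'_apply, Matrix.toLin'_toMatrix']
  have hGG : G * G = -1 := by
    rw [hGdef, ← LinearMap.toMatrix'_comp, hγγ, map_neg, LinearMap.toMatrix'_id]
  refine ⟨⟨⟨G, -G, by rw [mul_neg, hGG, neg_neg], by rw [neg_mul, hGG, neg_neg]⟩, ?_⟩, hGG⟩
  intro u v
  show Q (G.mulVec u) = Q u
  rw [hGv]; exact hiso u

end pieces

end Cfsg.Agent.Helper93.TSR2
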