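import Mathlib
import Cfsg.Prelude.Def_GeometricClasses
import Cfsg.Prelude.Def_LieClassical
import Cfsg.Agent.Helper69.E4Def
import Cfsg.Agent.Helper69.E4UDef
import Cfsg.Agent.Helper97.UForm

set_option autoImplicit false

namespace Cfsg.Agent.Helper93
open Cfsg.Agent.Helper69 Cfsg.Agent.Helper97
open scoped Matrix

/-! ### CF5 -/

set_option maxHeartbeats 1600000 in
theorem e4u_canon_form_five {F : Type*} [Field F] (h5 : (5 : F) ≠ 0) (σ : F ≃+* F)
    (hσσ : ∀ x : F, σ (σ x) = x) (τ : F) (hτ : τ ^ 2 + τ - 1 = 0) (hστ : σ τ = -1 - τ)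
    (y B₀ : Matrix (Fin 4) (Fin 4) F) (hU : yᵀ * y.map σ = 1) (hB₀ : B₀.det ≠ 0)
    (hy : y * B₀ = B₀ * e4uM0 τ) :
    ∃ B : Matrix (Fin 4) (Fin 4) F, y * B = B * e4uD5 τ ∧ Bᵀ * B.map σ = e4uJ5 F := by
  have hmap : ∀ A B : Matrix (Fin 4) (Fin 4) F, (A * B).map σ = A.map σ * B.map σ :=
    fun A B => Matrix.map_mul (f := (σ : F →+* F))
  have hdetσ : ∀ A : Matrix (Fin 4) (Fin 4) F, (A.map σ).det = σ A.det :=
    fun A => (RingHom.map_det (σ : F →+* F) A).symm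
  have hmm : ∀ A : Matrix (Fin 4) (Fin 4) F, (A.map σ).map σ = A := by
    intro A; ext i j; simp [hσσ]
  have hherm : ∀ B : Matrix (Fin 4) (Fin 4) F, ∀ i j, σ ((Bᵀ * B.map σ) j i) = (Bᵀ * B.map σ) i j := by
    intro B i j
    have h1 : (Bᵀ * B.map σ).map σ = (Bᵀ * B.map σ)ᵀ := by
      rw [hmap, hmm, Matrix.transpose_mul, Matrix.transpose_transpose, Matrix.transpose_map]
    have h2 := congrFun (congrFun h1 j) i
    simpa using h2
  have hστ' : σ (-1 - τ) = τ := by rw [map_sub, map_neg, map_one, hστ]; ring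
  have hMσ : (e4uM0 τ).map σ = !![0, -1, 0, 0; 1, -1 - τ, 0, 0; 0, 0, 0, -1; 0, 0, 1, τ] := by
    ext i j; fin_cases i <;> fin_cases j <;> simp [e4uM0, hστ, hστ']
  obtain ⟨G, hGdef⟩ : ∃ G : Matrix (Fin 4) (Fin 4) F, G = B₀ᵀ * B₀.map σ := ⟨_, rfl⟩
  have hG : (e4uM0 τ)ᵀ * G * (e4uM0 τ).map σ = G := by
    have h1 : (y * B₀)ᵀ * (y * B₀).map σ = G := by
      rw [Matrix.transpose_mul, hmap, Matrix.mul_assoc, ← Matrix.mul_assoc yᵀ, hU, Matrix.one_mul,
        hGdef]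
    rw [hy, Matrix.transpose_mul, hmap] at h1
    rw [hGdef]
    rw [hGdef] at h1
    simpa only [Matrix.mul_assoc] using h1
  have hGdet : G.det ≠ 0 := by
    rw [hGdef, Matrix.det_mul, Matrix.det_transpose, hdetσ]
    exact mul_ne_zero hB₀ ((map_ne_zero σ).mpr hB₀)
  have hτne : 2 * τ + 1 ≠ 0 := by
    intro h
    apply h5
    have : (2 * τ + 1) ^ 2 = 5 := by linear_combination 4 * hτ
    rw [← this, h]; ring
  have hGe : ∀ i j, ((e4uM0 τ)ᵀ * G * (e4uM0 τ).map σ) i j = G i j := fun i j => by rw [hG]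
  have e00 := hGe 0 0
  have e01 := hGe 0 1
  have e10 := hGe 1 0
  have e11 := hGe 1 1
  have e22 := hGe 2 2
  have e23 := hGe 2 3
  have e32 := hGe 3 2
  have e33 := hGe 3 3
  have e02 := hGe 0 2
  have e03 := hGe 0 3
  simp [e4uM0, Matrix.mul_apply, Fin.sum_univ_four, hστ, hστ'] at e00 e01 e10 e11 e22 e23 e32 e33 e02 e03
  have h11 : G 1 1 = 0 := by
    have : (2 * τ + 1) * G 1 1 = 0 := by linear_combination e10 - e01
    exact (mul_eq_zero.mp this).resolve_left hτne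
  have h00 : G 0 0 = 0 := by rw [← e00, h11]
  have h10 : G 1 0 = 0 := by
    rw [h11, h00] at e11
    rw [h11] at e01
    have : (2 * τ + 1) * G 1 0 = 0 := by linear_combination -e11 - (1 + τ) * e01
    exact (mul_eq_zero.mp this).resolve_left hτne
  have h01 : G 0 1 = 0 := by
    rw [h11, h10] at e01
    linear_combination -e01
  have h33 : G 3 3 = 0 := by
    have : (2 * τ + 1) * G 3 3 = 0 := by linear_combination e23 - e32
    exact (mul_eq_zero.mp this).resolve_left hτne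
  have h22 : G 2 2 = 0 := by rw [← e22, h33]
  have h32 : G 3 2 = 0 := by
    rw [h33, h22] at e33
    rw [h33] at e23
    have : (2 * τ + 1) * G 3 2 = 0 := by linear_combination e33 - τ * e23
    exact (mul_eq_zero.mp this).resolve_left hτne
  have h23 : G 2 3 = 0 := by
    rw [h33, h32] at e23
    linear_combination -e23
  -- the inverse of G
  have hGH : G * G⁻¹ = 1 := Matrix.mul_nonsing_inv G (isUnit_iff_ne_zero.mpr hGdet)
  obtain ⟨H, hH⟩ : ∃ H : Matrix (Fin 4) (Fin 4) F, H = G⁻¹ := ⟨_, rfl⟩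
  rw [← hH] at hGH
  have i00 := congrFun (congrFun hGH 0) 0
  have i01 := congrFun (congrFun hGH 0) 1
  have i10 := congrFun (congrFun hGH 1) 0
  have i11 := congrFun (congrFun hGH 1) 1
  simp [Matrix.mul_apply, Fin.sum_univ_four, h00, h01, h10, h11] at i00 i01 i10 i11
  obtain ⟨Δ, hΔdef⟩ : ∃ Δ : F, Δ = G 0 2 * G 1 3 - G 0 3 * G 1 2 := ⟨_, rfl⟩
  have hΔ : Δ ≠ 0 := by
    intro h0
    have : Δ * (H 2 0 * H 3 1 - H 2 1 * H 3 0) = 1 := by
      rw [hΔdef]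
      linear_combination (G 1 2 * H 2 1 + G 1 3 * H 3 1) * i00 + i11
        - (G 1 2 * H 2 0 + G 1 3 * H 3 0) * i01
    rw [h0, zero_mul] at this
    exact zero_ne_one this
  -- the entries of K
  obtain ⟨a00, ha00⟩ : ∃ a : F, a = G 1 3 / Δ := ⟨_, rfl⟩
  obtain ⟨a10, ha10⟩ : ∃ a : F, a = -G 1 2 / Δ := ⟨_, rfl⟩
  have e03' : G 0 3 = -G 1 2 + G 0 2 * τ := by rw [← e03, e02]
  have hΔ' : Δ = G 0 2 * G 0 2 - (-G 1 2 + G 0 2 * τ) * G 1 2 := by rw [hΔdef, e03', e02]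
  rw [e02] at ha00
  have r1 : G 0 2 * a00 + G 0 3 * a10 = 1 := by
    rw [ha00, ha10, e03']; field_simp; rw [hΔ']; ring
  have r2 : G 1 2 * a00 + G 1 3 * a10 = 0 := by
    rw [ha00, ha10, e02]; field_simp; ring
  have r3 : G 0 2 * (-a10 - τ * a00) + G 0 3 * a00 = 0 := by
    rw [ha00, ha10, e03']; field_simp; ring
  have r4 : G 1 2 * (-a10 - τ * a00) + G 1 3 * a00 = 1 := by
    rw [ha00, ha10, e02]; field_simp; rw [hΔ']; ring
  obtain ⟨k00, hk00⟩ : ∃ k : F, k = σ a00 := ⟨_, rfl⟩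
  obtain ⟨k10, hk10⟩ : ∃ k : F, k = σ a10 := ⟨_, rfl⟩
  have hsk00 : σ k00 = a00 := by rw [hk00, hσσ]
  have hsk10 : σ k10 = a10 := by rw [hk10, hσσ]
  obtain ⟨Kb, hKb⟩ : ∃ Kb : Matrix (Fin 4) (Fin 4) F,
      Kb = !![1, 0, 0, 0; 0, 1, 0, 0; 0, 0, k00, -k10 + (1 + τ) * k00; 0, 0, k10, k00] := ⟨_, rfl⟩
  have hKσ : Kb.map σ = !![1, 0, 0, 0; 0, 1, 0, 0; 0, 0, a00, -a10 - τ * a00; 0, 0, a10, a00] := by
    rw [hKb]
    ext i j; fin_cases i <;> fin_cases j <;> simp [hsk00, hsk10, hστ]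
    ring
  have hcomm : e4uM0 τ * Kb = Kb * e4uD5 τ := by
    rw [hKb]
    ext i j; fin_cases i <;> fin_cases j <;>
      simp [e4uM0, e4uD5, Matrix.mul_apply, Fin.sum_univ_four] <;> ring
  refine ⟨B₀ * Kb, ?_, ?_⟩
  · rw [← Matrix.mul_assoc, hy, Matrix.mul_assoc, hcomm, Matrix.mul_assoc]
  · have hP : (B₀ * Kb)ᵀ * (B₀ * Kb).map σ = Kbᵀ * G * Kb.map σ := by
      rw [Matrix.transpose_mul, hmap, hGdef]; simp only [Matrix.mul_assoc]
    have hherm' := hherm (B₀ * Kb)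
    rw [hP] at hherm' ⊢
    rw [hKσ] at hherm' ⊢
    have hPe : ∀ i j, (Kbᵀ * G *
        !![1, 0, 0, 0; 0, 1, 0, 0; 0, 0, a00, -a10 - τ * a00; 0, 0, a10, a00]) i j =
        ∑ k, (∑ l, Kb l i * G l k) *
          (!![1, 0, 0, 0; 0, 1, 0, 0; 0, 0, a00, -a10 - τ * a00; 0, 0, a10, a00] :
            Matrix (Fin 4) (Fin 4) F) k j := by
      intro i j
      simp [Matrix.mul_apply]
    have p00 : (Kbᵀ * G *
        !![1, 0, 0, 0; 0, 1, 0, 0; 0, 0, a00, -a10 - τ * a00; 0, 0, a10, a00]) 0 0 = 0 := by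
      rw [hPe]; simp [hKb, Fin.sum_univ_four, h00, h01, h10, h11, h22, h23, h32, h33]
    have p01 : (Kbᵀ * G *
        !![1, 0, 0, 0; 0, 1, 0, 0; 0, 0, a00, -a10 - τ * a00; 0, 0, a10, a00]) 0 1 = 0 := by
      rw [hPe]; simp [hKb, Fin.sum_univ_four, h00, h01, h10, h11, h22, h23, h32, h33]
    have p10 : (Kbᵀ * G *
        !![1, 0, 0, 0; 0, 1, 0, 0; 0, 0, a00, -a10 - τ * a00; 0, 0, a10, a00]) 1 0 = 0 := by
      rw [hPe]; simp [hKb, Fin.sum_univ_four, h00, h01, h10, h11, h22, h23, h32, h33]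
    have p11 : (Kbᵀ * G *
        !![1, 0, 0, 0; 0, 1, 0, 0; 0, 0, a00, -a10 - τ * a00; 0, 0, a10, a00]) 1 1 = 0 := by
      rw [hPe]; simp [hKb, Fin.sum_univ_four, h00, h01, h10, h11, h22, h23, h32, h33]
    have p22 : (Kbᵀ * G *
        !![1, 0, 0, 0; 0, 1, 0, 0; 0, 0, a00, -a10 - τ * a00; 0, 0, a10, a00]) 2 2 = 0 := by
      rw [hPe]; simp [hKb, Fin.sum_univ_four, h00, h01, h10, h11, h22, h23, h32, h33]
    have p23 : (Kbᵀ * G *
        !![1, 0, 0, 0; 0, 1, 0, 0; 0, 0, a00, -a10 - τ * a00; 0, 0, a10, a00]) 2 3 = 0 := by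
      rw [hPe]; simp [hKb, Fin.sum_univ_four, h00, h01, h10, h11, h22, h23, h32, h33]
    have p32 : (Kbᵀ * G *
        !![1, 0, 0, 0; 0, 1, 0, 0; 0, 0, a00, -a10 - τ * a00; 0, 0, a10, a00]) 3 2 = 0 := by
      rw [hPe]; simp [hKb, Fin.sum_univ_four, h00, h01, h10, h11, h22, h23, h32, h33]
    have p33 : (Kbᵀ * G *
        !![1, 0, 0, 0; 0, 1, 0, 0; 0, 0, a00, -a10 - τ * a00; 0, 0, a10, a00]) 3 3 = 0 := by
      rw [hPe]; simp [hKb, Fin.sum_univ_four, h00, h01, h10, h11, h22, h23, h32, h33]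
    have p02 : (Kbᵀ * G *
        !![1, 0, 0, 0; 0, 1, 0, 0; 0, 0, a00, -a10 - τ * a00; 0, 0, a10, a00]) 0 2 = 1 := by
      rw [hPe]; simp [hKb, Fin.sum_univ_four, h00, h01, h10, h11, h22, h23, h32, h33]
      linear_combination r1
    have p03 : (Kbᵀ * G *
        !![1, 0, 0, 0; 0, 1, 0, 0; 0, 0, a00, -a10 - τ * a00; 0, 0, a10, a00]) 0 3 = 0 := by
      rw [hPe]; simp [hKb, Fin.sum_univ_four, h00, h01, h10, h11, h22, h23, h32, h33]
      linear_combination r3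
    have p12 : (Kbᵀ * G *
        !![1, 0, 0, 0; 0, 1, 0, 0; 0, 0, a00, -a10 - τ * a00; 0, 0, a10, a00]) 1 2 = 0 := by
      rw [hPe]; simp [hKb, Fin.sum_univ_four, h00, h01, h10, h11, h22, h23, h32, h33]
      linear_combination r2
    have p13 : (Kbᵀ * G *
        !![1, 0, 0, 0; 0, 1, 0, 0; 0, 0, a00, -a10 - τ * a00; 0, 0, a10, a00]) 1 3 = 1 := by
      rw [hPe]; simp [hKb, Fin.sum_univ_four, h00, h01, h10, h11, h22, h23, h32, h33]
      linear_combination r4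
    have p20 := hherm' 2 0
    have p21 := hherm' 2 1
    have p30 := hherm' 3 0
    have p31 := hherm' 3 1
    rw [p02] at p20
    rw [p12] at p21
    rw [p03] at p30
    rw [p13] at p31
    rw [map_one] at p20 p31
    rw [map_zero] at p21 p30
    ext i j
    fin_cases i <;> fin_cases j
    · exact p00.trans (by simp [e4uJ5])
    · exact p01.trans (by simp [e4uJ5])
    · exact p02.trans (by simp [e4uJ5])
    · exact p03.trans (by simp [e4uJ5])
    · exact p10.trans (by simp [e4uJ5])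
    · exact p11.trans (by simp [e4uJ5])
    · exact p12.trans (by simp [e4uJ5])
    · exact p13.trans (by simp [e4uJ5])
    · exact p20.symm.trans (by simp [e4uJ5])
    · exact p21.symm.trans (by simp [e4uJ5])
    · exact p22.trans (by simp [e4uJ5])
    · exact p23.trans (by simp [e4uJ5])
    · exact p30.symm.trans (by simp [e4uJ5])
    · exact p31.symm.trans (by simp [e4uJ5])
    · exact p32.trans (by simp [e4uJ5])
    · exact p33.trans (by simp [e4uJ5])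

end Cfsg.Agent.Helper93
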