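import Mathlib
import Cfsg.Prelude.Def_GeometricClasses
import Cfsg.Agent.Helper71.QMTen

/-!
CALL S5798, piece QA: three existence lemmas for a non-degenerate quadratic form.
-/

set_option autoImplicit false
set_option linter.unusedSectionVars false
set_option linter.unusedVariables false

namespace Cfsg.Agent.Helper93.S6QA

open Matrix Cfsg.Agent.Helper93 Cfsg.Agent.Helper94 Cfsg.Agent.Helper98 Cfsg.Geo

variable {ι : Type} [Fintype ι] [DecidableEq ι] {F : Type*} [Field F]
variable {Q Q' : (ι → F) → F}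

theorem q6_conn (hQ : IsNondegenerateQuadraticForm Q) (h2 : (2 : F) ≠ 0)
    (hn : 4 < Fintype.card ι) (u a : ι → F) (hu : Q u ≠ 0) (ha : Q a ≠ 0) :
    ∃ a', Q a' ≠ 0 ∧ polB hQ a' u ≠ 0 ∧ polB hQ a' a ≠ 0 := by
  by_cases hua : polB hQ u a = 0
  · obtain ⟨e, he, hez⟩ := qm_exists_aniso hQ ![u, a] (by omega)
    have heu : polB hQ e u = 0 := hez 0
    have hea : polB hQ e a = 0 := hez 1
    have hau : polB hQ a u = 0 := by rw [polB_comm]; exact hua
    have huu : polB hQ u u = 2 * Q u := polB_self hQ u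
    have haa : polB hQ a a = 2 * Q a := polB_self hQ a
    by_cases hs : Q u + Q a = 0
    · refine ⟨u + a + e, ?_, ?_, ?_⟩
      · rw [q_add hQ, q_add hQ, hua, map_add, LinearMap.add_apply, polB_comm hQ u e,
          polB_comm hQ a e, heu, hea, hs]
        simpa using he
      · rw [map_add, map_add, LinearMap.add_apply, LinearMap.add_apply, huu, hau, heu, add_zero,
          add_zero]
        exact mul_ne_zero h2 hu
      · rw [map_add, map_add, LinearMap.add_apply, LinearMap.add_apply, hua, haa, hea, zero_add,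
          add_zero]
        exact mul_ne_zero h2 ha
    · refine ⟨u + a, ?_, ?_, ?_⟩
      · rw [q_add hQ, hua, add_zero]; exact hs
      · rw [map_add, LinearMap.add_apply, huu, hau, add_zero]; exact mul_ne_zero h2 hu
      · rw [map_add, LinearMap.add_apply, hua, haa, zero_add]; exact mul_ne_zero h2 ha
  · exact ⟨a, ha, by rw [polB_comm]; exact hua, qm_two hQ h2 ha⟩

theorem q6_aniso_ne (hQ : IsNondegenerateQuadraticForm Q) (h2 : (2 : F) ≠ 0)
    (hn : 2 < Fintype.card ι) (u : ι → F) (hu : u ≠ 0) :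
    ∃ a, Q a ≠ 0 ∧ polB hQ a u ≠ 0 := by
  obtain ⟨x, hx⟩ := qm_nd hQ u hu
  by_cases hqx : Q x = 0
  · obtain ⟨e, he, hez⟩ := qm_exists_aniso hQ ![x] (by omega)
    have hex : polB hQ e x = 0 := hez 0
    have hxe : polB hQ x e = 0 := by rw [polB_comm]; exact hex
    by_cases h : polB hQ (x + e) u = 0
    · refine ⟨x - e, ?_, ?_⟩
      · rw [q_sub hQ, hqx, hxe, zero_add, sub_zero]; exact he
      · rw [map_add, LinearMap.add_apply] at h
        rw [map_sub, LinearMap.sub_apply]
        intro h'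
        apply hx
        have h3 : 2 * polB hQ x u = 0 := by linear_combination h + h'
        exact (mul_eq_zero.mp h3).resolve_left h2
    · refine ⟨x + e, ?_, h⟩
      rw [q_add hQ, hqx, hxe, zero_add, add_zero]; exact he
  · exact ⟨x, hqx, hx⟩

theorem q6_perp4 (hQ : IsNondegenerateQuadraticForm Q) (hn : 4 < Fintype.card ι)
    (z : Fin 4 → (ι → F)) : ∃ y, y ≠ 0 ∧ ∀ i, polB hQ y (z i) = 0 := by
  obtain ⟨L, hL⟩ : ∃ L : (ι → F) →ₗ[F] (Fin 4 → F), ∀ x i, L x i = polB hQ x (z i) :=
    ⟨LinearMap.pi (fun i => (polB hQ).flip (z i)), fun x i => by simp⟩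
  have hker : LinearMap.ker L ≠ ⊥ := by
    apply LinearMap.ker_ne_bot_of_finrank_lt
    rw [Module.finrank_fin_fun, Module.finrank_fintype_fun_eq_card]
    exact hn
  obtain ⟨y, hy, hy0⟩ := (Submodule.ne_bot_iff _).1 hker
  refine ⟨y, hy0, fun i => ?_⟩
  rw [← hL, LinearMap.mem_ker.1 hy, Pi.zero_apply]

end Cfsg.Agent.Helper93.S6QA
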