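import Mathlib
import Cfsg.Prelude.Def_GeometricClasses
import Cfsg.Agent.Helper71.QMTen

/-!
CALL S5798, piece QB: the relation `R` is closed in the second variable, starting from one pair
with anisotropic second vector.
-/

set_option autoImplicit false
set_option linter.unusedSectionVars false
set_option linter.unusedVariables false

namespace Cfsg.Agent.Helper93.S6QB

open Matrix Cfsg.Agent.Helper93 Cfsg.Agent.Helper94 Cfsg.Agent.Helper98 Cfsg.Geo

variable {ι : Type} [Fintype ι] [DecidableEq ι] {F : Type*} [Field F]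
variable {Q Q' : (ι → F) → F}

theorem q6_R_same {hQ : IsNondegenerateQuadraticForm Q} {M : Subgroup (GL ι F)}
    (hHM : quadSimilarityGroup Q ⊓ specialLinear ι F ≤ M) (h2 : (2 : F) ≠ 0)
    (hn : 4 < Fintype.card ι) {u w : ι → F} (h : qm_R hQ M u w) (hw : Q w ≠ 0)
    (w' : ι → F) (huw' : polB hQ u w' = 0) (hQw' : Q w' = Q w) : qm_R hQ M u w' := by
  have huw : polB hQ u w = 0 := h.1
  have hww : polB hQ w w = 2 * Q w := polB_self hQ w
  by_cases hq : Q (w - w') = 0
  · have hB : polB hQ w w' = 2 * Q w := by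
      rw [q_sub hQ, hQw'] at hq
      linear_combination -hq
    have e : Q (w + w') = 2 * Q w + 2 * Q w := by rw [q_add hQ, hQw', hB]; ring
    have ha : Q (w + w') ≠ 0 := by
      rw [e, ← two_mul]
      exact mul_ne_zero h2 (mul_ne_zero h2 hw)
    have h1 := qm_R_refl hHM hn h (w + w') ha
    have hcu : qm_cf hQ (w + w') u = 0 := by
      rw [qm_cf_apply, map_add, huw, huw', add_zero, mul_zero]
    have hcw : qm_cf hQ (w + w') w = 1 := by
      rw [qm_cf_apply, map_add, hww, hB, ← e]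
      exact inv_mul_cancel₀ ha
    rw [hcu, hcw, zero_smul, sub_zero, one_smul, sub_add_cancel_left] at h1
    have h3 := qm_R_neg_right h1
    rwa [neg_neg] at h3
  · have h1 := qm_R_refl hHM hn h (w - w') hq
    have hcu : qm_cf hQ (w - w') u = 0 := by
      rw [qm_cf_apply, map_sub, huw, huw', sub_zero, mul_zero]
    have hcw : qm_cf hQ (w - w') w = 1 := by
      rw [qm_cf_apply, map_sub, hww]
      have e : Q (w - w') = 2 * Q w - polB hQ w w' := by rw [q_sub hQ, hQw']; ring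
      rw [← e]
      exact inv_mul_cancel₀ hq
    rw [hcu, hcw, zero_smul, sub_zero, one_smul, sub_sub_cancel] at h1
    exact h1

theorem q6_R_full [Fintype F] {hQ : IsNondegenerateQuadraticForm Q} {M : Subgroup (GL ι F)}
    (hHM : quadSimilarityGroup Q ⊓ specialLinear ι F ≤ M) (hodd : Odd (Fintype.card F))
    (h2 : (2 : F) ≠ 0) (hn : 5 < Fintype.card ι) {u w : ι → F} (h : qm_R hQ M u w)
    (hw : Q w ≠ 0) (x : ι → F) (hx : polB hQ u x = 0) : qm_R hQ M u x := by
  obtain ⟨n₂, hn₂, hz₂⟩ := qm_exists_aniso hQ ![u, x] (by omega)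
  have h2u : polB hQ n₂ u = 0 := hz₂ 0
  have h2x : polB hQ n₂ x = 0 := hz₂ 1
  obtain ⟨n₃, hn₃, hz₃⟩ :=
    Cfsg.Agent.Helper71.QMTen.qm_exists_aniso_crit hQ ![u, x, n₂] (by omega) 2 hn₂
  have h3u : polB hQ n₃ u = 0 := hz₃ 0
  have h3x : polB hQ n₃ x = 0 := hz₃ 1
  have h32 : polB hQ n₃ n₂ = 0 := hz₃ 2
  obtain ⟨s, t, hst⟩ := qm_two_squares hodd (Q n₂) (Q n₃) (Q w - Q x / 4) hn₂ hn₃
  obtain ⟨y, hydef⟩ : ∃ y, y = s • n₂ + t • n₃ := ⟨_, rfl⟩
  have hQy : Q y = Q w - Q x / 4 := by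
    have e0 : polB hQ (s • n₂) (t • n₃) = 0 := by
      rw [map_smul, map_smul, LinearMap.smul_apply, polB_comm hQ n₂ n₃, h32]; simp
    rw [hydef, q_add hQ, q_smul hQ, q_smul hQ, e0]
    linear_combination hst
  have hyu : polB hQ u y = 0 := by
    rw [hydef, map_add, map_smul, map_smul, polB_comm hQ u n₂, polB_comm hQ u n₃, h2u, h3u]
    simp
  have hxy : polB hQ x y = 0 := by
    rw [hydef, map_add, map_smul, map_smul, polB_comm hQ x n₂, polB_comm hQ x n₃, h2x, h3x]
    simp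
  have e4 : (2⁻¹ : F) ^ 2 = 1 / 4 := by
    rw [inv_pow, one_div]; norm_num
  have hQ1 : Q ((2⁻¹ : F) • x + y) = Q w := by
    rw [q_add hQ, q_smul hQ, map_smul, LinearMap.smul_apply, hxy, hQy, e4]
    simp only [smul_eq_mul, mul_zero, add_zero]
    ring
  have hQ2 : Q ((2⁻¹ : F) • x - y) = Q w := by
    rw [q_sub hQ, q_smul hQ, map_smul, LinearMap.smul_apply, hxy, hQy, e4]
    simp only [smul_eq_mul, mul_zero, sub_zero]
    ring
  have hu1 : polB hQ u ((2⁻¹ : F) • x + y) = 0 := by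
    rw [map_add, map_smul, hx, hyu]; simp
  have hu2 : polB hQ u ((2⁻¹ : F) • x - y) = 0 := by
    rw [map_sub, map_smul, hx, hyu]; simp
  have hR1 := q6_R_same hHM h2 (by omega) h hw _ hu1 hQ1
  have hR2 := q6_R_same hHM h2 (by omega) h hw _ hu2 hQ2
  have hR := qm_R_add_right hR1 hR2
  have e : (2⁻¹ : F) • x + y + ((2⁻¹ : F) • x - y) = x := by
    have e1 : (2⁻¹ : F) • x + y + ((2⁻¹ : F) • x - y) = ((2⁻¹ : F) + 2⁻¹) • x := by module
    have e2 : (2⁻¹ : F) + 2⁻¹ = 1 := by rw [← two_mul, mul_inv_cancel₀ h2]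
    rw [e1, e2, one_smul]
  rwa [e] at hR

end Cfsg.Agent.Helper93.S6QB
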