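import Mathlib
import Cfsg.Prelude.Def_GeometricClasses
import Cfsg.Agent.Helper71.QMTen

/-!
CALL S5798, piece QC: one transvection with anisotropic second vector gives all of them.
-/

set_option autoImplicit false
set_option linter.unusedSectionVars false
set_option linter.unusedVariables false

namespace Cfsg.Agent.Helper93.S6QC

open Matrix Cfsg.Agent.Helper93 Cfsg.Agent.Helper94 Cfsg.Agent.Helper98 Cfsg.Geo

variable {ι : Type} [Fintype ι] [DecidableEq ι] {F : Type*} [Field F]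
variable {Q Q' : (ι → F) → F}

theorem q6_R_of_start {hQ : IsNondegenerateQuadraticForm Q} {M : Subgroup (GL ι F)}
    (hHM : quadSimilarityGroup Q ⊓ specialLinear ι F ≤ M) (h2 : (2 : F) ≠ 0)
    (hn : 4 < Fintype.card ι)
    (hfull : ∀ {u w : ι → F}, qm_R hQ M u w → Q w ≠ 0 →
      ∀ x, polB hQ u x = 0 → qm_R hQ M u x)
    (hconn : ∀ u a : ι → F, Q u ≠ 0 → Q a ≠ 0 →
      ∃ a', Q a' ≠ 0 ∧ polB hQ a' u ≠ 0 ∧ polB hQ a' a ≠ 0)
    (hane : ∀ u : ι → F, u ≠ 0 → ∃ a, Q a ≠ 0 ∧ polB hQ a u ≠ 0)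
    {u₀ w₀ : ι → F} (h : qm_R hQ M u₀ w₀) (hu₀ : u₀ ≠ 0) (hw₀ : Q w₀ ≠ 0)
    (u w : ι → F) (huw : polB hQ u w = 0) : qm_R hQ M u w := by
  have hfull0 : ∀ w, polB hQ u₀ w = 0 → qm_R hQ M u₀ w := hfull h hw₀
  have fullne : ∀ u₁ : ι → F, (∀ w, polB hQ u₁ w = 0 → qm_R hQ M u₁ w) → ∀ a : ι → F,
      Q a ≠ 0 → polB hQ a u₁ ≠ 0 → ∀ w, polB hQ a w = 0 → qm_R hQ M a w := by
    intro u₁ hf a ha hau w hw
    obtain ⟨w₁, hw₁, hz⟩ := qm_exists_aniso hQ ![u₁, a] (by omega)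
    have h1 : polB hQ w₁ u₁ = 0 := hz 0
    have h3 : polB hQ w₁ a = 0 := hz 1
    have h4 := hf w₁ (by rw [polB_comm]; exact h1)
    have h5 := qm_R_left_refl hHM hn h4 a ha (by rw [polB_comm]; exact h3)
    have hc : qm_cf hQ a u₁ ≠ 0 := by
      rw [qm_cf_apply]
      exact mul_ne_zero (inv_ne_zero ha) (by rw [polB_comm]; exact hau)
    exact hfull h5 (by rw [q_smul hQ]; exact mul_ne_zero (pow_ne_zero 2 hc) hw₁) w hw
  obtain ⟨a₀, ha₀, ha₀u⟩ := hane u₀ hu₀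
  have hfa₀ := fullne u₀ hfull0 a₀ ha₀ ha₀u
  have hall : ∀ a : ι → F, Q a ≠ 0 → ∀ w, polB hQ a w = 0 → qm_R hQ M a w := by
    intro a ha
    obtain ⟨a', ha', h1, h3⟩ := hconn a₀ a ha₀ ha
    have hfa' := fullne a₀ hfa₀ a' ha' h1
    exact fullne a' hfa' a ha (by rw [polB_comm]; exact h3)
  by_cases hu : Q u ≠ 0
  · exact hall u hu w huw
  · rw [not_not] at hu
    obtain ⟨e, he, hz⟩ := qm_exists_aniso hQ ![w] (by omega)
    have hew : polB hQ e w = 0 := hz 0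
    have hRe := hall e he w hew
    rcases qm_add_or_sub hQ h2 u e hu he with h' | h'
    · have h5 := hall (u + e) h' w (by rw [map_add, LinearMap.add_apply, huw, hew, add_zero])
      have h6 := qm_R_sub_left h5 hRe
      rwa [add_sub_cancel_right] at h6
    · have h5 := hall (u - e) h' w (by rw [map_sub, LinearMap.sub_apply, huw, hew, sub_zero])
      have h6 := qm_R_add_left h5 hRe
      rwa [sub_add_cancel] at h6

end Cfsg.Agent.Helper93.S6QC
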