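import Mathlib
import Cfsg.Agent.Helper71.SQMain
import Cfsg.Agent.Helper71.SGDefs

/-!
# CALL S5666 (helper71), piece CN4 (double by helper93): `quadric_nonscalar`.

A symmetric bilinear form vanishing on all singular vectors of a nondegenerate quadric of
dimension at least 4 (containing a nonzero singular vector) is a multiple of the quadric.
-/

set_option autoImplicit false
set_option linter.unusedVariables false

namespace Cfsg.Agent.Helper93.SGCN4

open Matrix Cfsg.Agent.Helper71.T4 Cfsg.Agent.Helper71.SO Cfsg.Agent.Helper71.SQ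
open Cfsg.Agent.Helper71.SG
open Cfsg.Agent.Helper11.SORT Cfsg.Agent.Helper11.SOTR
open scoped Kronecker

variable {F : Type*} [Field F] {m n : ℕ}

/-- Step A: on `⟨u, u'⟩^⊥`. -/
theorem cn4_A (h2 : (2 : F) ≠ 0) (S T : Matrix (Fin n) (Fin n) F) (hS : Sᵀ = S) (hT : Tᵀ = T)
    (hsing : ∀ s : Fin n → F, bl S s s = 0 → bl T s s = 0) (u u' w : Fin n → F)
    (huu : bl S u u = 0) (hu'u' : bl S u' u' = 0) (huu' : bl S u u' = 1)
    (hwu : bl S w u = 0) (hwu' : bl S w u' = 0) :
    bl T w w = bl T u u' * bl S w w ∧ 2 * bl T u' w = bl S w w * bl T u w := by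
  have h8 : (8 : F) ≠ 0 := by
    have : (8 : F) = 2 * 2 * 2 := by norm_num
    rw [this]
    exact mul_ne_zero (mul_ne_zero h2 h2) h2
  have hu'u : bl S u' u = 1 := by rw [bl_comm S hS, huu']
  have huw : bl S u w = 0 := by rw [bl_comm S hS, hwu]
  have hu'w : bl S u' w = 0 := by rw [bl_comm S hS, hwu']
  have tuu : bl T u u = 0 := hsing u huu
  have tu'u' : bl T u' u' = 0 := hsing u' hu'u'
  have tc1 : bl T u' u = bl T u u' := bl_comm T hT _ _
  have tc2 : bl T w u = bl T u w := bl_comm T hT _ _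
  have tc3 : bl T w u' = bl T u' w := bl_comm T hT _ _
  have hp : bl S ((2 : F) • u' + (2 : F) • w - bl S w w • u)
      ((2 : F) • u' + (2 : F) • w - bl S w w • u) = 0 := by
    simp only [bl_sub_left, bl_sub_right, bl_add_left, bl_add_right, bl_smul_left, bl_smul_right,
      huu, hu'u', huu', hu'u, hwu, hwu', huw, hu'w]
    ring
  have hm : bl S ((2 : F) • u' - (2 : F) • w - bl S w w • u)
      ((2 : F) • u' - (2 : F) • w - bl S w w • u) = 0 := by
    simp only [bl_sub_left, bl_sub_right, bl_smul_left, bl_smul_right,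
      huu, hu'u', huu', hu'u, hwu, hwu', huw, hu'w]
    ring
  have tp := hsing _ hp
  have tm := hsing _ hm
  simp only [bl_sub_left, bl_sub_right, bl_add_left, bl_add_right, bl_smul_left, bl_smul_right,
    tuu, tu'u', tc1, tc2, tc3] at tp tm
  constructor
  · apply mul_left_cancel₀ h8
    linear_combination tp + tm
  · apply mul_left_cancel₀ h8
    linear_combination tp - tm

/-- Step C: a non-singular vector in `⟨u, u', w⟩^⊥` (`n ≥ 4`). -/
theorem cn4_C (hn : 4 ≤ n) (h2 : (2 : F) ≠ 0) (S : Matrix (Fin n) (Fin n) F) (hS : Sᵀ = S)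
    (hdet : S.det ≠ 0) (u u' w : Fin n → F)
    (huu : bl S u u = 0) (hu'u' : bl S u' u' = 0) (huu' : bl S u u' = 1)
    (hwu : bl S w u = 0) (hwu' : bl S w u' = 0) (hq : bl S w w ≠ 0) :
    ∃ w₂ : Fin n → F, bl S w₂ u = 0 ∧ bl S w₂ u' = 0 ∧ bl S w₂ w = 0 ∧ bl S w₂ w₂ ≠ 0 := by
  by_contra hcon
  push Not at hcon
  have hu'u : bl S u' u = 1 := by rw [bl_comm S hS, huu']
  have huw : bl S u w = 0 := by rw [bl_comm S hS, hwu]
  have hu'w : bl S u' w = 0 := by rw [bl_comm S hS, hwu']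
  obtain ⟨P, hP⟩ : ∃ P : (Fin n → F) → (Fin n → F), ∀ x, P x
      = x - bl S x u' • u - bl S x u • u' - (bl S x w / bl S w w) • w := ⟨fun x => _, fun x => rfl⟩
  have hPu : ∀ x, bl S (P x) u = 0 := by
    intro x
    simp only [hP, bl_sub_left, bl_smul_left, huu, hu'u, hwu]
    ring
  have hPu' : ∀ x, bl S (P x) u' = 0 := by
    intro x
    simp only [hP, bl_sub_left, bl_smul_left, huu', hu'u', hwu']
    ring
  have hPw : ∀ x, bl S (P x) w = 0 := by
    intro x
    simp only [hP, bl_sub_left, bl_smul_left, huw, hu'w]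
    rw [div_mul_cancel₀ _ hq]
    ring
  have hPadd : ∀ x y, P (x + y) = P x + P y := by
    intro x y
    simp only [hP, bl_add_left, add_div, add_smul]
    abel
  have hPQ : ∀ x, bl S (P x) (P x) = 0 := fun x => hcon (P x) (hPu x) (hPu' x) (hPw x)
  have hPP : ∀ x y, bl S (P x) (P y) = 0 := by
    intro x y
    have h := hPQ (x + y)
    rw [hPadd, bl_add_left, bl_add_right, bl_add_right, hPQ x, hPQ y,
      bl_comm S hS (P y) (P x)] at h
    have h4 : (2 : F) * bl S (P x) (P y) = 0 := by linear_combination h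
    exact (mul_eq_zero.mp h4).resolve_left h2
  have hP0 : ∀ x, P x = 0 := by
    intro x
    by_contra hne
    obtain ⟨y, hy⟩ := exists_bl_ne S hdet (P x) hne
    apply hy
    have hy' : y = P y + (bl S y u' • u + bl S y u • u' + (bl S y w / bl S w w) • w) := by
      rw [hP y]
      abel
    have e : bl S (P x) y = bl S (P x) (P y) + (bl S y u' * bl S (P x) u
        + bl S y u * bl S (P x) u' + (bl S y w / bl S w w) * bl S (P x) w) := by
      conv_lhs => rw [hy']
      simp only [bl_add_right, bl_smul_right]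
    rw [e, hPP, hPu, hPu', hPw]
    ring
  have hspan : ∀ x : Fin n → F, x ∈ Submodule.span F (Set.range ![u, u', w]) := by
    intro x
    have hx : x = bl S x u' • u + bl S x u • u' + (bl S x w / bl S w w) • w := by
      have h0 := hP0 x
      rw [hP x] at h0
      have h1 : x = x - bl S x u' • u - bl S x u • u' - (bl S x w / bl S w w) • w
          + (bl S x u' • u + bl S x u • u' + (bl S x w / bl S w w) • w) := by abel
      rw [h0, zero_add] at h1
      exact h1
    rw [hx]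
    refine Submodule.add_mem _ (Submodule.add_mem _
      (Submodule.smul_mem _ _ (Submodule.subset_span ⟨0, rfl⟩))
      (Submodule.smul_mem _ _ (Submodule.subset_span ⟨1, rfl⟩)))
      (Submodule.smul_mem _ _ (Submodule.subset_span ⟨2, rfl⟩))
  have htop : Submodule.span F (Set.range ![u, u', w]) = ⊤ := by
    rw [eq_top_iff]
    intro x _
    exact hspan x
  have hfr := finrank_range_le_card (R := F) ![u, u', w]
  unfold Set.finrank at hfr
  rw [htop, finrank_top, Module.finrank_fintype_fun_eq_card, Fintype.card_fin,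
    Fintype.card_fin] at hfr
  omega

/-- Steps B, D: `β(u, ·)` vanishes on `⟨u, u'⟩^⊥`. -/
theorem cn4_D (hn : 4 ≤ n) (h2 : (2 : F) ≠ 0) (S T : Matrix (Fin n) (Fin n) F) (hS : Sᵀ = S)
    (hdet : S.det ≠ 0) (hT : Tᵀ = T)
    (hsing : ∀ s : Fin n → F, bl S s s = 0 → bl T s s = 0) (u u' w : Fin n → F)
    (huu : bl S u u = 0) (hu'u' : bl S u' u' = 0) (huu' : bl S u u' = 1)
    (hwu : bl S w u = 0) (hwu' : bl S w u' = 0) : bl T u w = 0 := by
  have hu'u : bl S u' u = 1 := by rw [bl_comm S hS, huu']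
  obtain ⟨-, hA1⟩ := cn4_A h2 S T hS hT hsing u u' w huu hu'u' huu' hwu hwu'
  obtain ⟨-, hA2⟩ := cn4_A h2 S T hS hT hsing u' u w hu'u' huu hu'u hwu' hwu
  by_cases hq : bl S w w = 0
  · rw [hq, zero_mul] at hA2
    exact (mul_eq_zero.mp hA2).resolve_left h2
  · obtain ⟨w₂, h2u, h2u', h2w, hq2⟩ :=
      cn4_C hn h2 S hS hdet u u' w huu hu'u' huu' hwu hwu' hq
    have hp := (cn4_A h2 S T hS hT hsing u u' (w + w₂) huu hu'u' huu'
      (by rw [bl_add_left, hwu, h2u, add_zero]) (by rw [bl_add_left, hwu', h2u', add_zero])).2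
    have hm := (cn4_A h2 S T hS hT hsing u u' (w - w₂) huu hu'u' huu'
      (by rw [bl_sub_left, hwu, h2u, sub_zero]) (by rw [bl_sub_left, hwu', h2u', sub_zero])).2
    have hww2 : bl S w w₂ = 0 := by rw [bl_comm S hS, h2w]
    simp only [bl_add_left, bl_add_right, bl_sub_left, bl_sub_right, h2w, hww2] at hp hm
    have h4 : (2 : F) * (bl S w₂ w₂ * bl T u w) = 0 := by
      linear_combination 2 * hA1 - hp - hm
    have h5 := (mul_eq_zero.mp h4).resolve_left h2
    exact (mul_eq_zero.mp h5).resolve_left hq2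

/-- Step E. -/
theorem cn4_E (S T : Matrix (Fin n) (Fin n) F) (hS : Sᵀ = S) (hT : Tᵀ = T)
    (u u' w : Fin n → F) (α α' : F)
    (huu : bl S u u = 0) (hu'u' : bl S u' u' = 0) (huu' : bl S u u' = 1)
    (hwu : bl S w u = 0) (hwu' : bl S w u' = 0)
    (tuu : bl T u u = 0) (tu'u' : bl T u' u' = 0)
    (hA : bl T w w = bl T u u' * bl S w w) (hD1 : bl T u w = 0) (hD2 : bl T u' w = 0) :
    bl T (w + α • u + α' • u') (w + α • u + α' • u')
      = bl T u u' * bl S (w + α • u + α' • u') (w + α • u + α' • u') := by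
  have hu'u : bl S u' u = 1 := by rw [bl_comm S hS, huu']
  have huw : bl S u w = 0 := by rw [bl_comm S hS, hwu]
  have hu'w : bl S u' w = 0 := by rw [bl_comm S hS, hwu']
  have tc1 : bl T u' u = bl T u u' := bl_comm T hT _ _
  have tc2 : bl T w u = 0 := by rw [bl_comm T hT, hD1]
  have tc3 : bl T w u' = 0 := by rw [bl_comm T hT, hD2]
  simp only [bl_add_left, bl_add_right, bl_smul_left, bl_smul_right, huu, hu'u', huu', hu'u, hwu,
    hwu', huw, hu'w, tuu, tu'u', tc1, tc2, tc3, hD1, hD2]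
  linear_combination hA

/-- The form `T` is a multiple of `S`. -/
theorem cn4_main (hn : 4 ≤ n) (h2 : (2 : F) ≠ 0) (S T : Matrix (Fin n) (Fin n) F)
    (hS : Sᵀ = S) (hdet : S.det ≠ 0) (hT : Tᵀ = T)
    (hsing : ∀ s : Fin n → F, bl S s s = 0 → bl T s s = 0)
    (u₀ : Fin n → F) (hu₀ : u₀ ≠ 0) (hu₀u₀ : bl S u₀ u₀ = 0) :
    ∃ c : F, T = c • S := by
  obtain ⟨u', hu'u', huu'⟩ := sing_partner h2 S hS hdet u₀ hu₀ hu₀u₀
  have hu'u : bl S u' u₀ = 1 := by rw [bl_comm S hS, huu']
  have tuu : bl T u₀ u₀ = 0 := hsing u₀ hu₀u₀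
  have tu'u' : bl T u' u' = 0 := hsing u' hu'u'
  have key : ∀ x, bl T x x = bl T u₀ u' * bl S x x := by
    intro x
    have hwu : bl S (x - bl S x u' • u₀ - bl S x u₀ • u') u₀ = 0 := by
      simp only [bl_sub_left, bl_smul_left, hu₀u₀, hu'u]
      ring
    have hwu' : bl S (x - bl S x u' • u₀ - bl S x u₀ • u') u' = 0 := by
      simp only [bl_sub_left, bl_smul_left, huu', hu'u']
      ring
    have hA := (cn4_A h2 S T hS hT hsing u₀ u' _ hu₀u₀ hu'u' huu' hwu hwu').1
    have hD1 := cn4_D hn h2 S T hS hdet hT hsing u₀ u' _ hu₀u₀ hu'u' huu' hwu hwu'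
    have hD2 := cn4_D hn h2 S T hS hdet hT hsing u' u₀ _ hu'u' hu₀u₀ hu'u hwu' hwu
    have hE := cn4_E S T hS hT u₀ u' _ (bl S x u') (bl S x u₀) hu₀u₀ hu'u' huu' hwu hwu' tuu tu'u'
      hA hD1 hD2
    have hx : x - bl S x u' • u₀ - bl S x u₀ • u' + bl S x u' • u₀ + bl S x u₀ • u' = x := by
      abel
    rw [hx] at hE
    exact hE
  refine ⟨bl T u₀ u', ?_⟩
  apply bl_ext
  intro x y
  have hxy := key (x + y)
  have hx := key x
  have hy := key y
  have hsm : bl (bl T u₀ u' • S) x y = bl T u₀ u' * bl S x y := by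
    unfold bl
    rw [Matrix.smul_mulVec, dotProduct_smul, smul_eq_mul]
  rw [hsm]
  simp only [bl_add_left, bl_add_right] at hxy
  rw [bl_comm T hT y x, bl_comm S hS y x] at hxy
  have h4 : (2 : F) * (bl T x y - bl T u₀ u' * bl S x y) = 0 := by
    linear_combination hxy - hx - hy
  exact sub_eq_zero.mp ((mul_eq_zero.mp h4).resolve_left h2)

/-! ## Piece CN4 -/
theorem quadric_nonscalar (hn : 4 ≤ n) (h2 : (2 : F) ≠ 0)
    (S : Matrix (Fin n) (Fin n) F) (hS : Sᵀ = S) (hdet : S.det ≠ 0)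
    (u₀ : Fin n → F) (hu₀ : u₀ ≠ 0) (hu₀u₀ : bl S u₀ u₀ = 0)
    (D : Matrix (Fin n) (Fin n) F) (hsym : (S * D)ᵀ = S * D)
    (hns : ∀ c : F, D ≠ c • (1 : Matrix (Fin n) (Fin n) F)) :
    ∃ u : Fin n → F, u ≠ 0 ∧ bl S u u = 0 ∧ bl S u (D *ᵥ u) ≠ 0 := by
  by_contra hcon
  push Not at hcon
  have hT : ∀ x y, bl S x (D *ᵥ y) = bl (S * D) x y := by
    intro x y
    unfold bl
    rw [Matrix.mulVec_mulVec]
  have hsing : ∀ s : Fin n → F, bl S s s = 0 → bl (S * D) s s = 0 := by
    intro s hs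
    by_cases h0 : s = 0
    · subst h0
      exact bl_zero_left _ _
    · rw [← hT]
      exact hcon s h0 hs
  obtain ⟨c, hc⟩ := cn4_main hn h2 S (S * D) hS hdet hsym hsing u₀ hu₀ hu₀u₀
  apply hns c
  have hSu : IsUnit S.det := isUnit_iff_ne_zero.mpr hdet
  have h1 : S⁻¹ * (S * D) = S⁻¹ * (c • S) := by rw [hc]
  rw [Matrix.nonsing_inv_mul_cancel_left _ _ hSu, Matrix.mul_smul, Matrix.nonsing_inv_mul _ hSu]
    at h1
  exact h1

end Cfsg.Agent.Helper93.SGCN4
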