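import Mathlib

set_option autoImplicit false

namespace Cfsg.Agent.Helper93

open Subgroup

universe u

variable {G : Type u} [Group G] [Finite G]

/-- AR2 (pure arithmetic). The conjugates of `Zhat` cover more than half of `G`. -/
theorem bgp_half_arith {g k ks nT : ℕ} (hk : 3 ≤ k) (hks : 3 ≤ ks) (hok : Odd k) (hoks : Odd ks)
    (hne : k ≠ ks) (hg : 0 < g) (hT : k * ks * nT = (k * ks - k - ks + 1) * g) : g < 2 * nT := by
  obtain ⟨a, rfl⟩ : ∃ a, k = a + 3 := ⟨k - 3, by omega⟩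
  obtain ⟨b, rfl⟩ : ∃ b, ks = b + 3 := ⟨ks - 3, by omega⟩
  have e : (a + 3) * (b + 3) - (a + 3) - (b + 3) + 1 = (a + 2) * (b + 2) := by
    have e1 : (a + 3) * (b + 3) = (a + 2) * (b + 2) + a + b + 5 := by ring
    rw [e1]
    have hP : 1 ≤ (a + 2) * (b + 2) := Nat.mul_pos (by omega) (by omega)
    generalize (a + 2) * (b + 2) = P at hP ⊢
    clear hT e1
    omega
  rw [e] at hT
  by_contra hlt
  push Not at hlt
  have h2 : (a + 3) * (b + 3) * (2 * nT) ≤ (a + 3) * (b + 3) * g := Nat.mul_le_mul_left _ hlt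
  have h3 : 2 * ((a + 2) * (b + 2)) * g ≤ (a + 3) * (b + 3) * g := by
    calc 2 * ((a + 2) * (b + 2)) * g = 2 * ((a + 2) * (b + 2) * g) := by ring
      _ = 2 * ((a + 3) * (b + 3) * nT) := by rw [hT]
      _ = (a + 3) * (b + 3) * (2 * nT) := by ring
      _ ≤ _ := h2
  have h4 : 2 * ((a + 2) * (b + 2)) ≤ (a + 3) * (b + 3) := Nat.le_of_mul_le_mul_right h3 hg
  have h5 : a * b + a + b ≤ 1 := by nlinarith
  have ha : Even a := by
    rcases hok with ⟨m, hm⟩
    exact ⟨m - 1, by omega⟩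
  have hb : Even b := by
    rcases hoks with ⟨m, hm⟩
    exact ⟨m - 1, by omega⟩
  rcases ha with ⟨m, rfl⟩
  rcases hb with ⟨n, rfl⟩
  have hmn : m ≠ n := fun h => hne (by rw [h])
  have h6 : 0 ≤ (m + m) * (n + n) := Nat.zero_le _
  omega

end Cfsg.Agent.Helper93
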