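import Mathlib

set_option autoImplicit false

namespace Cfsg.Agent.Helper93

open Subgroup

universe u

variable {G : Type u} [Group G] [Finite G]

/-- ZC (pure). Cyclic Sylow subgroups and central commutator subgroup: cyclic. -/
theorem bgp_cyclic_of_central (Ks : Subgroup G)
    (hS : ∀ (p : ℕ) [Fact p.Prime] (P : Sylow p Ks), IsCyclic P)
    (hc : ∀ y ∈ Ks, ∀ a ∈ ⁅Ks, Ks⁆, y * a = a * y) : IsCyclic Ks := by
  have hZ : IsZGroup ↥Ks := ⟨fun p hp P => @hS p ⟨hp⟩ P⟩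
  have hmap : Subgroup.map Ks.subtype ⁅(⊤ : Subgroup ↥Ks), (⊤ : Subgroup ↥Ks)⁆ = ⁅Ks, Ks⁆ := by
    rw [Subgroup.map_commutator, ← MonoidHom.range_eq_map, Subgroup.range_subtype]
  have hnil : Group.IsNilpotent ↥Ks := by
    rw [Subgroup.nilpotent_iff_lowerCentralSeries]
    refine ⟨2, ?_⟩
    have h2 : Subgroup.lowerCentralSeries (⊤ : Subgroup ↥Ks) 2 =
        ⁅⁅(⊤ : Subgroup ↥Ks), (⊤ : Subgroup ↥Ks)⁆, (⊤ : Subgroup ↥Ks)⁆ := rfl
    rw [h2, Subgroup.commutator_eq_bot_iff_le_centralizer]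
    intro a ha
    rw [Subgroup.mem_centralizer_iff]
    intro y _
    have ha' : (a : G) ∈ ⁅Ks, Ks⁆ := by
      rw [← hmap]
      exact Subgroup.mem_map_of_mem _ ha
    exact Subtype.ext (hc y y.2 a ha')
  infer_instance

end Cfsg.Agent.Helper93
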