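/-
Helper93: transfer of the structure of an involution centraliser `C_G(z)` (its `2`-core `Q`,
extraspeciality, complements, largeness) along an isomorphism `C_G(z) ≃* C_{G'}(z')`.
-/
import Mathlib
import Cfsg.Prelude.Def_MonsterType
import Cfsg.Agent.Helper93.LargeExtra

set_option autoImplicit false

namespace Cfsg.Agent.Helper93

open Cfsg

section Pull

variable {G : Type*} {G' : Type*} [Group G] [Group G'] {C : Subgroup G} {C' : Subgroup G'}

/-- Pull back a subgroup of `G'` along an isomorphism `C ≃* C'` of subgroups. -/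
def pullSub (φ : ↥C ≃* ↥C') (E' : Subgroup G') : Subgroup G :=
  ((E'.subgroupOf C').comap φ.toMonoidHom).map C.subtype

theorem mem_pullSub (φ : ↥C ≃* ↥C') (E' : Subgroup G') (x : G) :
    x ∈ pullSub φ E' ↔ ∃ hx : x ∈ C, ((φ ⟨x, hx⟩ : ↥C') : G') ∈ E' := by
  constructor
  · rintro ⟨y, hy, rfl⟩
    exact ⟨y.2, Subgroup.mem_subgroupOf.mp (Subgroup.mem_comap.mp hy)⟩
  · rintro ⟨hx, h⟩
    exact ⟨⟨x, hx⟩, Subgroup.mem_comap.mpr (Subgroup.mem_subgroupOf.mpr h), rfl⟩

theorem pullSub_le (φ : ↥C ≃* ↥C') (E' : Subgroup G') : pullSub φ E' ≤ C := by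
  intro x hx
  obtain ⟨hx', _⟩ := (mem_pullSub φ E' x).mp hx
  exact hx'

theorem pullSub_mono (φ : ↥C ≃* ↥C') {E' F' : Subgroup G'} (h : E' ≤ F') :
    pullSub φ E' ≤ pullSub φ F' := by
  intro x hx
  rw [mem_pullSub] at hx ⊢
  obtain ⟨hx', h1⟩ := hx
  exact ⟨hx', h h1⟩

theorem pullSub_inf (φ : ↥C ≃* ↥C') (E' F' : Subgroup G') :
    pullSub φ (E' ⊓ F') = pullSub φ E' ⊓ pullSub φ F' := by
  ext x
  rw [Subgroup.mem_inf, mem_pullSub, mem_pullSub, mem_pullSub]
  constructor
  · rintro ⟨hx, h1, h2⟩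
    exact ⟨⟨hx, h1⟩, ⟨hx, h2⟩⟩
  · rintro ⟨⟨hx, h1⟩, ⟨_, h2⟩⟩
    exact ⟨hx, h1, h2⟩

theorem pullSub_bot (φ : ↥C ≃* ↥C') : pullSub φ (⊥ : Subgroup G') = ⊥ := by
  ext x
  rw [mem_pullSub, Subgroup.mem_bot]
  constructor
  · rintro ⟨hx, h⟩
    rw [Subgroup.mem_bot] at h
    have h1 : φ ⟨x, hx⟩ = 1 := Subtype.ext h
    have h2 : (⟨x, hx⟩ : ↥C) = 1 := φ.map_eq_one_iff.mp h1
    exact congrArg Subtype.val h2
  · rintro rfl
    refine ⟨C.one_mem, ?_⟩
    rw [Subgroup.mem_bot]
    have h1 : (⟨1, C.one_mem⟩ : ↥C) = 1 := rfl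
    rw [h1, map_one]
    rfl

theorem pullSub_self (φ : ↥C ≃* ↥C') : pullSub φ C' = C := by
  apply le_antisymm (pullSub_le φ C')
  intro x hx
  rw [mem_pullSub]
  exact ⟨hx, (φ ⟨x, hx⟩).2⟩

theorem pullSub_sup (φ : ↥C ≃* ↥C') {E' F' : Subgroup G'} (hE : E' ≤ C') (hF : F' ≤ C') :
    pullSub φ (E' ⊔ F') = pullSub φ E' ⊔ pullSub φ F' := by
  unfold pullSub
  rw [Subgroup.subgroupOf_sup hE hF, ← Subgroup.map_sup]
  congr 1
  exact (Subgroup.comap_sup_eq φ.toMonoidHom _ _ φ.surjective).symm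

theorem mem_O2in_iff (H : Subgroup G) (x : G) :
    x ∈ O2in H ↔ ∃ hx : x ∈ H, (⟨x, hx⟩ : ↥H) ∈ pCore 2 ↥H := by
  constructor
  · rintro ⟨y, hy, rfl⟩
    exact ⟨y.2, hy⟩
  · rintro ⟨hx, h⟩
    exact ⟨⟨x, hx⟩, h, rfl⟩

theorem mem_pCore_equiv (p : ℕ) {A B : Type*} [Group A] [Group B] (e : A ≃* B) (a : A) :
    e a ∈ pCore p B ↔ a ∈ pCore p A := by
  rw [← pCore_map_equiv p e]
  constructor
  · rintro ⟨b, hb, h⟩
    have : b = a := e.injective h
    rw [← this]
    exact hb
  · intro h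
    exact ⟨a, h, rfl⟩

theorem pullSub_O2in (φ : ↥C ≃* ↥C') : pullSub φ (O2in C') = O2in C := by
  ext x
  rw [mem_pullSub, mem_O2in_iff]
  constructor
  · rintro ⟨hx, h⟩
    rw [mem_O2in_iff] at h
    obtain ⟨_, h⟩ := h
    exact ⟨hx, (mem_pCore_equiv 2 φ _).mp h⟩
  · rintro ⟨hx, h⟩
    refine ⟨hx, ?_⟩
    rw [mem_O2in_iff]
    exact ⟨(φ ⟨x, hx⟩).2, (mem_pCore_equiv 2 φ _).mpr h⟩

/-- The pulled back subgroup is isomorphic to the original one. -/
def pullEquiv (φ : ↥C ≃* ↥C') {E' : Subgroup G'} (hE : E' ≤ C') : ↥(pullSub φ E') ≃* ↥E' where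
  toFun x := ⟨((φ ⟨x.1, pullSub_le φ E' x.2⟩ : ↥C') : G'), by
    obtain ⟨_, h⟩ := (mem_pullSub φ E' x.1).mp x.2
    exact h⟩
  invFun y := ⟨((φ.symm ⟨y.1, hE y.2⟩ : ↥C) : G), by
    rw [mem_pullSub]
    refine ⟨(φ.symm ⟨y.1, hE y.2⟩).2, ?_⟩
    rw [Subtype.coe_eta, φ.apply_symm_apply]
    exact y.2⟩
  left_inv x := by
    apply Subtype.ext
    show ((φ.symm ⟨((φ ⟨x.1, pullSub_le φ E' x.2⟩ : ↥C') : G'), _⟩ : ↥C) : G) = x.1
    rw [Subtype.coe_eta, φ.symm_apply_apply]
  right_inv y := by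
    apply Subtype.ext
    show ((φ ⟨((φ.symm ⟨y.1, hE y.2⟩ : ↥C) : G), _⟩ : ↥C') : G') = y.1
    rw [Subtype.coe_eta, φ.apply_symm_apply]
  map_mul' x y := by
    apply Subtype.ext
    have h : (⟨x.1 * y.1, pullSub_le φ E' (x * y).2⟩ : ↥C)
        = ⟨x.1, pullSub_le φ E' x.2⟩ * ⟨y.1, pullSub_le φ E' y.2⟩ := rfl
    show ((φ ⟨x.1 * y.1, pullSub_le φ E' (x * y).2⟩ : ↥C') : G')
      = ((φ ⟨x.1, pullSub_le φ E' x.2⟩ : ↥C') : G') * ((φ ⟨y.1, pullSub_le φ E' y.2⟩ : ↥C') : G')
    rw [h, map_mul]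
    rfl

end Pull

/-- Transfer of extraspeciality along a group isomorphism. -/
theorem extraspecial_equiv {H K : Type*} [Group H] [Group K] {p : ℕ} (e : H ≃* K)
    (h : Cfsg.IsExtraspecial p H) : Cfsg.IsExtraspecial p K := by
  obtain ⟨⟨hp, hf, hc⟩, hz⟩ := h
  have hfr : frattini K = (frattini H).map e.toMonoidHom := (e.mapSubgroup.map_radical).symm
  have hce : Subgroup.center K = (Subgroup.center H).map e.toMonoidHom := by
    ext x
    constructor
    · intro hx
      refine ⟨e.symm x, ?_, by simp⟩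
      show e.symm x ∈ Subgroup.center H
      rw [Subgroup.mem_center_iff]
      intro g
      apply e.injective
      rw [map_mul, map_mul, e.apply_symm_apply]
      exact Subgroup.mem_center_iff.mp hx (e g)
    · rintro ⟨y, hy, rfl⟩
      have hy' : y ∈ Subgroup.center H := hy
      rw [Subgroup.mem_center_iff]
      intro k
      have h1 := Subgroup.mem_center_iff.mp hy' (e.symm k)
      have h2 := congrArg e h1
      rw [map_mul, map_mul, e.apply_symm_apply] at h2
      exact h2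
  have hco : commutator K = (commutator H).map e.toMonoidHom := by
    rw [commutator_def, commutator_def, Subgroup.map_commutator,
      Subgroup.map_top_of_surjective e.toMonoidHom e.surjective]
  refine ⟨⟨hp.of_equiv e, ?_, ?_⟩, ?_⟩
  · rw [hfr, hce, hf]
  · rw [hco, hce, hc]
  · rw [hce, Subgroup.card_map_of_injective e.injective]; exact hz

/-- Transfer of elementary abelianness of a subgroup along an isomorphism onto another
subgroup. -/
theorem elemAb_equiv {P : Type*} {P' : Type*} [Group P] [Group P'] {p : ℕ} {A : Subgroup P}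
    {A' : Subgroup P'} (e : ↥A ≃* ↥A') (h : Cfsg.IsElementaryAbelian p A') :
    Cfsg.IsElementaryAbelian p A := by
  obtain ⟨hc, hp⟩ := h
  refine ⟨⟨⟨fun a b => ?_⟩⟩, fun a ha => ?_⟩
  · apply e.injective
    rw [map_mul, map_mul]
    exact mul_comm' _ _
  · have h1 := hp (e ⟨a, ha⟩ : P') (e ⟨a, ha⟩).2
    have h2 : e (⟨a, ha⟩ ^ p) = 1 := by
      rw [map_pow]
      apply Subtype.ext
      rw [Subgroup.coe_pow]
      exact h1
    have h3 : (⟨a, ha⟩ : ↥A) ^ p = 1 := e.map_eq_one_iff.mp h2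
    have h4 := congrArg Subtype.val h3
    rwa [Subgroup.coe_pow] at h4

/-- An involution lies in the `2`-core of its centraliser. -/
theorem self_mem_O2in {G : Type*} [Group G] (z : G) (hz : orderOf z = 2) :
    z ∈ O2in (Subgroup.centralizer ({z} : Set G)) := by
  have hle : Subgroup.zpowers z ≤ O2in (Subgroup.centralizer ({z} : Set G)) := by
    apply le_O2in
    · rw [Subgroup.zpowers_le]
      exact Subgroup.mem_centralizer_singleton_iff.mpr rfl
    · intro h hh n hn
      have hh' := Subgroup.mem_centralizer_singleton_iff.mp hh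
      obtain ⟨k, rfl⟩ := Subgroup.mem_zpowers_iff.mp hn
      have h1 : h * z ^ k * h⁻¹ = z ^ k := by
        have h2 : Commute h z := hh'
        have h3 : Commute h (z ^ k) := h2.zpow_right k
        rw [h3.eq, mul_inv_cancel_right]
      rw [h1]
      exact hn
    · apply IsPGroup.of_card (n := 1)
      rw [Nat.card_zpowers, hz, pow_one]
  exact hle (Subgroup.mem_zpowers z)

/-- The transfer theorem: the structure of `C_G(z)` around its `2`-core `Q` is determined by the
isomorphism type of `C_G(z)`, except for the absence of odd order subgroups normalised by `Q`. -/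
theorem transfer_main {G : Type*} {G' : Type*} [Group G] [Group G'] (z : G) (hz : orderOf z = 2)
    (z' : G')
    (φ : ↥(Subgroup.centralizer ({z} : Set G)) ≃* ↥(Subgroup.centralizer ({z'} : Set G')))
    (n m : ℕ) {L : Type*} [Group L]
    (h' : Cfsg.IsExtraspecial 2 ↥(O2in (Subgroup.centralizer ({z'} : Set G'))) ∧
      Nat.card ↥(O2in (Subgroup.centralizer ({z'} : Set G'))) = n ∧
      (∃ E' : Subgroup G', E' ≤ O2in (Subgroup.centralizer ({z'} : Set G')) ∧
        Cfsg.IsElementaryAbelian 2 E' ∧ Nat.card ↥E' = m) ∧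
      Cfsg.IsLargeExtraspecial (O2in (Subgroup.centralizer ({z'} : Set G'))) ∧
      ∃ K' : Subgroup G', K' ≤ Subgroup.centralizer ({z'} : Set G') ∧
        O2in (Subgroup.centralizer ({z'} : Set G')) ⊓ K' = ⊥ ∧
        O2in (Subgroup.centralizer ({z'} : Set G')) ⊔ K' = Subgroup.centralizer ({z'} : Set G') ∧
        Nonempty (↥K' ≃* L))
    (hodd : ∀ K : Subgroup G, Odd (Nat.card K) →
      O2in (Subgroup.centralizer ({z} : Set G)) ≤ Subgroup.normalizer (K : Set G) → K = ⊥) :
    Cfsg.IsExtraspecial 2 ↥(O2in (Subgroup.centralizer ({z} : Set G))) ∧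
      Nat.card ↥(O2in (Subgroup.centralizer ({z} : Set G))) = n ∧
      (∃ E : Subgroup G, E ≤ O2in (Subgroup.centralizer ({z} : Set G)) ∧
        Cfsg.IsElementaryAbelian 2 E ∧ Nat.card ↥E = m) ∧
      Cfsg.IsLargeExtraspecial (O2in (Subgroup.centralizer ({z} : Set G))) ∧
      ∃ K : Subgroup G, K ≤ Subgroup.centralizer ({z} : Set G) ∧
        O2in (Subgroup.centralizer ({z} : Set G)) ⊓ K = ⊥ ∧
        O2in (Subgroup.centralizer ({z} : Set G)) ⊔ K = Subgroup.centralizer ({z} : Set G) ∧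
        Nonempty (↥K ≃* L) := by
  obtain ⟨hES', hcard', ⟨E', hE'Q, hE'ab, hE'card⟩, hL', K', hK'C, hK'inf, hK'sup, ⟨κ⟩⟩ := h'
  have hQ'C : O2in (Subgroup.centralizer ({z'} : Set G')) ≤ Subgroup.centralizer ({z'} : Set G') :=
    O2in_le _
  have hQC : O2in (Subgroup.centralizer ({z} : Set G)) ≤ Subgroup.centralizer ({z} : Set G) :=
    O2in_le _
  have hpQ := pullSub_O2in φ
  -- the isomorphism of the cores
  have eQ : ↥(O2in (Subgroup.centralizer ({z} : Set G))) ≃*
      ↥(O2in (Subgroup.centralizer ({z'} : Set G'))) :=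
    (MulEquiv.subgroupCongr hpQ.symm).trans (pullEquiv φ hQ'C)
  have hES : Cfsg.IsExtraspecial 2 ↥(O2in (Subgroup.centralizer ({z} : Set G))) :=
    extraspecial_equiv eQ.symm hES'
  have hzQ := self_mem_O2in z hz
  refine ⟨hES, ?_, ?_, ?_, ?_⟩
  · rw [Nat.card_congr eQ.toEquiv, hcard']
  · refine ⟨pullSub φ E', ?_, ?_, ?_⟩
    · rw [← hpQ]
      exact pullSub_mono φ hE'Q
    · exact elemAb_equiv (pullEquiv φ (hE'Q.trans hQ'C)) hE'ab
    · rw [Nat.card_congr (pullEquiv φ (hE'Q.trans hQ'C)).toEquiv, hE'card]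
  · refine ⟨hES, ?_, ?_, hodd⟩
    · -- the centraliser of `Q` is the centre of `Q`
      ext x
      constructor
      · intro hx
        have hxz : x ∈ Subgroup.centralizer ({z} : Set G) := by
          rw [Subgroup.mem_centralizer_singleton_iff]
          exact (Subgroup.mem_centralizer_iff.mp hx z hzQ).symm
        have hxQ : x ∈ O2in (Subgroup.centralizer ({z} : Set G)) := by
          rw [← hpQ, mem_pullSub]
          refine ⟨hxz, ?_⟩
          have h1 : ((φ ⟨x, hxz⟩ : ↥(Subgroup.centralizer ({z'} : Set G'))) : G') ∈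
              Subgroup.centralizer
                ((O2in (Subgroup.centralizer ({z'} : Set G')) : Subgroup G') : Set G') := by
            rw [Subgroup.mem_centralizer_iff]
            intro q' hq'
            have hq'C : q' ∈ Subgroup.centralizer ({z'} : Set G') := hQ'C hq'
            have hq : ((φ.symm ⟨q', hq'C⟩ : ↥(Subgroup.centralizer ({z} : Set G))) : G) ∈
                O2in (Subgroup.centralizer ({z} : Set G)) := by
              rw [← hpQ, mem_pullSub]
              refine ⟨(φ.symm ⟨q', hq'C⟩).2, ?_⟩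
              rw [Subtype.coe_eta, φ.apply_symm_apply]
              exact hq'
            have h2 := Subgroup.mem_centralizer_iff.mp hx _ hq
            have h3 : φ.symm ⟨q', hq'C⟩ * ⟨x, hxz⟩ = ⟨x, hxz⟩ * φ.symm ⟨q', hq'C⟩ :=
              Subtype.ext h2
            have h4 := congrArg φ h3
            rw [map_mul, map_mul, φ.apply_symm_apply] at h4
            exact congrArg Subtype.val h4
          rw [hL'.2.1] at h1
          obtain ⟨y, _, hy⟩ := h1
          rw [← hy]
          exact y.2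
        refine ⟨⟨x, hxQ⟩, ?_, rfl⟩
        show (⟨x, hxQ⟩ : ↥(O2in (Subgroup.centralizer ({z} : Set G)))) ∈ Subgroup.center _
        rw [Subgroup.mem_center_iff]
        intro g
        apply Subtype.ext
        exact Subgroup.mem_centralizer_iff.mp hx g.1 g.2
      · rintro ⟨y, hy, rfl⟩
        have hy' : y ∈ Subgroup.center ↥(O2in (Subgroup.centralizer ({z} : Set G))) := hy
        rw [Subgroup.mem_centralizer_iff]
        intro q hq
        have h1 := Subgroup.mem_center_iff.mp hy' ⟨q, hq⟩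
        exact congrArg Subtype.val h1
    · -- the centraliser of the centre normalises `Q`
      intro x hx
      have hzc : z ∈ (((Subgroup.center ↥(O2in (Subgroup.centralizer ({z} : Set G)))).map
          (O2in (Subgroup.centralizer ({z} : Set G))).subtype : Subgroup G) : Set G) := by
        refine ⟨⟨z, hzQ⟩, ?_, rfl⟩
        show (⟨z, hzQ⟩ : ↥(O2in (Subgroup.centralizer ({z} : Set G)))) ∈ Subgroup.center _
        rw [Subgroup.mem_center_iff]
        intro g
        apply Subtype.ext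
        exact Subgroup.mem_centralizer_singleton_iff.mp (hQC g.2)
      have hxz : x ∈ Subgroup.centralizer ({z} : Set G) := by
        rw [Subgroup.mem_centralizer_singleton_iff]
        exact (Subgroup.mem_centralizer_iff.mp hx z hzc).symm
      rw [Subgroup.mem_normalizer_iff]
      intro q
      constructor
      · intro hq
        exact O2in_conj_mem _ hxz hq
      · intro hq
        have h1 := O2in_conj_mem _ (inv_mem hxz) hq
        have h2 : x⁻¹ * (x * q * x⁻¹) * x⁻¹⁻¹ = q := by group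
        rw [h2] at h1
        exact h1
  · refine ⟨pullSub φ K', pullSub_le φ K', ?_, ?_, ⟨(pullEquiv φ hK'C).trans κ⟩⟩
    · rw [← hpQ, ← pullSub_inf, hK'inf, pullSub_bot]
    · rw [← hpQ, ← pullSub_sup φ hQ'C hK'C, hK'sup, pullSub_self]

end Cfsg.Agent.Helper93
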