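/-
helper93: piece T1 of CALL S1082 (helper17): a non-zero singular vector of `Q8` is moved by `G8 F`
to a multiple of the first basis vector.
-/
import Cfsg.Agent.Helper17.D4Defs

set_option autoImplicit false
open Matrix Cfsg Cfsg.Lie

namespace Cfsg.Agent.Helper93

open Cfsg.Agent.Helper17.D4

variable {F : Type*} [Field F]

/-- Core step: a singular vector with non-zero first coordinate. -/
theorem d4_sing1_core (u : Fin 8 → F) (h0 : u 0 ≠ 0) (hQ : Q8 u = 0) :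
    ∃ x ∈ G8 F, (x : Matrix (Fin 8) (Fin 8) F) *ᵥ u = ![u 0, 0, 0, 0, 0, 0, 0, 0] := by
  have key : u 0 * u 4 + u 1 * u 5 + u 2 * u 6 + u 3 * u 7 = 0 := hQ
  refine ⟨xg 3 (-(u 7) / u 0) * xg 1 (-(u 6) / u 0) * xg 0 (-(u 5) / u 0) * xg 2 (-(u 3) / u 0)
      * xg 4 (u 2 / u 0) * xg 5 (-(u 1) / u 0), ?_, ?_⟩
  · exact Subgroup.mul_mem _ (Subgroup.mul_mem _ (Subgroup.mul_mem _ (Subgroup.mul_mem _
      (Subgroup.mul_mem _ (xg_mem_G8 _ _) (xg_mem_G8 _ _)) (xg_mem_G8 _ _)) (xg_mem_G8 _ _))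
      (xg_mem_G8 _ _)) (xg_mem_G8 _ _)
  · simp only [Units.val_mul, xg_val, ← Matrix.mulVec_mulVec]
    rw [xm_mulVec_5, xm_mulVec_4, xm_mulVec_2, xm_mulVec_0, xm_mulVec_1, xm_mulVec_3]
    funext i
    fin_cases i
    · simp
    · simp; field_simp; ring
    · simp; field_simp; ring
    · simp; field_simp; ring
    · simp; field_simp; linear_combination key
    · simp; field_simp; ring
    · simp; field_simp; ring
    · simp; field_simp; ring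

/-- Making the first coordinate non-zero. -/
theorem d4_sing1_first (u : Fin 8 → F) (hu : u ≠ 0) :
    ∃ y ∈ G8 F, ((y : Matrix (Fin 8) (Fin 8) F) *ᵥ u) 0 ≠ 0 := by
  by_cases h0 : u 0 = 0
  swap
  · exact ⟨1, Subgroup.one_mem _, by rw [Units.val_one, Matrix.one_mulVec]; exact h0⟩
  by_cases h1 : u 1 = 0
  swap
  · refine ⟨xg 18 1, xg_mem_G8 _ _, ?_⟩
    rw [xg_val, xm_mulVec_18]
    simpa [h0] using h1
  by_cases h2 : u 2 = 0
  swap
  · refine ⟨xg 19 1, xg_mem_G8 _ _, ?_⟩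
    rw [xg_val, xm_mulVec_19]
    simpa [h0] using h2
  by_cases h3 : u 3 = 0
  swap
  · refine ⟨xg 21 1, xg_mem_G8 _ _, ?_⟩
    rw [xg_val, xm_mulVec_21]
    simpa [h0] using h3
  by_cases h5 : u 5 = 0
  swap
  · refine ⟨xg 23 1, xg_mem_G8 _ _, ?_⟩
    rw [xg_val, xm_mulVec_23]
    simpa [h0] using h5
  by_cases h6 : u 6 = 0
  swap
  · refine ⟨xg 22 1, xg_mem_G8 _ _, ?_⟩
    rw [xg_val, xm_mulVec_22]
    simpa [h0] using h6
  by_cases h7 : u 7 = 0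
  swap
  · refine ⟨xg 20 1, xg_mem_G8 _ _, ?_⟩
    rw [xg_val, xm_mulVec_20]
    simpa [h0] using h7
  have h4 : u 4 ≠ 0 := by
    intro h4
    apply hu
    funext i
    fin_cases i <;> simp [h0, h1, h2, h3, h4, h5, h6, h7]
  refine ⟨xg 18 1 * xg 23 1, Subgroup.mul_mem _ (xg_mem_G8 _ _) (xg_mem_G8 _ _), ?_⟩
  rw [Units.val_mul, ← Matrix.mulVec_mulVec, xg_val, xg_val, xm_mulVec_23, xm_mulVec_18]
  simpa [h0, h1, h5] using h4

/-- Piece T1 of CALL S1082. -/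
theorem d4_sing1 (u : Fin 8 → F) (hu : u ≠ 0) (hQ : Q8 u = 0) :
    ∃ x ∈ G8 F, ∃ c : F, c ≠ 0 ∧ (x : Matrix (Fin 8) (Fin 8) F) *ᵥ u = ![c, 0, 0, 0, 0, 0, 0, 0] := by
  obtain ⟨y, hy, hy0⟩ := d4_sing1_first u hu
  have hQ' : Q8 ((y : Matrix (Fin 8) (Fin 8) F) *ᵥ u) = 0 := by
    rw [G8_le_O8 hy u]
    exact hQ
  obtain ⟨x, hx, hxu⟩ := d4_sing1_core _ hy0 hQ'
  refine ⟨x * y, Subgroup.mul_mem _ hx hy, _, hy0, ?_⟩
  rw [Units.val_mul, ← Matrix.mulVec_mulVec]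
  exact hxu

end Cfsg.Agent.Helper93
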