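/-
helper93: piece T2 of CALL S1082 (helper17): a non-zero singular vector of `Q8` with zero coordinates 0 and 4
is moved to a multiple of the second basis vector by an element of `G8 F` fixing `e1` and `f1`.
-/
import Cfsg.Agent.Helper17.D4Defs

set_option autoImplicit false
open Matrix Cfsg Cfsg.Lie

namespace Cfsg.Agent.Helper93

open Cfsg.Agent.Helper17.D4

variable {F : Type*} [Field F]

/-- Core step: second coordinate non-zero. -/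
theorem d4_sing2_core (u : Fin 8 → F) (h1 : u 1 ≠ 0) (hQ : Q8 u = 0) (h0 : u 0 = 0) (h4 : u 4 = 0) :
    ∃ x ∈ G8 F, (x : Matrix (Fin 8) (Fin 8) F) *ᵥ ![1, 0, 0, 0, 0, 0, 0, 0] = ![1, 0, 0, 0, 0, 0, 0, 0] ∧
      (x : Matrix (Fin 8) (Fin 8) F) *ᵥ ![0, 0, 0, 0, 1, 0, 0, 0] = ![0, 0, 0, 0, 1, 0, 0, 0] ∧
      (x : Matrix (Fin 8) (Fin 8) F) *ᵥ u = ![0, u 1, 0, 0, 0, 0, 0, 0] := by
  have key : u 0 * u 4 + u 1 * u 5 + u 2 * u 6 + u 3 * u 7 = 0 := hQ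
  rw [h0, zero_mul, zero_add] at key
  refine ⟨xg 8 (u 7 / u 1) * xg 6 (u 6 / u 1) * xg 7 (u 3 / u 1) * xg 9 (-(u 2) / u 1), ?_, ?_, ?_, ?_⟩
  · exact Subgroup.mul_mem _ (Subgroup.mul_mem _ (Subgroup.mul_mem _ (xg_mem_G8 _ _) (xg_mem_G8 _ _))
      (xg_mem_G8 _ _)) (xg_mem_G8 _ _)
  · simp only [Units.val_mul, xg_val, ← Matrix.mulVec_mulVec]
    rw [xm_mulVec_9, xm_mulVec_7, xm_mulVec_6, xm_mulVec_8]
    funext i
    fin_cases i <;> simp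
  · simp only [Units.val_mul, xg_val, ← Matrix.mulVec_mulVec]
    rw [xm_mulVec_9, xm_mulVec_7, xm_mulVec_6, xm_mulVec_8]
    funext i
    fin_cases i <;> simp
  · simp only [Units.val_mul, xg_val, ← Matrix.mulVec_mulVec]
    rw [xm_mulVec_9, xm_mulVec_7, xm_mulVec_6, xm_mulVec_8]
    funext i
    fin_cases i
    · simpa using h0
    · simp
    · simp; field_simp; ring
    · simp; field_simp; ring
    · simpa using h4
    · simp; field_simp; linear_combination key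
    · simp; field_simp; ring
    · simp; field_simp; ring

/-- Making the second coordinate non-zero. -/
theorem d4_sing2_first (u : Fin 8 → F) (hu : u ≠ 0) (h0 : u 0 = 0) (h4 : u 4 = 0) :
    ∃ y ∈ G8 F, (y : Matrix (Fin 8) (Fin 8) F) *ᵥ ![1, 0, 0, 0, 0, 0, 0, 0] = ![1, 0, 0, 0, 0, 0, 0, 0] ∧
      (y : Matrix (Fin 8) (Fin 8) F) *ᵥ ![0, 0, 0, 0, 1, 0, 0, 0] = ![0, 0, 0, 0, 1, 0, 0, 0] ∧
      ((y : Matrix (Fin 8) (Fin 8) F) *ᵥ u) 0 = 0 ∧ ((y : Matrix (Fin 8) (Fin 8) F) *ᵥ u) 4 = 0 ∧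
      ((y : Matrix (Fin 8) (Fin 8) F) *ᵥ u) 1 ≠ 0 := by
  by_cases h1 : u 1 = 0
  swap
  · refine ⟨1, Subgroup.one_mem _, ?_, ?_, ?_, ?_, ?_⟩ <;> rw [Units.val_one, Matrix.one_mulVec]
    · exact h0
    · exact h4
    · exact h1
  by_cases h2 : u 2 = 0
  swap
  · refine ⟨xg 14 1, xg_mem_G8 _ _, ?_, ?_, ?_, ?_, ?_⟩ <;> rw [xg_val, xm_mulVec_14]
    · funext i; fin_cases i <;> simp
    · funext i; fin_cases i <;> simp
    · simpa using h0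
    · simpa using h4
    · simpa [h1] using h2
  by_cases h3 : u 3 = 0
  swap
  · refine ⟨xg 16 1, xg_mem_G8 _ _, ?_, ?_, ?_, ?_, ?_⟩ <;> rw [xg_val, xm_mulVec_16]
    · funext i; fin_cases i <;> simp
    · funext i; fin_cases i <;> simp
    · simpa using h0
    · simpa using h4
    · simpa [h1] using h3
  by_cases h6 : u 6 = 0
  swap
  · refine ⟨xg 17 1, xg_mem_G8 _ _, ?_, ?_, ?_, ?_, ?_⟩ <;> rw [xg_val, xm_mulVec_17]
    · funext i; fin_cases i <;> simp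
    · funext i; fin_cases i <;> simp
    · simpa using h0
    · simpa using h4
    · simpa [h1] using h6
  by_cases h7 : u 7 = 0
  swap
  · refine ⟨xg 15 1, xg_mem_G8 _ _, ?_, ?_, ?_, ?_, ?_⟩ <;> rw [xg_val, xm_mulVec_15]
    · funext i; fin_cases i <;> simp
    · funext i; fin_cases i <;> simp
    · simpa using h0
    · simpa using h4
    · simpa [h1] using h7
  have h5 : u 5 ≠ 0 := by
    intro h5
    apply hu
    funext i
    fin_cases i <;> simp [h0, h1, h2, h3, h4, h5, h6, h7]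
  refine ⟨xg 14 1 * xg 17 1, Subgroup.mul_mem _ (xg_mem_G8 _ _) (xg_mem_G8 _ _), ?_, ?_, ?_, ?_, ?_⟩ <;>
    rw [Units.val_mul, ← Matrix.mulVec_mulVec, xg_val, xg_val, xm_mulVec_17, xm_mulVec_14]
  · funext i; fin_cases i <;> simp
  · funext i; fin_cases i <;> simp
  · simpa using h0
  · simpa using h4
  · simpa [h1, h2, h6] using h5

/-- Piece T2 of CALL S1082. -/
theorem d4_sing2 (u : Fin 8 → F) (hu : u ≠ 0) (hQ : Q8 u = 0) (h0 : u 0 = 0) (h4 : u 4 = 0) :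
    ∃ x ∈ G8 F, (x : Matrix (Fin 8) (Fin 8) F) *ᵥ ![1, 0, 0, 0, 0, 0, 0, 0] = ![1, 0, 0, 0, 0, 0, 0, 0] ∧
      (x : Matrix (Fin 8) (Fin 8) F) *ᵥ ![0, 0, 0, 0, 1, 0, 0, 0] = ![0, 0, 0, 0, 1, 0, 0, 0] ∧
      ∃ c : F, c ≠ 0 ∧ (x : Matrix (Fin 8) (Fin 8) F) *ᵥ u = ![0, c, 0, 0, 0, 0, 0, 0] := by
  obtain ⟨y, hy, hye, hyf, hy0, hy4, hy1⟩ := d4_sing2_first u hu h0 h4
  have hQ' : Q8 ((y : Matrix (Fin 8) (Fin 8) F) *ᵥ u) = 0 := by
    rw [G8_le_O8 hy u]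
    exact hQ
  obtain ⟨x, hx, hxe, hxf, hxu⟩ := d4_sing2_core _ hy1 hQ' hy0 hy4
  refine ⟨x * y, Subgroup.mul_mem _ hx hy, ?_, ?_, _, hy1, ?_⟩
  · rw [Units.val_mul, ← Matrix.mulVec_mulVec, hye, hxe]
  · rw [Units.val_mul, ← Matrix.mulVec_mulVec, hyf, hxf]
  · rw [Units.val_mul, ← Matrix.mulVec_mulVec]
    exact hxu

end Cfsg.Agent.Helper93
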