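/-
helper93: piece T3 of CALL S1082 (helper17): a non-zero singular vector of `Q8` with zero coordinates 0, 4, 1, 5
is moved to a multiple of the third basis vector by an element of `G8 F` fixing `e1`, `f1`, `e2`, `f2`.
-/
import Cfsg.Agent.Helper17.D4Defs

set_option autoImplicit false
open Matrix Cfsg Cfsg.Lie

namespace Cfsg.Agent.Helper93

open Cfsg.Agent.Helper17.D4

variable {F : Type*} [Field F]

/-- Core step: third coordinate non-zero. -/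
theorem d4_sing3_core (u : Fin 8 → F) (h2 : u 2 ≠ 0) (hQ : Q8 u = 0) (h0 : u 0 = 0) (h4 : u 4 = 0)
    (h1 : u 1 = 0) (h5 : u 5 = 0) :
    ∃ x ∈ G8 F, (x : Matrix (Fin 8) (Fin 8) F) *ᵥ ![1, 0, 0, 0, 0, 0, 0, 0] = ![1, 0, 0, 0, 0, 0, 0, 0] ∧
      (x : Matrix (Fin 8) (Fin 8) F) *ᵥ ![0, 0, 0, 0, 1, 0, 0, 0] = ![0, 0, 0, 0, 1, 0, 0, 0] ∧
      (x : Matrix (Fin 8) (Fin 8) F) *ᵥ ![0, 1, 0, 0, 0, 0, 0, 0] = ![0, 1, 0, 0, 0, 0, 0, 0] ∧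
      (x : Matrix (Fin 8) (Fin 8) F) *ᵥ ![0, 0, 0, 0, 0, 1, 0, 0] = ![0, 0, 0, 0, 0, 1, 0, 0] ∧
      (x : Matrix (Fin 8) (Fin 8) F) *ᵥ u = ![0, 0, u 2, 0, 0, 0, 0, 0] := by
  have key : u 0 * u 4 + u 1 * u 5 + u 2 * u 6 + u 3 * u 7 = 0 := hQ
  rw [h0, h1, zero_mul, zero_mul, zero_add, zero_add] at key
  refine ⟨xg 11 (-(u 7) / u 2) * xg 10 (-(u 3) / u 2), ?_, ?_, ?_, ?_, ?_, ?_⟩
  · exact Subgroup.mul_mem _ (xg_mem_G8 _ _) (xg_mem_G8 _ _)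
  · simp only [Units.val_mul, xg_val, ← Matrix.mulVec_mulVec]
    rw [xm_mulVec_10, xm_mulVec_11]
    funext i
    fin_cases i <;> simp
  · simp only [Units.val_mul, xg_val, ← Matrix.mulVec_mulVec]
    rw [xm_mulVec_10, xm_mulVec_11]
    funext i
    fin_cases i <;> simp
  · simp only [Units.val_mul, xg_val, ← Matrix.mulVec_mulVec]
    rw [xm_mulVec_10, xm_mulVec_11]
    funext i
    fin_cases i <;> simp
  · simp only [Units.val_mul, xg_val, ← Matrix.mulVec_mulVec]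
    rw [xm_mulVec_10, xm_mulVec_11]
    funext i
    fin_cases i <;> simp
  · simp only [Units.val_mul, xg_val, ← Matrix.mulVec_mulVec]
    rw [xm_mulVec_10, xm_mulVec_11]
    funext i
    fin_cases i
    · simpa using h0
    · simpa using h1
    · simp
    · simp; field_simp; ring
    · simpa using h4
    · simpa using h5
    · simp; field_simp; linear_combination key
    · simp; field_simp; ring

/-- Making the third coordinate non-zero. -/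
theorem d4_sing3_first (u : Fin 8 → F) (hu : u ≠ 0) (h0 : u 0 = 0) (h4 : u 4 = 0)
    (h1 : u 1 = 0) (h5 : u 5 = 0) :
    ∃ y ∈ G8 F, (y : Matrix (Fin 8) (Fin 8) F) *ᵥ ![1, 0, 0, 0, 0, 0, 0, 0] = ![1, 0, 0, 0, 0, 0, 0, 0] ∧
      (y : Matrix (Fin 8) (Fin 8) F) *ᵥ ![0, 0, 0, 0, 1, 0, 0, 0] = ![0, 0, 0, 0, 1, 0, 0, 0] ∧
      (y : Matrix (Fin 8) (Fin 8) F) *ᵥ ![0, 1, 0, 0, 0, 0, 0, 0] = ![0, 1, 0, 0, 0, 0, 0, 0] ∧
      (y : Matrix (Fin 8) (Fin 8) F) *ᵥ ![0, 0, 0, 0, 0, 1, 0, 0] = ![0, 0, 0, 0, 0, 1, 0, 0] ∧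
      ((y : Matrix (Fin 8) (Fin 8) F) *ᵥ u) 0 = 0 ∧ ((y : Matrix (Fin 8) (Fin 8) F) *ᵥ u) 4 = 0 ∧
      ((y : Matrix (Fin 8) (Fin 8) F) *ᵥ u) 1 = 0 ∧ ((y : Matrix (Fin 8) (Fin 8) F) *ᵥ u) 5 = 0 ∧
      ((y : Matrix (Fin 8) (Fin 8) F) *ᵥ u) 2 ≠ 0 := by
  by_cases h2 : u 2 = 0
  swap
  · refine ⟨1, Subgroup.one_mem _, ?_, ?_, ?_, ?_, ?_, ?_, ?_, ?_, ?_⟩ <;>
      rw [Units.val_one, Matrix.one_mulVec]
    · exact h0
    · exact h4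
    · exact h1
    · exact h5
    · exact h2
  by_cases h3 : u 3 = 0
  swap
  · refine ⟨xg 13 1, xg_mem_G8 _ _, ?_, ?_, ?_, ?_, ?_, ?_, ?_, ?_, ?_⟩ <;> rw [xg_val, xm_mulVec_13]
    · funext i; fin_cases i <;> simp
    · funext i; fin_cases i <;> simp
    · funext i; fin_cases i <;> simp
    · funext i; fin_cases i <;> simp
    · simpa using h0
    · simpa using h4
    · simpa using h1
    · simpa using h5
    · simpa [h2] using h3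
  by_cases h7 : u 7 = 0
  swap
  · refine ⟨xg 12 1, xg_mem_G8 _ _, ?_, ?_, ?_, ?_, ?_, ?_, ?_, ?_, ?_⟩ <;> rw [xg_val, xm_mulVec_12]
    · funext i; fin_cases i <;> simp
    · funext i; fin_cases i <;> simp
    · funext i; fin_cases i <;> simp
    · funext i; fin_cases i <;> simp
    · simpa using h0
    · simpa using h4
    · simpa using h1
    · simpa using h5
    · simpa [h2] using h7
  have h6 : u 6 ≠ 0 := by
    intro h6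
    apply hu
    funext i
    fin_cases i <;> simp [h0, h1, h2, h3, h4, h5, h6, h7]
  refine ⟨xg 13 1 * xg 12 1, Subgroup.mul_mem _ (xg_mem_G8 _ _) (xg_mem_G8 _ _),
      ?_, ?_, ?_, ?_, ?_, ?_, ?_, ?_, ?_⟩ <;>
    rw [Units.val_mul, ← Matrix.mulVec_mulVec, xg_val, xg_val, xm_mulVec_12, xm_mulVec_13]
  · funext i; fin_cases i <;> simp
  · funext i; fin_cases i <;> simp
  · funext i; fin_cases i <;> simp
  · funext i; fin_cases i <;> simp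
  · simpa using h0
  · simpa using h4
  · simpa using h1
  · simpa using h5
  · simpa [h2, h3, h7] using h6

/-- Piece T3 of CALL S1082. -/
theorem d4_sing3 (u : Fin 8 → F) (hu : u ≠ 0) (hQ : Q8 u = 0) (h0 : u 0 = 0) (h4 : u 4 = 0)
    (h1 : u 1 = 0) (h5 : u 5 = 0) :
    ∃ x ∈ G8 F, (x : Matrix (Fin 8) (Fin 8) F) *ᵥ ![1, 0, 0, 0, 0, 0, 0, 0] = ![1, 0, 0, 0, 0, 0, 0, 0] ∧
      (x : Matrix (Fin 8) (Fin 8) F) *ᵥ ![0, 0, 0, 0, 1, 0, 0, 0] = ![0, 0, 0, 0, 1, 0, 0, 0] ∧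
      (x : Matrix (Fin 8) (Fin 8) F) *ᵥ ![0, 1, 0, 0, 0, 0, 0, 0] = ![0, 1, 0, 0, 0, 0, 0, 0] ∧
      (x : Matrix (Fin 8) (Fin 8) F) *ᵥ ![0, 0, 0, 0, 0, 1, 0, 0] = ![0, 0, 0, 0, 0, 1, 0, 0] ∧
      ∃ c : F, c ≠ 0 ∧ (x : Matrix (Fin 8) (Fin 8) F) *ᵥ u = ![0, 0, c, 0, 0, 0, 0, 0] := by
  obtain ⟨y, hy, hye, hyf, hye2, hyf2, hy0, hy4, hy1, hy5, hy2⟩ := d4_sing3_first u hu h0 h4 h1 h5
  have hQ' : Q8 ((y : Matrix (Fin 8) (Fin 8) F) *ᵥ u) = 0 := by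
    rw [G8_le_O8 hy u]
    exact hQ
  obtain ⟨x, hx, hxe, hxf, hxe2, hxf2, hxu⟩ := d4_sing3_core _ hy2 hQ' hy0 hy4 hy1 hy5
  refine ⟨x * y, Subgroup.mul_mem _ hx hy, ?_, ?_, ?_, ?_, _, hy2, ?_⟩
  · rw [Units.val_mul, ← Matrix.mulVec_mulVec, hye, hxe]
  · rw [Units.val_mul, ← Matrix.mulVec_mulVec, hyf, hxf]
  · rw [Units.val_mul, ← Matrix.mulVec_mulVec, hye2, hxe2]
  · rw [Units.val_mul, ← Matrix.mulVec_mulVec, hyf2, hxf2]
  · rw [Units.val_mul, ← Matrix.mulVec_mulVec]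
    exact hxu

end Cfsg.Agent.Helper93
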