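/-
helper93: piece DUAL of CALL S3795 (helper63), part 1: the module of additive functions `P → K` vanishing on a
subgroup `N` containing the commutators, the action of the automorphisms stabilizing `N`, and separation of
the points of `P / N` when it is an elementary abelian `q`-group and `K` has characteristic `q`.
-/
import Mathlib
import Cfsg.Agent.Helper63.AddCharRep

set_option autoImplicit false

namespace Cfsg.Agent.Helper93.Gross2Dual

universe u

section Api

variable {P : Type u} [Group P] (N : Subgroup P) (K : Type) [Field K]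

/-- The additive functions `P → K` vanishing on `N`. -/
def addN : Submodule K (P → K) where
  carrier := {f | (∀ a b : P, f (a * b) = f a + f b) ∧ ∀ z ∈ N, f z = 0}
  add_mem' := by
    rintro f g ⟨hf, hf0⟩ ⟨hg, hg0⟩
    refine ⟨fun a b => ?_, fun z hz => ?_⟩
    · simp only [Pi.add_apply]
      rw [hf a b, hg a b]
      ring
    · simp only [Pi.add_apply]
      rw [hf0 z hz, hg0 z hz]
      ring
  zero_mem' := ⟨fun a b => by simp, fun z hz => rfl⟩
  smul_mem' := by
    rintro c f ⟨hf, hf0⟩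
    refine ⟨fun a b => ?_, fun z hz => ?_⟩
    · simp only [Pi.smul_apply, smul_eq_mul]
      rw [hf a b]
      ring
    · simp only [Pi.smul_apply, smul_eq_mul]
      rw [hf0 z hz]
      ring

variable {N K}

theorem addN_mul (f : ↥(addN N K)) (a b : P) : f.1 (a * b) = f.1 a + f.1 b := f.2.1 a b

theorem addN_mem (f : ↥(addN N K)) {z : P} (hz : z ∈ N) : f.1 z = 0 := f.2.2 z hz

theorem addN_one (f : ↥(addN N K)) : f.1 1 = 0 := by
  have h := addN_mul f 1 1
  rw [mul_one] at h
  exact left_eq_add.mp h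

theorem addN_inv (f : ↥(addN N K)) (a : P) : f.1 a⁻¹ = - f.1 a := by
  have h := addN_mul f a a⁻¹
  rw [mul_inv_cancel, addN_one] at h
  exact eq_neg_of_add_eq_zero_right h.symm

theorem addN_congr (f : ↥(addN N K)) {a b : P} (h : a * b⁻¹ ∈ N) : f.1 a = f.1 b := by
  have h1 := addN_mem f h
  rw [addN_mul, addN_inv] at h1
  linear_combination h1

variable (N)

/-- The automorphisms of `P` stabilizing `N`. -/
def stabN : Subgroup (MulAut P) where
  carrier := {β | ∀ g, β g ∈ N ↔ g ∈ N}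
  mul_mem' := by
    intro β γ hβ hγ g
    rw [MulAut.mul_apply, hβ, hγ]
  one_mem' := fun g => by rw [MulAut.one_apply]
  inv_mem' := by
    intro β hβ g
    rw [← hβ (β⁻¹ g), MulAut.apply_inv_self]

theorem mem_stabN (β : MulAut P) : β ∈ stabN N ↔ ∀ g, β g ∈ N ↔ g ∈ N := Iff.rfl

variable (K)

/-- The action of `stabN N` on the additive functions: `(β f) g = f (β⁻¹ g)`. -/
def opN : ↥(stabN N) →* Module.End K ↥(addN N K) where
  toFun β :=
    { toFun := fun f => ⟨fun g => f.1 ((β : MulAut P)⁻¹ g), by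
        refine ⟨fun a b => ?_, fun z hz => ?_⟩
        · show f.1 ((β : MulAut P)⁻¹ (a * b)) = _
          rw [map_mul, addN_mul]
        · exact addN_mem f (((stabN N).inv_mem β.2 z).mpr hz)⟩
      map_add' := fun f g => rfl
      map_smul' := fun c f => rfl }
  map_one' := by
    apply LinearMap.ext
    intro f
    apply Subtype.ext
    funext g
    show f.1 (((1 : ↥(stabN N)) : MulAut P)⁻¹ g) = f.1 g
    simp
  map_mul' := by
    intro β γ
    apply LinearMap.ext
    intro f
    apply Subtype.ext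
    funext g
    show f.1 (((β * γ : ↥(stabN N)) : MulAut P)⁻¹ g) = f.1 ((γ : MulAut P)⁻¹ ((β : MulAut P)⁻¹ g))
    rw [Subgroup.coe_mul, mul_inv_rev, MulAut.mul_apply]

theorem opN_apply (β : ↥(stabN N)) (f : ↥(addN N K)) (g : P) :
    (opN N K β f).1 g = f.1 ((β : MulAut P)⁻¹ g) := rfl

variable {N K}

/-- An automorphism acting trivially modulo `N` acts trivially on the additive functions. -/
theorem opN_eq_one (β : ↥(stabN N)) (h : ∀ g, (β : MulAut P) g * g⁻¹ ∈ N) : opN N K β = 1 := by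
  apply LinearMap.ext
  intro f
  apply Subtype.ext
  funext g
  show f.1 ((β : MulAut P)⁻¹ g) = f.1 g
  have h1 := h ((β : MulAut P)⁻¹ g)
  rw [MulAut.apply_inv_self] at h1
  exact (addN_congr f h1).symm

/-- Additive functions vanishing on `N` separate the points of `P / N`. -/
theorem exists_addN_ne_zero [Finite P] {q : ℕ} [Fact q.Prime] [CharP K q]
    (hcomm : ∀ g h : P, g * h * g⁻¹ * h⁻¹ ∈ N) (hpow : ∀ g : P, g ^ q ∈ N) (x : P) (hx : x ∉ N) :
    ∃ f : ↥(addN N K), f.1 x ≠ 0 := by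
  have hnorm : N.Normal := ⟨fun n hn g => by
    have h1 := N.mul_mem (hcomm g n) hn
    have e : g * n * g⁻¹ * n⁻¹ * n = g * n * g⁻¹ := by group
    rwa [e] at h1⟩
  have hc : ∀ a b : ↥(⊤ : Subgroup (P ⧸ N)), a * b = b * a := by
    rintro ⟨a, -⟩ ⟨b, -⟩
    apply Subtype.ext
    induction a using QuotientGroup.induction_on with
    | _ a =>
      induction b using QuotientGroup.induction_on with
      | _ b =>
        show (a : P ⧸ N) * (b : P ⧸ N) = b * a
        rw [← QuotientGroup.mk_mul, ← QuotientGroup.mk_mul, QuotientGroup.eq]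
        have h1 := hcomm b⁻¹ a⁻¹
        have e : b⁻¹ * a⁻¹ * b⁻¹⁻¹ * a⁻¹⁻¹ = (a * b)⁻¹ * (b * a) := by group
        rwa [e] at h1
  have he : ∀ a : ↥(⊤ : Subgroup (P ⧸ N)), a ^ q = 1 := by
    rintro ⟨a, -⟩
    apply Subtype.ext
    induction a using QuotientGroup.induction_on with
    | _ a =>
      show (a : P ⧸ N) ^ q = 1
      rw [← QuotientGroup.mk_pow, QuotientGroup.eq_one_iff]
      exact hpow a
  have hx1 : (⟨(x : P ⧸ N), Subgroup.mem_top _⟩ : ↥(⊤ : Subgroup (P ⧸ N))) ≠ 1 := by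
    intro h
    have h1 : (x : P ⧸ N) = 1 := congrArg Subtype.val h
    exact hx ((QuotientGroup.eq_one_iff x).mp h1)
  obtain ⟨f, hf⟩ := Cfsg.Agent.Helper63.AddCharRep.exists_addChar_ne_zero (K := K) (p := q) hc he _ hx1
  refine ⟨⟨fun g => (f : ↥(⊤ : Subgroup (P ⧸ N)) → K) ⟨(g : P ⧸ N), Subgroup.mem_top _⟩, ?_, ?_⟩, hf⟩
  · intro a b
    exact f.2 ⟨(a : P ⧸ N), Subgroup.mem_top _⟩ ⟨(b : P ⧸ N), Subgroup.mem_top _⟩
  · intro z hz
    have h1 : (⟨(z : P ⧸ N), Subgroup.mem_top _⟩ : ↥(⊤ : Subgroup (P ⧸ N))) = 1 :=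
      Subtype.ext ((QuotientGroup.eq_one_iff z).mpr hz)
    show (f : ↥(⊤ : Subgroup (P ⧸ N)) → K) ⟨(z : P ⧸ N), Subgroup.mem_top _⟩ = 0
    rw [h1]
    exact Cfsg.Agent.Helper63.AddCharRep.addChar_one f

/-- Membership in `N` is detected by the additive functions. -/
theorem mem_of_forall_addN [Finite P] {q : ℕ} [Fact q.Prime] [CharP K q]
    (hcomm : ∀ g h : P, g * h * g⁻¹ * h⁻¹ ∈ N) (hpow : ∀ g : P, g ^ q ∈ N) (w : P)
    (h : ∀ f : ↥(addN N K), f.1 w = 0) : w ∈ N := by
  by_contra hw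
  obtain ⟨f, hf⟩ := exists_addN_ne_zero (K := K) hcomm hpow w hw
  exact hf (h f)

/-- An automorphism acting trivially on the additive functions acts trivially modulo `N`. -/
theorem trivial_of_opN_eq_one [Finite P] {q : ℕ} [Fact q.Prime] [CharP K q]
    (hcomm : ∀ g h : P, g * h * g⁻¹ * h⁻¹ ∈ N) (hpow : ∀ g : P, g ^ q ∈ N)
    (β : ↥(stabN N)) (h : opN N K β = 1) (g : P) : (β : MulAut P) g * g⁻¹ ∈ N := by
  apply mem_of_forall_addN (K := K) hcomm hpow
  intro f
  have h1 := congrArg (fun e : Module.End K ↥(addN N K) => (e f).1 ((β : MulAut P) g)) h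
  simp only [opN_apply, MulAut.inv_apply_self, Module.End.one_apply] at h1
  rw [addN_mul, addN_inv, ← h1]
  ring

end Api

end Cfsg.Agent.Helper93.Gross2Dual
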