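/-
helper93: piece DUAL of CALL S3795 (helper63): the dual action statement follows from the small support
statement (Hall–Higman type), applied to the module of additive functions on `P / N`.
-/
import Mathlib
import Cfsg.Agent.Helper63.Gross2Defs2
import Cfsg.Agent.Helper65.Gross2Cub
import Cfsg.Agent.Helper93.Gross2DualApi

set_option autoImplicit false
set_option maxHeartbeats 1000000

namespace Cfsg.Agent.Helper93

open Module Cfsg.Agent.Helper63.Gross2 Cfsg.Agent.Helper93.Gross2Dual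

universe u

/-- PIECE DUAL of CALL S3795. -/
theorem dual_of_ssl (HS : SmallSupportStmt.{u}) : DualStmt.{u} := by
  intro P _ _ q r hq hr hr2 hqr j hj hjq N hcomm hpow ψ hψN hψ2j hH1 hH2 S hS hSψ hSN α hα g
  obtain ⟨a, b, hab⟩ := hH2
  have hqF : Fact q.Prime := ⟨hq⟩
  have hchar : CharP (AlgebraicClosure (ZMod q)) q :=
    charP_of_injective_algebraMap (algebraMap (ZMod q) (AlgebraicClosure (ZMod q))).injective q
  -- numeric facts
  have hpow4 : 2 ^ 2 ≤ 2 ^ j := Nat.pow_le_pow_right (by norm_num) hj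
  have hq3 : 3 ≤ q := by omega
  have h2K : (2 : AlgebraicClosure (ZMod q)) ≠ 0 := by
    intro h
    have h' : ((2 : ℕ) : AlgebraicClosure (ZMod q)) = 0 := by exact_mod_cast h
    rw [CharP.cast_eq_zero_iff (AlgebraicClosure (ZMod q)) q] at h'
    have := Nat.le_of_dvd (by norm_num) h'
    omega
  have hrK : (r : AlgebraicClosure (ZMod q)) ≠ 0 := by
    intro h
    rw [CharP.cast_eq_zero_iff (AlgebraicClosure (ZMod q)) q] at h
    exact hqr ((Nat.prime_dvd_prime_iff_eq hq hr).mp h)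
  have hqK : ((2 ^ j - 1 : ℕ) : AlgebraicClosure (ZMod q)) = 0 := by
    rw [hjq]
    exact CharP.cast_eq_zero (AlgebraicClosure (ZMod q)) q
  have hNK : ((2 ^ j : ℕ) : AlgebraicClosure (ZMod q)) ≠ 0 := by
    intro h
    rw [CharP.cast_eq_zero_iff (AlgebraicClosure (ZMod q)) q] at h
    have h1 := Nat.Prime.dvd_of_dvd_pow hq h
    have := Nat.le_of_dvd (by norm_num) h1
    omega
  -- elements of `stabN N`
  set ψ' : ↥(stabN N) := ⟨ψ, hψN⟩ with hψ'
  set τ' : ↥(stabN N) := ψ' ^ 2 ^ (j - 1) with hτ'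
  have hτcoe : (τ' : MulAut P) = ψ ^ 2 ^ (j - 1) := by rw [hτ', Subgroup.coe_pow]
  have h2j : 2 ^ (j - 1) + 2 ^ (j - 1) = 2 ^ j := by
    have : j = (j - 1) + 1 := by omega
    conv_rhs => rw [this, pow_succ]
    ring
  have hττ : τ' * τ' = ψ' ^ 2 ^ j := by rw [hτ', ← pow_add, h2j]
  have hψpow : opN N (AlgebraicClosure (ZMod q)) (ψ' ^ 2 ^ j) = 1 := by
    apply opN_eq_one
    intro x
    rw [Subgroup.coe_pow]
    exact hψ2j x
  -- `τ (τ x) ≡ x` modulo `N`, in terms of additive functions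
  have hττf : ∀ (f : ↥(addN N (AlgebraicClosure (ZMod q)))) (x : P),
      f.1 ((ψ ^ 2 ^ (j - 1)) ((ψ ^ 2 ^ (j - 1)) x)) = f.1 x := by
    intro f x
    have h1 : (ψ ^ 2 ^ (j - 1)) ((ψ ^ 2 ^ (j - 1)) x) = (ψ ^ 2 ^ j) x := by
      rw [← MulAut.mul_apply, ← pow_add, h2j]
    rw [h1]
    exact addN_congr f (hψ2j x)
  have hcommψτ : ∀ x : P, ψ ((ψ ^ 2 ^ (j - 1)) x) = (ψ ^ 2 ^ (j - 1)) (ψ x) := by
    intro x
    rw [← MulAut.mul_apply, ← MulAut.mul_apply, ← pow_succ', ← pow_succ]
  -- the cubic polynomial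
  have hplus : ∀ f : ↥(addN N (AlgebraicClosure (ZMod q))),
      opN N (AlgebraicClosure (ZMod q)) τ' f = f → opN N (AlgebraicClosure (ZMod q)) ψ' f = f := by
    intro f hf
    have hfτ : ∀ x : P, f.1 ((ψ ^ 2 ^ (j - 1)) x) = f.1 x := by
      intro x
      have h1 := congrArg (fun e : ↥(addN N (AlgebraicClosure (ZMod q))) =>
        e.1 ((ψ ^ 2 ^ (j - 1)) x)) hf
      simp only [opN_apply, hτcoe, MulAut.inv_apply_self] at h1
      exact h1.symm
    have key : ∀ x : P, f.1 (ψ x) = f.1 x := by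
      intro x
      have hu : (ψ ^ 2 ^ (j - 1)) (x * (ψ ^ 2 ^ (j - 1)) x) * (x * (ψ ^ 2 ^ (j - 1)) x)⁻¹ ∈ N := by
        apply mem_of_forall_addN (K := AlgebraicClosure (ZMod q)) hcomm hpow
        intro F
        rw [addN_mul, addN_inv, map_mul, addN_mul, addN_mul, hττf F x]
        ring
      have h1 := addN_congr f (hH1 _ hu)
      rw [map_mul, addN_mul, addN_mul, hcommψτ, hfτ, hfτ] at h1
      have h2 : (2 : AlgebraicClosure (ZMod q)) * f.1 (ψ x) = 2 * f.1 x := by linear_combination h1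
      exact mul_left_cancel₀ h2K h2
    apply Subtype.ext
    funext x
    rw [opN_apply]
    have h1 := key ((ψ' : MulAut P)⁻¹ x)
    rw [show (ψ' : MulAut P) = ψ from rfl] at h1 ⊢
    rw [MulAut.apply_inv_self] at h1
    exact h1.symm
  have hminus : Module.finrank (AlgebraicClosure (ZMod q))
      ↥(LinearMap.ker (opN N (AlgebraicClosure (ZMod q)) τ' + 1)) ≤ 2 := by
    let L : ↥(LinearMap.ker (opN N (AlgebraicClosure (ZMod q)) τ' + 1)) →ₗ[AlgebraicClosure (ZMod q)]
        (Fin 2 → AlgebraicClosure (ZMod q)) :=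
      { toFun := fun f => ![f.1.1 a, f.1.1 b]
        map_add' := by
          intro f g
          funext i
          fin_cases i <;> rfl
        map_smul' := by
          intro c f
          funext i
          fin_cases i <;> rfl }
    have hinj : Function.Injective L := by
      rw [injective_iff_map_eq_zero]
      rintro ⟨f, hfker⟩ hL
      have hfa : f.1 a = 0 := congrFun hL 0
      have hfb : f.1 b = 0 := congrFun hL 1
      have hfτ : ∀ x : P, f.1 ((ψ ^ 2 ^ (j - 1)) x) = - f.1 x := by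
        intro x
        rw [LinearMap.mem_ker, LinearMap.add_apply, Module.End.one_apply] at hfker
        have h1 := congrArg (fun e : ↥(addN N (AlgebraicClosure (ZMod q))) =>
          e.1 ((ψ ^ 2 ^ (j - 1)) x)) hfker
        simp only [Submodule.coe_add, Pi.add_apply, opN_apply, hτcoe, MulAut.inv_apply_self,
          ZeroMemClass.coe_zero, Pi.zero_apply] at h1
        linear_combination h1
      let Lsub : Subgroup P :=
        { carrier := {x | f.1 x = 0}
          mul_mem' := by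
            intro x y hx hy
            show f.1 (x * y) = 0
            rw [addN_mul, hx, hy, add_zero]
          one_mem' := addN_one f
          inv_mem' := by
            intro x hx
            show f.1 x⁻¹ = 0
            rw [addN_inv, hx, neg_zero] }
      have hLall : ∀ x, (ψ ^ 2 ^ (j - 1)) x * x ∈ N → f.1 x = 0 :=
        fun x hx => hab Lsub (fun z hz => addN_mem f hz) hfa hfb x hx
      have hzero : ∀ x : P, f.1 x = 0 := by
        intro x
        have hv : (ψ ^ 2 ^ (j - 1)) (((ψ ^ 2 ^ (j - 1)) x)⁻¹ * x) * (((ψ ^ 2 ^ (j - 1)) x)⁻¹ * x) ∈ N := by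
          apply mem_of_forall_addN (K := AlgebraicClosure (ZMod q)) hcomm hpow
          intro F
          rw [addN_mul, map_mul, map_inv, addN_mul, addN_mul, addN_inv, addN_inv, hττf F x]
          ring
        have h1 := hLall _ hv
        rw [addN_mul, addN_inv, hfτ] at h1
        have h2 : (2 : AlgebraicClosure (ZMod q)) * f.1 x = 2 * 0 := by linear_combination h1
        exact mul_left_cancel₀ h2K h2
      apply Subtype.ext
      apply Subtype.ext
      funext x
      exact hzero x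
    have h1 := LinearMap.finrank_le_finrank_of_injective hinj
    rw [Module.finrank_fin_fun] at h1
    exact h1
  obtain ⟨c₂, c₃, hcubic⟩ := Cfsg.Agent.Helper65.cubic_of_decomp
    (opN N (AlgebraicClosure (ZMod q)) ψ') (opN N (AlgebraicClosure (ZMod q)) τ') (2 ^ j)
    (by positivity) (by rw [← map_pow]; exact hψpow) hNK h2K
    (by rw [← map_mul, hττ]; exact hψpow)
    (by rw [← map_mul, ← map_mul, hτ', ← pow_succ', ← pow_succ]) hplus hminus
  -- the operator `y` and the `r`-group `R`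
  set Θ : ↥(stabN N) →* (Module.End (AlgebraicClosure (ZMod q)) ↥(addN N (AlgebraicClosure (ZMod q))))ˣ :=
    (opN N (AlgebraicClosure (ZMod q))).toHomUnits with hΘ
  have hΘcoe : ∀ β : ↥(stabN N), ((Θ β : (Module.End (AlgebraicClosure (ZMod q))
      ↥(addN N (AlgebraicClosure (ZMod q))))ˣ) : Module.End (AlgebraicClosure (ZMod q))
      ↥(addN N (AlgebraicClosure (ZMod q)))) = opN N (AlgebraicClosure (ZMod q)) β :=
    fun β => MonoidHom.coe_toHomUnits _ β
  have hy2j : Θ ψ' ^ 2 ^ j = 1 := by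
    rw [← map_pow]
    apply Units.ext
    rw [hΘcoe, Units.val_one]
    exact hψpow
  have hfinAut : Finite (MulAut P) :=
    Finite.of_injective (fun e : MulAut P => (e : P → P)) (fun e₁ e₂ h => MulEquiv.ext (congrFun h))
  have hRfin : Finite ↥((S.subgroupOf (stabN N)).map Θ) := by
    have : Finite ↥(S.subgroupOf (stabN N)) := inferInstance
    exact Finite.of_surjective (fun σ : ↥(S.subgroupOf (stabN N)) =>
      (⟨Θ σ.1, Subgroup.mem_map_of_mem Θ σ.2⟩ : ↥((S.subgroupOf (stabN N)).map Θ)))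
      (by
        rintro ⟨ρ, σ, hσ, rfl⟩
        exact ⟨⟨σ, hσ⟩, rfl⟩)
  have hRp : IsPGroup r ↥((S.subgroupOf (stabN N)).map Θ) := (hS.comap_subtype).map Θ
  have hRnorm : ∀ ρ ∈ (S.subgroupOf (stabN N)).map Θ, Θ ψ' * ρ * (Θ ψ')⁻¹ ∈ (S.subgroupOf (stabN N)).map Θ := by
    rintro ρ ⟨σ, hσ, rfl⟩
    refine ⟨ψ' * σ * ψ'⁻¹, ?_, by rw [map_mul, map_mul, map_inv]⟩
    have hσ' : (σ : MulAut P) ∈ S := hσ
    show ((ψ' * σ * ψ'⁻¹ : ↥(stabN N)) : MulAut P) ∈ S
    rw [Subgroup.coe_mul, Subgroup.coe_mul, Subgroup.coe_inv]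
    exact hSψ _ hσ'
  set α' : ↥(stabN N) := ⟨α, hSN α hα⟩ with hα'
  have hαR : Θ α' ∈ (S.subgroupOf (stabN N)).map Θ :=
    Subgroup.mem_map_of_mem Θ (show (α' : MulAut P) ∈ S from hα)
  have hfix := HS (AlgebraicClosure (ZMod q)) ↥(addN N (AlgebraicClosure (ZMod q))) r hr hr2 hrK h2K j hj hqK
    (Θ ψ') hy2j 1 c₂ c₃ (by rw [hΘcoe]; exact hcubic) ((S.subgroupOf (stabN N)).map Θ) hRfin hRp hRnorm (Θ α') hαR
  -- conclusion
  have hκ : opN N (AlgebraicClosure (ZMod q)) (α'⁻¹ * (τ' * α' * τ'⁻¹)) = 1 := by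
    have h1 : Θ (α'⁻¹ * (τ' * α' * τ'⁻¹)) = 1 := by
      rw [map_mul, map_inv, map_mul, map_mul, map_inv, hτ', map_pow, hfix, inv_mul_cancel]
    have h2 := congrArg Units.val h1
    rw [hΘcoe, Units.val_one] at h2
    exact h2
  have hfinal := trivial_of_opN_eq_one (K := AlgebraicClosure (ZMod q)) hcomm hpow _ hκ g
  rw [Subgroup.coe_mul, Subgroup.coe_inv, Subgroup.coe_mul, Subgroup.coe_mul, Subgroup.coe_inv, hτcoe] at hfinal
  exact hfinal

end Cfsg.Agent.Helper93
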