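/-
Helper93: normalisers and centralisers of cyclic subgroups of `Cfsg.M24`, at the level of permutations of
the 24 points, their transport along conjugation, and the conjugacy of subgroups of prime order `p` when
`p` divides the group order exactly once.
-/
import Cfsg.Agent.Helper93.M24Orbit

set_option autoImplicit false

namespace Cfsg.Agent.Helper93

open Cfsg Cfsg.Agent.Helper91
open scoped Pointwise

/-! ## General lemmas -/

theorem conj_smul_mem_iff {G : Type*} [Group G] (H : Subgroup G) (g x : G) :
    x ∈ MulAut.conj g • H ↔ g⁻¹ * x * g ∈ H := by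
  rw [Subgroup.mem_pointwise_smul_iff_inv_smul_mem]
  simp [MulAut.smul_def]

theorem conj_smul_zpowers {G : Type*} [Group G] (k x : G) :
    MulAut.conj k • Subgroup.zpowers x = Subgroup.zpowers (k * x * k⁻¹) := by
  ext z
  rw [conj_smul_mem_iff, Subgroup.mem_zpowers_iff, Subgroup.mem_zpowers_iff]
  constructor
  · rintro ⟨n, hn⟩
    exact ⟨n, by rw [conj_zpow, hn]; group⟩
  · rintro ⟨n, rfl⟩
    exact ⟨n, by rw [conj_zpow]; group⟩

/-- A subgroup of prime order is generated by any of its elements of that order. -/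
theorem exists_gen_of_card_prime {G : Type*} [Group G] {p : ℕ} [Fact p.Prime] (X : Subgroup G)
    (h : Nat.card X = p) : ∃ x : G, orderOf x = p ∧ X = Subgroup.zpowers x := by
  have hp : 1 < p := (Fact.out : p.Prime).one_lt
  haveI : Finite X := Nat.finite_of_card_ne_zero (by rw [h]; omega)
  haveI : Nontrivial X := Finite.one_lt_card_iff_nontrivial.1 (by rw [h]; exact hp)
  obtain ⟨x, hx⟩ : ∃ x : X, x ≠ 1 := exists_ne 1
  have hz : Subgroup.zpowers x = ⊤ := zpowers_eq_top_of_prime_card (p := p) h hx
  have ho : orderOf x = p := by rw [← Nat.card_zpowers, hz, Subgroup.card_top, h]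
  refine ⟨x.1, by rw [← ho, Subgroup.orderOf_coe], ?_⟩
  ext y
  constructor
  · intro hy
    have hmem : (⟨y, hy⟩ : X) ∈ Subgroup.zpowers x := by rw [hz]; trivial
    obtain ⟨k, hk⟩ := Subgroup.mem_zpowers_iff.1 hmem
    refine Subgroup.mem_zpowers_iff.2 ⟨k, ?_⟩
    have := congrArg Subtype.val hk
    simpa using this
  · intro hy
    obtain ⟨k, rfl⟩ := Subgroup.mem_zpowers_iff.1 hy
    exact X.zpow_mem x.2 k

/-- If the prime `p` divides the order of a finite group exactly once, every subgroup of order `p` is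
generated by a conjugate of a given element of order `p`. -/
theorem exists_conj_zpowers_of_sylow {G : Type*} [Group G] [Finite G] {p : ℕ} [Fact p.Prime]
    (hp : (Nat.card G).factorization p = 1) (S : Subgroup G) (hS : Nat.card S = p) (x0 : G)
    (h0 : orderOf x0 = p) : ∃ k : G, S = Subgroup.zpowers (k * x0 * k⁻¹) := by
  have h1 : Nat.card S = p ^ (Nat.card G).factorization p := by rw [hS, hp, pow_one]
  have h2 : Nat.card (Subgroup.zpowers x0) = p ^ (Nat.card G).factorization p := by
    rw [Nat.card_zpowers, h0, hp, pow_one]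
  obtain ⟨k, hk⟩ := MulAction.exists_smul_eq G (Sylow.ofCard (Subgroup.zpowers x0) h2) (Sylow.ofCard S h1)
  refine ⟨k, ?_⟩
  have := congrArg (fun P : Sylow p G => (P : Subgroup G)) hk
  simp only [Sylow.coe_subgroup_smul, Sylow.coe_ofCard] at this
  rw [← this, conj_smul_zpowers]

/-- In a finite group an element normalises a cyclic subgroup as soon as it conjugates the generator into
it. -/
theorem mem_normalizer_zpowers {G : Type*} [Group G] [Finite G] (x n : G) :
    n ∈ Subgroup.normalizer (Subgroup.zpowers x : Set G) ↔ n * x * n⁻¹ ∈ Subgroup.zpowers x := by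
  constructor
  · intro h
    exact (Subgroup.mem_normalizer_iff.1 h x).1 (Subgroup.mem_zpowers x)
  · intro h
    apply Subgroup.mem_normalizer_fintype
    intro m hm
    obtain ⟨k, rfl⟩ := Subgroup.mem_zpowers_iff.1 hm
    have : n * x ^ k * n⁻¹ = (n * x * n⁻¹) ^ k := by rw [conj_zpow]
    rw [this]
    exact Subgroup.zpow_mem _ h k

theorem mem_centralizer_zpowers {G : Type*} [Group G] (x c : G) :
    c ∈ Subgroup.centralizer (Subgroup.zpowers x : Set G) ↔ c * x = x * c := by
  constructor
  · intro h
    exact (Subgroup.mem_centralizer_iff.1 h x (Subgroup.mem_zpowers x)).symm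
  · intro h
    rw [Subgroup.mem_centralizer_iff]
    intro m hm
    obtain ⟨k, rfl⟩ := Subgroup.mem_zpowers_iff.1 hm
    have hc : Commute x c := h.symm
    exact (hc.zpow_left k)

/-! ## Normalisers in `M24` -/

/-- The normaliser in `M24` of the cyclic group generated by `t`. -/
def normM (t : Equiv.Perm GolayPt) : Subgroup (Equiv.Perm GolayPt) :=
  M24 ⊓ Subgroup.normalizer (Subgroup.zpowers t : Set (Equiv.Perm GolayPt))

theorem mem_normM {t n : Equiv.Perm GolayPt} :
    n ∈ normM t ↔ n ∈ M24 ∧ n * t * n⁻¹ ∈ Subgroup.zpowers t := by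
  rw [normM, Subgroup.mem_inf, mem_normalizer_zpowers]

theorem centM_le_normM (t : Equiv.Perm GolayPt) : centM t ≤ normM t := by
  intro c hc
  rw [mem_centM] at hc
  rw [mem_normM]
  refine ⟨hc.1, ?_⟩
  rw [hc.2, mul_inv_cancel_right]
  exact Subgroup.mem_zpowers t

theorem conj_mem_normM {u t n : Equiv.Perm GolayPt} (hu : u ∈ M24) (hn : n ∈ normM t) :
    u * n * u⁻¹ ∈ normM (u * t * u⁻¹) := by
  rw [mem_normM] at hn ⊢
  refine ⟨mul_mem (mul_mem hu hn.1) (inv_mem hu), ?_⟩
  obtain ⟨k, hk⟩ := Subgroup.mem_zpowers_iff.1 hn.2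
  refine Subgroup.mem_zpowers_iff.2 ⟨k, ?_⟩
  rw [conj_zpow, hk]; group

theorem conj_mem_normM' {u t n : Equiv.Perm GolayPt} (hu : u ∈ M24)
    (hn : n ∈ normM (u * t * u⁻¹)) : u⁻¹ * n * u ∈ normM t := by
  have := conj_mem_normM (inv_mem hu) hn
  have e : u⁻¹ * (u * t * u⁻¹) * u⁻¹⁻¹ = t := by group
  rw [e, inv_inv] at this
  exact this

/-- Conjugate elements have normalisers of the same order. -/
theorem card_normM_conj {u : Equiv.Perm GolayPt} (hu : u ∈ M24) (t : Equiv.Perm GolayPt) :
    Nat.card (normM (u * t * u⁻¹)) = Nat.card (normM t) := by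
  apply Nat.card_congr
  exact
    { toFun := fun c => ⟨u⁻¹ * c.1 * u, conj_mem_normM' hu c.2⟩
      invFun := fun c => ⟨u * c.1 * u⁻¹, conj_mem_normM hu c.2⟩
      left_inv := fun c => Subtype.ext (by simp only; group)
      right_inv := fun c => Subtype.ext (by simp only; group) }

/-- Membership in the normaliser of a cyclic subgroup of the subgroup `M24`, at the level of
permutations. -/
theorem mem_normalizer_iff_normM (y n : ↥M24) :
    n ∈ Subgroup.normalizer (Subgroup.zpowers y : Set ↥M24) ↔
      (n : Equiv.Perm GolayPt) ∈ normM (y : Equiv.Perm GolayPt) := by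
  rw [mem_normalizer_zpowers, mem_normM, Subgroup.mem_zpowers_iff, Subgroup.mem_zpowers_iff]
  constructor
  · rintro ⟨k, hk⟩
    refine ⟨n.2, k, ?_⟩
    have := congrArg Subtype.val hk
    simpa using this
  · rintro ⟨-, k, hk⟩
    refine ⟨k, Subtype.ext ?_⟩
    simpa using hk

theorem mem_centralizer_iff_centM (y c : ↥M24) :
    c ∈ Subgroup.centralizer (Subgroup.zpowers y : Set ↥M24) ↔
      (c : Equiv.Perm GolayPt) ∈ centM (y : Equiv.Perm GolayPt) := by
  rw [mem_centralizer_zpowers, mem_centM]
  constructor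
  · intro h
    refine ⟨c.2, ?_⟩
    have := congrArg Subtype.val h
    simpa using this
  · rintro ⟨-, h⟩
    exact Subtype.ext (by simpa using h)

theorem card_normalizer_zpowers (y : ↥M24) :
    Nat.card ↥(Subgroup.normalizer (Subgroup.zpowers y : Set ↥M24)) =
      Nat.card ↥(normM (y : Equiv.Perm GolayPt)) := by
  apply Nat.card_congr
  exact
    { toFun := fun n => ⟨n.1.1, (mem_normalizer_iff_normM y n.1).1 n.2⟩
      invFun := fun m => ⟨⟨m.1, (mem_normM.1 m.2).1⟩, (mem_normalizer_iff_normM y _).2 m.2⟩
      left_inv := fun n => rfl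
      right_inv := fun m => rfl }

theorem card_centralizer_zpowers (y : ↥M24) :
    Nat.card ↥(Subgroup.centralizer (Subgroup.zpowers y : Set ↥M24)) =
      Nat.card ↥(centM (y : Equiv.Perm GolayPt)) := by
  apply Nat.card_congr
  exact
    { toFun := fun n => ⟨n.1.1, (mem_centralizer_iff_centM y n.1).1 n.2⟩
      invFun := fun m => ⟨⟨m.1, (mem_centM.1 m.2).1⟩, (mem_centralizer_iff_centM y _).2 m.2⟩
      left_inv := fun n => rfl
      right_inv := fun m => rfl }

/-! ## Powers of tables -/

/-- The `k`-th power of a table. -/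
def powT : Nat → List Nat → List Nat
  | 0, _ => idTab
  | k + 1, T => comp (powT k T) T

theorem validTab_powT {T : List Nat} (hT : validTab T = true) : ∀ k, validTab (powT k T) = true
  | 0 => validTab_idTab
  | k + 1 => validTab_comp (validTab_powT hT k) hT

theorem permT_powT {T : List Nat} (hT : validTab T = true) (k : Nat) :
    permT (powT k T) (validTab_powT hT k) = permT T hT ^ k := by
  induction k with
  | zero => rw [pow_zero]; exact permT_idTab
  | succ k ih =>
    rw [pow_succ, ← ih]
    exact permT_comp (validTab_powT hT k) hT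

/-- An element of the cyclic group generated by an element of order `n` is one of the first `n` powers. -/
theorem mem_zpowers_lt {G : Type*} [Group G] {x y : G} {n : ℕ} (hn : 0 < n) (hx : x ^ n = 1)
    (hy : y ∈ Subgroup.zpowers x) : ∃ k, k < n ∧ y = x ^ k := by
  obtain ⟨k, rfl⟩ := Subgroup.mem_zpowers_iff.1 hy
  refine ⟨(k % (n : ℤ)).toNat, ?_, ?_⟩
  · have h1 : k % (n : ℤ) < n := Int.emod_lt_of_pos k (by exact_mod_cast hn)
    have h2 : 0 ≤ k % (n : ℤ) := Int.emod_nonneg k (by exact_mod_cast hn.ne')
    omega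
  · have h2 : 0 ≤ k % (n : ℤ) := Int.emod_nonneg k (by exact_mod_cast hn.ne')
    rw [← zpow_natCast, Int.toNat_of_nonneg h2]
    have : x ^ k = x ^ (k % (n : ℤ) + n * (k / n)) := by rw [Int.emod_add_mul_ediv]
    rw [this, zpow_add, zpow_mul, zpow_natCast, hx, one_zpow, mul_one]

/-- The factorisation facts on the order of `M24` for the primes dividing it exactly once. -/
theorem card_M24_factorization_seven : (Nat.card ↥M24).factorization 7 = 1 := by
  have h : Nat.card ↥M24 = 7 * 34974720 := by rw [card_M24]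
  rw [h, Nat.factorization_mul (by norm_num) (by norm_num)]
  have h1 : (34974720 : ℕ).factorization 7 = 0 :=
    Nat.factorization_eq_zero_of_not_dvd (by norm_num)
  simp [h1, Nat.Prime.factorization_self (by norm_num : Nat.Prime 7)]

end Cfsg.Agent.Helper93
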