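/-
Helper93: an abstract recognition lemma for a group of order 72 with a normal elementary abelian Sylow
3-subgroup of order 9 and quaternion Sylow 2-subgroups.
-/
import Mathlib

set_option autoImplicit false

namespace Cfsg.Agent.Helper93

theorem factorization_72_three : (72 : ℕ).factorization 3 = 2 := by
  have h : (72 : ℕ) = 3 ^ 2 * 8 := by norm_num
  rw [h, Nat.factorization_mul (by norm_num) (by norm_num), Nat.factorization_pow]
  have h1 : (8 : ℕ).factorization 3 = 0 := Nat.factorization_eq_zero_of_not_dvd (by norm_num)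
  simp [h1, Nat.Prime.factorization_self (by norm_num : Nat.Prime 3)]

theorem factorization_72_two : (72 : ℕ).factorization 2 = 3 := by
  have h : (72 : ℕ) = 2 ^ 3 * 9 := by norm_num
  rw [h, Nat.factorization_mul (by norm_num) (by norm_num), Nat.factorization_pow]
  have h1 : (9 : ℕ).factorization 2 = 0 := Nat.factorization_eq_zero_of_not_dvd (by norm_num)
  simp [h1, Nat.Prime.factorization_self (by norm_num : Nat.Prime 2)]

/-- A group of order 72 in which the elements of order dividing 9 have order dividing 3 and are at most 9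
in number, and which contains a quaternion group of order 8: its Sylow 3-subgroup is normal, of order 9 and
exponent 3, and its Sylow 2-subgroups are quaternion. -/
theorem m9_abstract {G : Type*} [Group G] (hcard : Nat.card G = 72)
    (h9 : ∀ x : G, x ^ 9 = 1 → x ^ 3 = 1) (S : Finset G) (hS : S.card ≤ 9)
    (h3 : ∀ x : G, x ^ 3 = 1 → x ∈ S) (f : QuaternionGroup 2 →* G) (hf : Function.Injective f) :
    (∀ Q : Sylow 3 G, (Q : Subgroup G).Normal ∧ Nat.card ↥Q = 9 ∧
        ∀ x ∈ (Q : Subgroup G), x ^ 3 = 1) ∧
      ∀ P : Sylow 2 G, Nonempty (↥P ≃* QuaternionGroup 2) := by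
  have : Finite G := Nat.finite_of_card_ne_zero (by rw [hcard]; norm_num)
  refine ⟨?_, ?_⟩
  · intro Q
    have : Fact (Nat.Prime 3) := ⟨by norm_num⟩
    have hQ : Nat.card ↥Q = 9 := by
      have h := Sylow.card_eq_multiplicity Q
      rw [hcard, factorization_72_three] at h
      exact h.trans (by norm_num)
    have hx3 : ∀ x ∈ (Q : Subgroup G), x ^ 3 = 1 := by
      intro x hx
      apply h9
      have h := pow_card_eq_one' (G := ↥(Q : Subgroup G)) (x := ⟨x, hx⟩)
      have hQ' : Nat.card ↥(Q : Subgroup G) = 9 := hQ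
      rw [hQ'] at h
      have := congrArg Subtype.val h
      simpa using this
    have hQS : ((Q : Subgroup G) : Set G) = (S : Set G) := by
      apply Set.eq_of_subset_of_ncard_le
      · intro x hx; exact h3 x (hx3 x hx)
      · rw [Set.ncard_coe_finset]
        have : ((Q : Subgroup G) : Set G).ncard = 9 := hQ
        omega
      · exact S.finite_toSet
    refine ⟨⟨fun n hn g => ?_⟩, hQ, hx3⟩
    have h1 : (g * n * g⁻¹) ^ 3 = 1 := by rw [conj_pow, hx3 n hn]; group
    have hmem : g * n * g⁻¹ ∈ (S : Set G) := h3 _ h1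
    rw [← hQS] at hmem
    exact hmem
  · intro P
    have : Fact (Nat.Prime 2) := ⟨by norm_num⟩
    have hc : Nat.card f.range = 2 ^ (Nat.card G).factorization 2 := by
      rw [hcard, factorization_72_two, ← Nat.card_congr (MonoidHom.ofInjective hf).toEquiv,
        Nat.card_eq_fintype_card, QuaternionGroup.card]
      norm_num
    obtain ⟨g, hg⟩ := MulAction.exists_smul_eq G (Sylow.ofCard f.range hc) P
    have e1 : ↥(Sylow.ofCard f.range hc) ≃* ↥P := by
      rw [← hg]; exact Sylow.equivSMul _ g
    exact ⟨(e1.symm).trans (MonoidHom.ofInjective hf).symm⟩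

/-- The recognition lemma transported along an isomorphism. -/
theorem m9_transfer {G0 G : Type*} [Group G0] [Group G] (e : G0 ≃* G) (hcard : Nat.card G0 = 72)
    (h9 : ∀ x : G0, x ^ 9 = 1 → x ^ 3 = 1) (S : Finset G0) (hS : S.card ≤ 9)
    (h3 : ∀ x : G0, x ^ 3 = 1 → x ∈ S) (f : QuaternionGroup 2 →* G0) (hf : Function.Injective f) :
    (∀ Q : Sylow 3 G, (Q : Subgroup G).Normal ∧ Nat.card ↥Q = 9 ∧
        ∀ x ∈ (Q : Subgroup G), x ^ 3 = 1) ∧
      ∀ P : Sylow 2 G, Nonempty (↥P ≃* QuaternionGroup 2) := by
  apply m9_abstract (by rw [← Nat.card_congr e.toEquiv, hcard])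
    (fun x hx => by
      have h := h9 (e.symm x) (by rw [← map_pow, hx, map_one])
      have := congrArg e h
      rwa [map_pow, e.apply_symm_apply, map_one] at this)
    (S.map e.toEquiv.toEmbedding) (by rw [Finset.card_map]; exact hS)
    (fun x hx => by
      rw [Finset.mem_map_equiv]
      exact h3 _ (by
        have : e.toEquiv.symm x = e.symm x := rfl
        rw [this, ← map_pow, hx, map_one]))
    (e.toMonoidHom.comp f) (e.injective.comp hf)

end Cfsg.Agent.Helper93
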