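import Mathlib
import Cfsg.Prelude.Def_GeometricClasses
import Cfsg.Prelude.Def_Classical
import Cfsg.Agent.Helper13.NPDefs
import Cfsg.Agent.Helper96.OHDefs
import Cfsg.Agent.Helper45.Spinor
import Cfsg.Agent.Helper43.UniIso
import Cfsg.Agent.Helper43.SingCount

set_option autoImplicit false

/-!
# CALL NP (helper13, row S5989), piece LEVCARD (double by helper93): `np_lev_card`.
-/

namespace Cfsg.Agent.Helper93.NP5989

open Module Cfsg Cfsg.Geo Cfsg.Agent.Helper13.NP Cfsg.Agent.Helper96.OH
open Cfsg.Agent.Helper43.UniIso (UnipH kdim)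
open scoped MatrixGroups

universe u

section A

variable {F : Type u} [Field F] [Fintype F]

open Matrix in
/-- LEVCARD: the number of `v = (x, y)` with `∑ x_j y_j = c`, `c ≠ 0`. -/
theorem np_lev_card (d : ℕ) (hd : 1 ≤ d) (c : F) (hc : c ≠ 0) :
    Fintype.card (Cfsg.Agent.Helper45.Lev (Cfsg.quadFormPlus d F) c) =
      Fintype.card F ^ (d - 1) * (Fintype.card F ^ d - 1) := by
  classical
  let e : Cfsg.Agent.Helper45.Lev (Cfsg.quadFormPlus d F) c ≃
      Σ x : Fin d → F, {y : Fin d → F // x ⬝ᵥ y = c} :=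
    { toFun := fun v => ⟨fun i => v.val (Sum.inl i), ⟨fun i => v.val (Sum.inr i), v.prop⟩⟩
      invFun := fun s => ⟨Sum.elim s.1 s.2.1, s.2.2⟩
      left_inv := fun v => Cfsg.Agent.Helper45.Lev.ext' _ (by funext j; cases j <;> rfl)
      right_inv := fun s => rfl }
  have hterm : ∀ x : Fin d → F, Nat.card {y : Fin d → F // x ⬝ᵥ y = c}
      = if x = 0 then 0 else Fintype.card F ^ (d - 1) := by
    intro x
    by_cases hx : x = 0
    · rw [if_pos hx, hx, Cfsg.Agent.Helper43.SingCount.card_dot_zero, if_neg hc]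
    · rw [if_neg hx]
      have h := Cfsg.Agent.Helper43.SingCount.card_dot d x hx c
      rw [Nat.card_eq_fintype_card (α := F)] at h
      have hpos : 0 < Fintype.card F := Fintype.card_pos
      have hpow : Fintype.card F ^ d = Fintype.card F * Fintype.card F ^ (d - 1) := by
        rw [← pow_succ', Nat.sub_add_cancel hd]
      rw [hpow] at h
      exact Nat.eq_of_mul_eq_mul_left hpos h
  rw [← Nat.card_eq_fintype_card, Nat.card_congr e, Nat.card_sigma,
    Finset.sum_congr rfl (fun x _ => hterm x), Finset.sum_ite, Finset.sum_const_zero, zero_add,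
    Finset.sum_const, Finset.filter_ne', Finset.card_erase_of_mem (Finset.mem_univ _),
    Finset.card_univ, smul_eq_mul, Fintype.card_fun, Fintype.card_fin, mul_comm]

end A

end Cfsg.Agent.Helper93.NP5989
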