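import Mathlib
import Cfsg.Prelude.Def_GeometricClasses
import Cfsg.Prelude.Def_Classical
import Cfsg.Agent.Helper13.NPDefs
import Cfsg.Agent.Helper96.OHDefs
import Cfsg.Agent.Helper45.Spinor
import Cfsg.Agent.Helper43.UniIso
import Cfsg.Agent.Helper43.OTDefs
import Cfsg.Agent.Helper98.OPar

set_option autoImplicit false

/-!
# CALL NP (helper13, row S5989), piece NEGODD (double by helper93): `np_neg_odd`.

An isometry `T` with `T * T = -1` has no invariant nondegenerate subspace of odd dimension: the
restriction `S` to such a subspace has `det S ^ 2 = 1` (Gram matrix) and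
`det S ^ 2 = det (-1) = (-1) ^ dim`.
-/

namespace Cfsg.Agent.Helper93.NP5989

open Module Cfsg Cfsg.Geo Cfsg.Agent.Helper13.NP Cfsg.Agent.Helper96.OH
open Cfsg.Agent.Helper43.UniIso (UnipH kdim)
open scoped MatrixGroups

universe u

section geom

open Cfsg.Agent.Helper90.HT Cfsg.Agent.Helper43.OT

variable {F : Type*} [Field F] {V : Type*} [AddCommGroup V] [Module F V] [FiniteDimensional F V]
  (h : V → V → F)

/-- abstract version: an isometry with square `-1` of a nondegenerate symmetric space `D`. -/
theorem neg_even_abs (hh : IsHerm (RingHom.id F) h) (h2 : (2 : F) ≠ 0) (T : Module.End F V)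
    (hT : HPres h T) (hT2 : ∀ v, T (T v) = -v) (D : Submodule F V)
    (hDT : D.map T ≤ D) (hD : HNondegOn h D) : Even (finrank F D) := by
  classical
  have hTD : ∀ x ∈ D, T x ∈ D := fun x hx => hDT (Submodule.mem_map_of_mem hx)
  obtain ⟨S, hS⟩ : ∃ S : Module.End F D, ∀ x : D, ((S x : D) : V) = T (x : V) :=
    ⟨T.restrict hTD, fun x => rfl⟩
  have hS2 : S * S = (-1 : F) • (1 : Module.End F D) := by
    ext x
    rw [Module.End.mul_apply, hS, hS, hT2]
    simp
  set n := finrank F D with hn
  set b : Basis (Fin n) F D := Module.finBasis F D with hb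
  set M : Matrix (Fin n) (Fin n) F := LinearMap.toMatrix b b S with hM
  set G : Matrix (Fin n) (Fin n) F := Matrix.of fun i j => h (b i : V) (b j : V) with hG
  have hSb : ∀ i, ((S (b i) : D) : V) = ∑ k, M k i • (b k : V) := by
    intro i
    have h1 := b.sum_repr (S (b i))
    have h3 := congrArg (fun x : D => (x : V)) h1
    simp only [Submodule.coe_sum, Submodule.coe_smul] at h3
    rw [← h3]
    refine Finset.sum_congr rfl fun k _ => ?_
    rw [hM, LinearMap.toMatrix_apply]
  have hiso : ∀ i j, h ((S (b i) : D) : V) ((S (b j) : D) : V) = h (b i : V) (b j : V) := by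
    intro i j
    rw [hS, hS]
    exact hT _ _
  have hMG : M.transpose * G * M = G := by
    ext i j
    have h1 := hiso i j
    rw [hSb, hSb, hh.sum_left] at h1
    simp only [hh.smul_left, hh.sum_right, hh.smul_right, RingHom.id_apply] at h1
    rw [Matrix.mul_apply]
    simp only [Matrix.mul_apply, Matrix.transpose_apply, Finset.sum_mul]
    rw [Finset.sum_comm]
    rw [hG, Matrix.of_apply, ← h1]
    refine Finset.sum_congr rfl fun k _ => ?_
    rw [Finset.mul_sum]
    refine Finset.sum_congr rfl fun l _ => ?_
    simp only [Matrix.of_apply]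
    ring
  have hGdet : G.det ≠ 0 := by
    intro h0
    obtain ⟨c, hc0, hc⟩ := Matrix.exists_mulVec_eq_zero_iff.mpr h0
    have hx0 : b.equivFun.symm c = 0 := by
      have hxD : ((b.equivFun.symm c : D) : V) = 0 := by
        apply hD _ (b.equivFun.symm c).2
        intro w hw
        have hbi : ∀ i, h ((b.equivFun.symm c : D) : V) (b i : V) = 0 := by
          intro i
          apply hh.eq_zero_symm
          rw [Basis.equivFun_symm_apply]
          simp only [Submodule.coe_sum, Submodule.coe_smul]
          rw [hh.sum_right]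
          simp only [hh.smul_right, RingHom.id_apply]
          have h4 := congrFun hc i
          rw [Matrix.mulVec, dotProduct] at h4
          simp only [hG, Matrix.of_apply, Pi.zero_apply] at h4
          rw [← h4]
          refine Finset.sum_congr rfl fun j _ => ?_
          ring
        have h5 := b.sum_repr ⟨w, hw⟩
        have h6 := congrArg (fun x : D => (x : V)) h5
        simp only [Submodule.coe_sum, Submodule.coe_smul] at h6
        rw [← h6, hh.sum_right]
        refine Finset.sum_eq_zero fun i _ => ?_
        rw [hh.smul_right, hbi i, mul_zero]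
      exact Subtype.ext hxD
    apply hc0
    have h7 := congrArg b.equivFun hx0
    rw [LinearEquiv.apply_symm_apply, map_zero] at h7
    exact h7
  have hdetM : M.det = LinearMap.det S := LinearMap.det_toMatrix b S
  have hdet2 : M.det * M.det = 1 := by
    have h1 := congrArg Matrix.det hMG
    rw [Matrix.det_mul, Matrix.det_mul, Matrix.det_transpose] at h1
    have h3 : (M.det * M.det - 1) * G.det = 0 := by
      linear_combination h1
    have h4 := (mul_eq_zero.mp h3).resolve_right hGdet
    exact sub_eq_zero.mp h4
  have hdetS : LinearMap.det S * LinearMap.det S = (-1 : F) ^ n := by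
    rw [← map_mul, hS2, LinearMap.det_smul, map_one, mul_one]
  rw [← hdetM, hdet2] at hdetS
  rcases Nat.even_or_odd n with he | ho
  · exact he
  · exfalso
    rw [ho.neg_one_pow] at hdetS
    apply h2
    linear_combination hdetS

end geom

section A

variable {F : Type u} [Field F] [Fintype F]

/-- NEGODD: an isometry with `M * M = -1` has no invariant nondegenerate subspace of odd
dimension. -/
theorem np_neg_odd {ι : Type} [Fintype ι] [DecidableEq ι] (Q : (ι → F) → F)
    (hQ : IsNondegenerateQuadraticForm Q) (h2 : (2 : F) ≠ 0) (M : Matrix ι ι F)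
    (hM : ∀ v, Q (M.mulVec v) = Q v) (hM2 : M * M = -1) (W : Submodule F (ι → F))
    (hW : IsNondegenerateOn (QuadraticMap.polar Q) W) (hWM : W.map (Matrix.toLin' M) ≤ W) :
    Even (finrank F W) := by
  have hD : Cfsg.Agent.Helper90.HT.HNondegOn
      (Cfsg.Agent.Helper43.OT.ph (Cfsg.Agent.Helper98.op_qf Q hQ)) W := by
    intro v hv hvw
    by_contra hv0
    obtain ⟨-, x, hx, hne⟩ := hW v hv hv0
    exact hne (hvw x hx)
  have hT : ∀ v, (Cfsg.Agent.Helper98.op_qf Q hQ) (Matrix.toLin' M v)
      = (Cfsg.Agent.Helper98.op_qf Q hQ) v := by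
    intro v
    rw [Matrix.toLin'_apply]
    exact hM v
  have hT2 : ∀ v, Matrix.toLin' M (Matrix.toLin' M v) = -v := by
    intro v
    rw [Matrix.toLin'_apply, Matrix.toLin'_apply, Matrix.mulVec_mulVec, hM2, Matrix.neg_mulVec,
      Matrix.one_mulVec]
  exact neg_even_abs (Cfsg.Agent.Helper43.OT.ph (Cfsg.Agent.Helper98.op_qf Q hQ))
    (Cfsg.Agent.Helper43.OT.isHerm_ph _) h2 (Matrix.toLin' M)
    (Cfsg.Agent.Helper43.OT.hpres_ph (Cfsg.Agent.Helper98.op_qf Q hQ) (Matrix.toLin' M) hT)
    hT2 W hWM hD

end A

end Cfsg.Agent.Helper93.NP5989
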