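import Mathlib
import Cfsg.Agent.Helper96.OHDefs
import Cfsg.Agent.Helper69.ODDefs
import Cfsg.Agent.Helper93.NPNEGODD

set_option autoImplicit false
set_option linter.unusedSectionVars false
set_option linter.unusedVariables false

/-!
# CALL OD (helper69; rows S5989 + S5991), piece DSKEVEN (double by helper93): `od_skew_even`.
Wrapper of `Cfsg.Agent.Helper93.NP5989.neg_even_abs` (Gram determinant argument).
-/

namespace Cfsg.Agent.Helper93.OD59

open Module Polynomial Cfsg Cfsg.Geo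
open Cfsg.Agent.Helper13.TIu Cfsg.Agent.Helper96.OH Cfsg.Agent.Helper69.OD
open scoped MatrixGroups

variable {ι : Type} [Fintype ι] [DecidableEq ι] {F : Type*} [Field F] (Q : (ι → F) → F)

/-- DSKEVEN: a skew isometry (`M² = -1`) has no invariant nondegenerate subspace of odd
dimension. -/
theorem od_skew_even (hQ : IsNondegenerateQuadraticForm Q) (h2 : (2 : F) ≠ 0)
    (M : Matrix ι ι F) (hM : ∀ v, Q (M.mulVec v) = Q v) (hM2 : M * M = -1)
    (W : Submodule F (ι → F)) (hW : W.map (Matrix.toLin' M) ≤ W) (hnd : ONd Q W) :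
    Even (finrank F W) := by
  have hD : Cfsg.Agent.Helper90.HT.HNondegOn
      (Cfsg.Agent.Helper43.OT.ph (Cfsg.Agent.Helper98.op_qf Q hQ)) W := by
    intro v hv hvw
    by_contra hv0
    obtain ⟨-, x, hx, hne⟩ := hnd v hv hv0
    exact hne (hvw x hx)
  have hT : ∀ v, (Cfsg.Agent.Helper98.op_qf Q hQ) (Matrix.toLin' M v)
      = (Cfsg.Agent.Helper98.op_qf Q hQ) v := by
    intro v
    rw [Matrix.toLin'_apply]
    exact hM v
  have hT2 : ∀ v, Matrix.toLin' M (Matrix.toLin' M v) = -v := by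
    intro v
    rw [Matrix.toLin'_apply, Matrix.toLin'_apply, Matrix.mulVec_mulVec, hM2, Matrix.neg_mulVec,
      Matrix.one_mulVec]
  exact Cfsg.Agent.Helper93.NP5989.neg_even_abs
    (Cfsg.Agent.Helper43.OT.ph (Cfsg.Agent.Helper98.op_qf Q hQ))
    (Cfsg.Agent.Helper43.OT.isHerm_ph _) h2 (Matrix.toLin' M)
    (Cfsg.Agent.Helper43.OT.hpres_ph (Cfsg.Agent.Helper98.op_qf Q hQ) (Matrix.toLin' M) hT)
    hT2 W hW hD

end Cfsg.Agent.Helper93.OD59
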