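import Mathlib
import Cfsg.Agent.Helper96.OHDefs
import Cfsg.Agent.Helper69.ODDefs
import Cfsg.Agent.Helper33.ODDSBASIS
import Cfsg.Agent.Helper59.NPUNIV

set_option autoImplicit false
set_option linter.unusedSectionVars false
set_option linter.unusedVariables false

/-!
# CALL OD (helper69; rows S5989 + S5991), piece DSLINE (double by helper93): `ods_line`.
A nondegenerate subspace of dimension `≥ 2` has nonsingular vectors of both discriminant classes.
-/

namespace Cfsg.Agent.Helper93.OD59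

open Module Polynomial Cfsg Cfsg.Geo
open Cfsg.Agent.Helper13.TIu Cfsg.Agent.Helper96.OH Cfsg.Agent.Helper69.OD
open scoped MatrixGroups

variable {ι : Type} [Fintype ι] [DecidableEq ι] {F : Type*} [Field F] (Q : (ι → F) → F)

/-- DSLINE: a nondegenerate subspace of dimension `≥ 2` has nonsingular vectors of both classes. -/
theorem ods_line [Fintype F] (hQ : IsNondegenerateQuadraticForm Q) (h2 : (2 : F) ≠ 0)
    (K : Submodule F (ι → F)) (hK : ONd Q K) (hdim : 2 ≤ finrank F K) (b : Prop) :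
    ∃ v ∈ K, Q v ≠ 0 ∧ ONd Q (Submodule.span F {v}) ∧ finrank F (Submodule.span F {v}) = 1 ∧
      (ODs Q (Submodule.span F {v}) ↔ b) := by
  classical
  obtain ⟨t, ht0, htb⟩ : ∃ t : F, t ≠ 0 ∧ (IsSquare (2 * t) ↔ b) := by
    by_cases hb : b
    · refine ⟨2⁻¹, inv_ne_zero h2, ?_⟩
      rw [mul_inv_cancel₀ h2]
      exact ⟨fun _ => hb, fun _ => ⟨1, (mul_one 1).symm⟩⟩
    · obtain ⟨ε, hε⟩ := FiniteField.exists_nonsquare
        (Cfsg.Agent.Helper13.ringChar_ne_two_of_two_ne_zero h2)
      have hε0 : ε ≠ 0 := by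
        rintro rfl
        exact hε ⟨0, (mul_zero 0).symm⟩
      refine ⟨2⁻¹ * ε, mul_ne_zero (inv_ne_zero h2) hε0, ?_⟩
      rw [← mul_assoc, mul_inv_cancel₀ h2, one_mul]
      exact ⟨fun h => absurd h hε, fun h => absurd h hb⟩
  obtain ⟨v, hvK, hQv⟩ := Cfsg.Agent.Helper59.NP5989.np_univ Q hQ h2 K hK hdim t ht0
  have hQv0 : Q v ≠ 0 := by
    rw [hQv]
    exact ht0
  have hQ0 : Q 0 = 0 := by
    have h := hQ.smul 0 0
    rw [zero_smul] at h
    rw [h]
    ring
  have hv0 : v ≠ 0 := by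
    rintro rfl
    exact hQv0 hQ0
  have hpolcd : ∀ c d : F, QuadraticMap.polar Q (c • v) (d • v) = c * d * (2 * Q v) := by
    intro c d
    unfold QuadraticMap.polar
    rw [← add_smul, hQ.smul, hQ.smul, hQ.smul]
    ring
  have hpol : QuadraticMap.polar Q v v = 2 * Q v := by
    have h := hpolcd 1 1
    rw [one_smul, one_mul, one_mul] at h
    exact h
  have hmem : v ∈ Submodule.span F {v} := Submodule.mem_span_singleton_self v
  have hnd : ONd Q (Submodule.span F {v}) := by
    intro w hw hw0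
    obtain ⟨c, rfl⟩ := Submodule.mem_span_singleton.1 hw
    have hc : c ≠ 0 := by
      rintro rfl
      exact hw0 (zero_smul _ _)
    have hne : c * (2 * Q v) ≠ 0 := mul_ne_zero hc (mul_ne_zero h2 hQv0)
    refine ⟨⟨v, hmem, ?_⟩, ⟨v, hmem, ?_⟩⟩
    · have h := hpolcd 1 c
      rw [one_smul, one_mul] at h
      rw [h]
      exact hne
    · have h := hpolcd c 1
      rw [one_smul, mul_one] at h
      rw [h]
      exact hne
  obtain ⟨w, hw⟩ : ∃ w : Unit → ↥(Submodule.span F {v}), ∀ i, ((w i : ↥(Submodule.span F {v})) : ι → F) = v :=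
    ⟨fun _ => ⟨v, hmem⟩, fun _ => rfl⟩
  have hli : LinearIndependent F w := by
    rw [linearIndependent_unique_iff]
    intro h
    apply hv0
    rw [← hw default, h]
    rfl
  have hsp : ⊤ ≤ Submodule.span F (Set.range w) := by
    rintro ⟨x, hx⟩ -
    obtain ⟨c, rfl⟩ := Submodule.mem_span_singleton.1 hx
    have h1 : (⟨c • v, hx⟩ : ↥(Submodule.span F {v})) = c • w () := by
      apply Subtype.ext
      rw [Submodule.coe_smul, hw]
    rw [h1]
    exact Submodule.smul_mem _ _ (Submodule.subset_span ⟨(), rfl⟩)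
  have he : ∀ i, ((Basis.mk hli hsp i : ↥(Submodule.span F {v})) : ι → F) = v := by
    intro i
    rw [Basis.mk_apply, hw]
  refine ⟨v, hvK, hQv0, hnd, finrank_span_singleton hv0, ?_⟩
  rw [Cfsg.Agent.Helper33.OD59.ods_iff_basis Q hQ _ (Basis.mk hli hsp), Matrix.det_unique,
    Matrix.of_apply, he, hpol, hQv]
  exact htb

end Cfsg.Agent.Helper93.OD59
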