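import Mathlib
import Cfsg.Agent.Helper43.OTDefs

set_option autoImplicit false

/-!
# CALL OT (S5972, helper43), piece CNTA, core: the number of totally singular frames of the standard
odd quadratic space, given the count CNTPERP as a hypothesis.
-/

namespace Cfsg.Agent.Helper93.OT5972

open Module Polynomial Cfsg.Agent.Helper90.HT Cfsg.Agent.Helper43.OT

universe u

section count3

theorem cnta_span_sing {F : Type u} [Field F] (h2 : (2 : F) ≠ 0) (d m : ℕ)
    (v : Fin m → (Unit ⊕ (Fin d ⊕ Fin d) → F))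
    (hp : ∀ a b, QuadraticMap.polar (Cfsg.quadFormOdd d F) (v a) (v b) = 0)
    (x : Unit ⊕ (Fin d ⊕ Fin d) → F) (hx : x ∈ Submodule.span F (Set.range v)) :
    Cfsg.quadFormOdd d F x = 0 ∧
      ∀ a, QuadraticMap.polar (Cfsg.quadFormOdd d F) (v a) x = 0 := by
  have hh := isHerm_ph (Cfsg.Agent.Helper43.oddQF d F)
  have h1 : ∀ y ∈ Submodule.span F (Set.range v), ∀ a,
      ph (Cfsg.Agent.Helper43.oddQF d F) (v a) y = 0 := by
    intro y hy a
    induction hy using Submodule.span_induction with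
    | mem z hz => obtain ⟨b, rfl⟩ := hz; exact hp a b
    | zero => exact hh.zero_right _
    | add z w _ _ hz hw => rw [hh.add_right, hz, hw, add_zero]
    | smul c z _ hz => rw [hh.smul_right, hz, mul_zero]
  have h3 : ∀ y ∈ Submodule.span F (Set.range v), ∀ z ∈ Submodule.span F (Set.range v),
      ph (Cfsg.Agent.Helper43.oddQF d F) y z = 0 := by
    intro y hy z hz
    induction hy using Submodule.span_induction with
    | mem w hw => obtain ⟨b, rfl⟩ := hw; exact h1 z hz b
    | zero => exact hh.zero_left _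
    | add w w' _ _ hw hw' => rw [hh.add_left, hw, hw', add_zero]
    | smul c w _ hw => rw [hh.smul_left, hw, mul_zero]
  refine ⟨?_, fun a => h1 x hx a⟩
  have h4 := h3 x hx x hx
  rw [ph_self] at h4
  exact (mul_eq_zero.mp h4).resolve_left h2

theorem cnta_polar_self {F : Type u} [Field F] (d : ℕ) (x : Unit ⊕ (Fin d ⊕ Fin d) → F)
    (hx : Cfsg.quadFormOdd d F x = 0) :
    QuadraticMap.polar (Cfsg.quadFormOdd d F) x x = 0 := by
  have h := ph_self (Cfsg.Agent.Helper43.oddQF d F) x
  have h' : QuadraticMap.polar (Cfsg.quadFormOdd d F) x x = 2 * Cfsg.quadFormOdd d F x := h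
  rw [h', hx, mul_zero]

theorem cnta_fibre {F : Type u} [Field F] [Fintype F] (h2 : (2 : F) ≠ 0) (d m : ℕ)
    (v : Fin m → (Unit ⊕ (Fin d ⊕ Fin d) → F)) (hli : LinearIndependent F v)
    (hp : ∀ a b, QuadraticMap.polar (Cfsg.quadFormOdd d F) (v a) (v b) = 0)
    (hperp : Nat.card {w : Unit ⊕ (Fin d ⊕ Fin d) → F // Cfsg.quadFormOdd d F w = 0 ∧
      ∀ a, QuadraticMap.polar (Cfsg.quadFormOdd d F) (v a) w = 0} =
        Fintype.card F ^ (2 * d - m)) :
    Nat.card {x : Unit ⊕ (Fin d ⊕ Fin d) → F // x ∉ Submodule.span F (Set.range v) ∧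
      Cfsg.quadFormOdd d F x = 0 ∧
        ∀ a, QuadraticMap.polar (Cfsg.quadFormOdd d F) (v a) x = 0} =
      Fintype.card F ^ (2 * d - m) - Fintype.card F ^ m := by
  classical
  have hcW : Nat.card (Submodule.span F (Set.range v)) = Fintype.card F ^ m := by
    rw [Module.natCard_eq_pow_finrank (K := F), finrank_span_eq_card hli, Fintype.card_fin,
      Nat.card_eq_fintype_card]
  have hset : {x : Unit ⊕ (Fin d ⊕ Fin d) → F | x ∉ Submodule.span F (Set.range v) ∧
      Cfsg.quadFormOdd d F x = 0 ∧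
        ∀ a, QuadraticMap.polar (Cfsg.quadFormOdd d F) (v a) x = 0} =
      {w : Unit ⊕ (Fin d ⊕ Fin d) → F | Cfsg.quadFormOdd d F w = 0 ∧
        ∀ a, QuadraticMap.polar (Cfsg.quadFormOdd d F) (v a) w = 0} \
        (Submodule.span F (Set.range v) : Set (Unit ⊕ (Fin d ⊕ Fin d) → F)) := by
    ext x
    simp only [Set.mem_ofPred_eq, Set.mem_sdiff, SetLike.mem_coe]
    tauto
  have hsub : (Submodule.span F (Set.range v) : Set (Unit ⊕ (Fin d ⊕ Fin d) → F)) ⊆
      {w : Unit ⊕ (Fin d ⊕ Fin d) → F | Cfsg.quadFormOdd d F w = 0 ∧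
        ∀ a, QuadraticMap.polar (Cfsg.quadFormOdd d F) (v a) w = 0} :=
    fun x hx => cnta_span_sing h2 d m v hp x hx
  have h1 : Nat.card {x : Unit ⊕ (Fin d ⊕ Fin d) → F // x ∉ Submodule.span F (Set.range v) ∧
      Cfsg.quadFormOdd d F x = 0 ∧
        ∀ a, QuadraticMap.polar (Cfsg.quadFormOdd d F) (v a) x = 0} =
      Set.ncard {x : Unit ⊕ (Fin d ⊕ Fin d) → F | x ∉ Submodule.span F (Set.range v) ∧
      Cfsg.quadFormOdd d F x = 0 ∧
        ∀ a, QuadraticMap.polar (Cfsg.quadFormOdd d F) (v a) x = 0} := Nat.card_coe_set_eq _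
  rw [h1, hset, Set.ncard_sdiff hsub (Set.toFinite _), ← Nat.card_coe_set_eq,
    ← Nat.card_coe_set_eq]
  exact congrArg₂ (· - ·) hperp hcW

/-- Splitting off the last vector of a totally singular independent family. -/
noncomputable def cntaEquivO (F : Type u) [Field F] (d m : ℕ) : TSFam F d (m + 1) ≃
    Σ s : TSFam F d m, {x : Unit ⊕ (Fin d ⊕ Fin d) → F //
      x ∉ Submodule.span F (Set.range s.1) ∧ Cfsg.quadFormOdd d F x = 0 ∧
        ∀ a, QuadraticMap.polar (Cfsg.quadFormOdd d F) (s.1 a) x = 0} where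
  toFun u :=
    ⟨⟨Fin.init u.1,
        (linearIndependent_finSnoc.mp (by rw [Fin.snoc_init_self]; exact u.2.1)).1,
        fun a => u.2.2.1 _, fun a b => u.2.2.2 _ _⟩,
      ⟨u.1 (Fin.last m),
        (linearIndependent_finSnoc.mp (by rw [Fin.snoc_init_self]; exact u.2.1)).2,
        u.2.2.1 _, fun a => u.2.2.2 _ _⟩⟩
  invFun p :=
    ⟨Fin.snoc p.1.1 p.2.1, linearIndependent_finSnoc.mpr ⟨p.1.2.1, p.2.2.1⟩, by
      intro a
      induction a using Fin.lastCases with
      | last => rw [Fin.snoc_last]; exact p.2.2.2.1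
      | cast a => rw [Fin.snoc_castSucc]; exact p.1.2.2.1 a, by
      intro a b
      induction a using Fin.lastCases with
      | last =>
        induction b using Fin.lastCases with
        | last =>
          rw [Fin.snoc_last]
          exact cnta_polar_self d _ p.2.2.2.1
        | cast b =>
          rw [Fin.snoc_last, Fin.snoc_castSucc, QuadraticMap.polar_comm]
          exact p.2.2.2.2 b
      | cast a =>
        induction b using Fin.lastCases with
        | last =>
          rw [Fin.snoc_last, Fin.snoc_castSucc]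
          exact p.2.2.2.2 a
        | cast b =>
          rw [Fin.snoc_castSucc, Fin.snoc_castSucc]
          exact p.1.2.2.2 a b⟩
  left_inv u := Subtype.ext (Fin.snoc_init_self _)
  right_inv p := by
    apply Sigma.subtype_ext
    · apply Subtype.ext
      show Fin.init (Fin.snoc (α := fun _ => Unit ⊕ (Fin d ⊕ Fin d) → F) p.1.1 p.2.1) = p.1.1
      exact Fin.init_snoc _ _
    · show Fin.snoc (α := fun _ => Unit ⊕ (Fin d ⊕ Fin d) → F) p.1.1 p.2.1 (Fin.last m) = p.2.1
      exact Fin.snoc_last _ _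

/-- CNTA with CNTPERP as a hypothesis. -/
theorem ot_cnt_a_of (F : Type u) [Field F] [Fintype F] (h2 : (2 : F) ≠ 0) (d : ℕ)
    (hperp : ∀ (m : ℕ) (_ : m ≤ d) (v : Fin m → (Unit ⊕ (Fin d ⊕ Fin d) → F)),
      LinearIndependent F v → (∀ a, Cfsg.quadFormOdd d F (v a) = 0) →
      (∀ a b, QuadraticMap.polar (Cfsg.quadFormOdd d F) (v a) (v b) = 0) →
      Nat.card {w : Unit ⊕ (Fin d ⊕ Fin d) → F // Cfsg.quadFormOdd d F w = 0 ∧
        ∀ a, QuadraticMap.polar (Cfsg.quadFormOdd d F) (v a) w = 0} =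
        Fintype.card F ^ (2 * d - m))
    (m : ℕ) (hmd : m ≤ d) :
    Nat.card (TSFam F d m) =
      ∏ j ∈ Finset.range m, (Fintype.card F ^ (2 * d - j) - Fintype.card F ^ j) := by
  classical
  induction m with
  | zero =>
    rw [Finset.prod_range_zero]
    have : Subsingleton (TSFam F d 0) := ⟨fun a b => Subtype.ext (Subsingleton.elim _ _)⟩
    have : Nonempty (TSFam F d 0) :=
      ⟨⟨fun a => Fin.elim0 a, linearIndependent_empty_type, fun a => Fin.elim0 a,
        fun a => Fin.elim0 a⟩⟩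
    exact Nat.card_unique
  | succ m ih =>
    have : Finite (TSFam F d m) :=
      Finite.of_injective (fun s : TSFam F d m => (s.1 : Fin m → (Unit ⊕ (Fin d ⊕ Fin d) → F)))
        Subtype.val_injective
    have : Fintype (TSFam F d m) := Fintype.ofFinite _
    have hmd' : m ≤ d := by omega
    have hf : ∀ s : TSFam F d m,
        Nat.card {x : Unit ⊕ (Fin d ⊕ Fin d) → F // x ∉ Submodule.span F (Set.range s.1) ∧
          Cfsg.quadFormOdd d F x = 0 ∧
            ∀ a, QuadraticMap.polar (Cfsg.quadFormOdd d F) (s.1 a) x = 0} =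
          Fintype.card F ^ (2 * d - m) - Fintype.card F ^ m := by
      intro s
      exact cnta_fibre h2 d m s.1 s.2.1 s.2.2.2 (hperp m hmd' s.1 s.2.1 s.2.2.1 s.2.2.2)
    rw [Finset.prod_range_succ, ← ih hmd', Nat.card_congr (cntaEquivO F d m),
      Nat.card_sigma, Finset.sum_congr rfl (fun s _ => hf s),
      Finset.sum_const, Finset.card_univ, smul_eq_mul, Nat.card_eq_fintype_card]

end count3

end Cfsg.Agent.Helper93.OT5972
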