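import Mathlib
import Cfsg.Agent.Helper43.OTDefs
import Cfsg.Agent.Helper33.HTHSUM
import Cfsg.Agent.Helper33.HTHNEG

set_option autoImplicit false

/-!
# CALL OT (S5972, helper43), piece INVA: invariant totally isotropic subspaces of an involution.
-/

namespace Cfsg.Agent.Helper93.OT5972

open Module Polynomial Cfsg.Agent.Helper90.HT Cfsg.Agent.Helper43.OT
open Cfsg.Agent.Helper43.C3O (gm)

universe u

section geom

variable {F : Type*} [Field F] {V : Type*} [AddCommGroup V] [Module F V] [FiniteDimensional F V]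
  (h : V → V → F)

/-- INVA: involutions, existence (uses `ht_sum` with `C = ker (T-1)`, `D = ker (T+1)`). -/
theorem ot_inv_a (hh : IsHerm (RingHom.id F) h) (h2 : (2 : F) ≠ 0) (T : Module.End F V)
    (hT : HPres h T) (hT2 : T ^ 2 = 1) (A₁ A₂ : Submodule F V)
    (hA₁ : A₁ ≤ LinearMap.ker (T - 1)) (hA₂ : A₂ ≤ LinearMap.ker (T + 1)) (h1 : HTI h A₁)
    (h2' : HTI h A₂) (m : ℕ) (hm : m ≤ finrank F A₁ + finrank F A₂) :
    ∃ W : Submodule F V, finrank F W = m ∧ HTI h W ∧ W.map T ≤ W := by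
  have hfix : ∀ x ∈ LinearMap.ker (T - 1), T x = x := by
    intro x hx
    have e := LinearMap.mem_ker.1 hx
    rw [LinearMap.sub_apply, Module.End.one_apply, sub_eq_zero] at e
    exact e
  have hneg : ∀ x ∈ LinearMap.ker (T + 1), T x = -x := by
    intro x hx
    have e := LinearMap.mem_ker.1 hx
    rw [LinearMap.add_apply, Module.End.one_apply, add_eq_zero_iff_eq_neg] at e
    exact e
  have hCD : LinearMap.ker (T - 1) ⊓ LinearMap.ker (T + 1) = ⊥ := by
    rw [eq_bot_iff]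
    intro x hx
    have e1 := hfix x hx.1
    have e2 := hneg x hx.2
    have e3 : (2 : F) • x = 0 := by
      rw [two_smul]
      have : x = -x := e1.symm.trans e2
      nth_rewrite 1 [this]
      simp
    rcases smul_eq_zero.1 e3 with h0 | h0
    · exact absurd h0 h2
    · exact h0
  have hB : ∀ u ∈ LinearMap.ker (T - 1), ∀ v ∈ LinearMap.ker (T + 1), h u v = 0 := by
    intro u hu v hv
    have e := hT u v
    rw [hfix u hu, hneg v hv, hh.neg_right] at e
    have e3 : (2 : F) * h u v = 0 := by linear_combination -e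
    exact (mul_eq_zero.1 e3).resolve_left h2
  obtain ⟨W₁, hW₁le, hW₁dim⟩ :=
    Cfsg.Agent.Helper33.HT5953.hneg_exists_le_finrank_eq A₁ (min m (finrank F A₁))
      (min_le_right _ _)
  obtain ⟨W₂, hW₂le, hW₂dim⟩ :=
    Cfsg.Agent.Helper33.HT5953.hneg_exists_le_finrank_eq A₂ (m - min m (finrank F A₁))
      (by omega)
  obtain ⟨hti, hdim⟩ := Cfsg.Agent.Helper33.HT5953.ht_sum (RingHom.id F) h hh W₁ W₂ _ _
    (hW₁le.trans hA₁) (hW₂le.trans hA₂) hCD hB
    (fun u hu v hv => h1 u (hW₁le hu) v (hW₁le hv))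
    (fun u hu v hv => h2' u (hW₂le hu) v (hW₂le hv))
  refine ⟨W₁ ⊔ W₂, ?_, hti, ?_⟩
  · rw [hdim, hW₁dim, hW₂dim]; omega
  · rw [Submodule.map_sup]
    apply sup_le_sup
    · rintro _ ⟨x, hx, rfl⟩
      rw [hfix x (hA₁ (hW₁le hx))]; exact hx
    · rintro _ ⟨x, hx, rfl⟩
      rw [hneg x (hA₂ (hW₂le hx))]; exact W₂.neg_mem hx

end geom

end Cfsg.Agent.Helper93.OT5972
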