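/-
Helper93: every involution of `M24` whose fixed points form an octad is conjugate to `z0`; hence
its centraliser is isomorphic to the centraliser of a transvection in `SL(5, 2)`.
-/
import Cfsg.Agent.Helper93.OctCent
import Cfsg.Agent.Helper93.LargeExtra

set_option autoImplicit false

namespace Cfsg.Agent.Helper93

open Cfsg Cfsg.Agent.Helper7
open scoped Pointwise

/-- The fifteen non-identity elements of `M24` fixing the octad `setOf O0` pointwise, each with
an element conjugating `z0` to it and the inverse of that element (table codes). -/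
def tConjL : List (ℕ × ℕ × ℕ) := [
  (0x5c613a22d56a5ecba9d2394c418820, 0xbdab49ca307b9ac5a928398a418820, 0xbdab49ca307b9ac5a928398a418820),
  (0x7d6c971a11bcd6c6aa853c90418820, 0xbc4d5b2e124968479d0d13a6302981, 0xbce8d2c2d159901909e9555cc21c03),
  (0xb5de894d6da9a0c8a8b43b92418820, 0xbb4c92ca0e43e84b2ab31ae2010587, 0xbad2d448b1742c132a8f0566c38c44),
  (0x33a70abd349590c2aa2d3dd6418820, 0xbad2d448b1742c132a8f0566c38c44, 0xbb4c92ca0e43e84b2ab31ae2010587),
  (0x94dd1b5e89354ac42a0b3bda418820, 0xbce8d2c2d159901909e9555cc21c03, 0xbc4d5b2e124968479d0d13a6302981),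
  (0x8adb2452ef816acb28d33a5c418820, 0x5de8f8563299900b092d615c70a883, 0xb2e557c233a1507b892d238c10286c),
  (0x451368ae6e2c0cc92ab73b5e418820, 0xab9a8bca062d1e7486cb6466322840, 0x9a6ee2c8d16daa740974641e320540),
  (0x9c8cbbd90573d2ca29b13d60418820, 0x5a20e79a254cda1a0ef515a4723140, 0x4990b716359d1a2b85f624a0351d80),
  (0x71a4d7d4a89de8c4a9703da2418820, 0xbaea6b45328350c7068513e6302887, 0xbcea92c24f32dccb0a2d0510121d43),
  (0x6c22e496b65d2ec7aa663a24418820, 0xb963684e55722836a8c93bd6403041, 0xbd20d946b333d622a90e3a6c460403),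
  (0x835662a5f78a2ccaaa4e3d26418820, 0x72d2f89ab2b960143274559a338082, 0x79a284c26da5caab1eab1c9c120182),
  (0xabee5339abb4a2c829093ce8418820, 0x9ca367d5cd5a601311175168c18047, 0x45245bdaad9c60479dc902cca18582),
  (0xa20b75c6464b5cc9a9f63c2a418820, 0xbbaab9bda595a2aa310939a0320820, 0xbbaab9bda595a2aa310939a0320820),
  (0x4950f6c0d2a2e6c72af53c6c418820, 0x4990b716359d1a2b85f624a0351d80, 0x5a20e79a254cda1a0ef515a4723140),
  (0x2a695835d34464c32acf3aee418820, 0xbd20d946b333d622a90e3a6c460403, 0xb963684e55722836a8c93bd6403041)]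

theorem tConjL_ok : tConjL.all (fun x => codeM24 x.2.1 && validCode x.2.2 &&
    Nat.beq (comp x.2.1 x.2.2) idCode && Nat.beq (comp (comp x.2.1 z0code) x.2.2) x.1 &&
    O0pts.all (fun k => Nat.beq (tbl x.1 k) k)) = true := by decide +kernel

theorem tConjL_cover : ∀ k, k < 24 → O0.testBit k = false → k ≠ 5 →
    tConjL.any (fun x => Nat.beq (tbl x.1 5) k) = true := by decide +kernel

theorem pt5_not_mem : pt 5 ∉ setOf O0 := by
  rw [mem_setOf, idx_pt (by norm_num)]
  decide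

theorem fixO0_le_octS : M24 ⊓ fixL O0pts ≤ octS := by
  intro g hg
  refine ⟨hg.1, fixing_le_stabilizer _ ?_⟩
  rw [fixing_O0]
  exact hg.2

/-- A non-identity element of `M24` fixing the octad `setOf O0` pointwise is conjugate to `z0`. -/
theorem conj_z0 {g : Equiv.Perm GolayPt} (hg : g ∈ M24 ⊓ fixL O0pts) (h1 : g ≠ 1) :
    ∃ h ∈ M24, h * z0 * h⁻¹ = g := by
  have hq : g (pt 5) ∉ setOf O0 := octS_not_mem (fixO0_le_octS hg) pt5_not_mem
  have hq5 : idx (g (pt 5)) ≠ 5 := by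
    intro h
    apply h1
    apply fix_O0_free pt5_not_mem hg
    apply idx_injective
    rw [h, idx_pt (by norm_num)]
  have hcov := tConjL_cover _ (idx_lt _) (by
    rw [mem_setOf, Bool.not_eq_true] at hq; exact hq) hq5
  rw [List.any_eq_true] at hcov
  obtain ⟨⟨c, d, d'⟩, hx, hk⟩ := hcov
  have hok := List.all_eq_true.mp tConjL_ok _ hx
  simp only [Bool.and_eq_true] at hok
  obtain ⟨⟨⟨⟨hd, hd'⟩, hdd⟩, hc⟩, hfix⟩ := hok
  have hdT : IsTbl (permOf d) d := by
    have h := hd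
    rw [codeM24, Bool.and_eq_true] at h
    exact isTbl_permOf h.1
  have hdT' : IsTbl (permOf d') d' := isTbl_permOf hd'
  have hinv : permOf d * permOf d' = 1 := by
    have h2 := hdT.mul hdT'
    rw [Nat.eq_of_beq_eq_true hdd] at h2
    exact h2.eq IsTbl.one
  have hinv' : (permOf d)⁻¹ = permOf d' := inv_eq_of_mul_eq_one_right hinv
  have hcT : IsTbl (permOf d * z0 * (permOf d)⁻¹) c := by
    rw [hinv']
    have h2 := (hdT.mul z0_tbl).mul hdT'
    rw [Nat.eq_of_beq_eq_true hc] at h2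
    exact h2
  have hdM : permOf d ∈ M24 := permOf_mem_M24 hd
  refine ⟨permOf d, hdM, ?_⟩
  have hmem : permOf d * z0 * (permOf d)⁻¹ ∈ M24 ⊓ fixL O0pts := by
    refine ⟨M24.mul_mem (M24.mul_mem hdM z0_mem) (M24.inv_mem hdM), ?_⟩
    intro j hj
    have hj24 : j < 24 := by
      have : ∀ j ∈ O0pts, j < 24 := by decide
      exact this j hj
    rw [hcT.apply_pt hj24, Nat.eq_of_beq_eq_true (List.all_eq_true.mp hfix j hj)]
  have h3 : (permOf d * z0 * (permOf d)⁻¹)⁻¹ * g = 1 := by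
    apply fix_O0_free pt5_not_mem (Subgroup.mul_mem _ (Subgroup.inv_mem _ hmem) hg)
    rw [Equiv.Perm.mul_apply, Equiv.Perm.inv_eq_iff_eq, hcT.apply_pt (by norm_num),
      Nat.eq_of_beq_eq_true hk, pt_idx]
  exact (inv_mul_eq_one.mp h3)

/-- An involution of `M24` whose fixed points form an octad is conjugate to `z0`. -/
theorem exists_conj_z0 (z : ↥M24) (hz : orderOf z = 2)
    (hfix : (Finset.univ.filter fun p : GolayPt => (z : Equiv.Perm GolayPt) p = p) ∈ octads) :
    ∃ k : ↥M24, z = k * ⟨z0, z0_mem⟩ * k⁻¹ := by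
  obtain ⟨h1, hh1, ho⟩ := octad_eq_smul_O0 hfix
  have hz' : h1⁻¹ * z.1 * h1 ∈ M24 ⊓ fixL O0pts := by
    refine Subgroup.mem_inf.mpr ⟨M24.mul_mem (M24.mul_mem (M24.inv_mem hh1) z.2) hh1, ?_⟩
    rw [← fixing_O0, mem_fixingSubgroup_iff]
    intro y hy
    have h2 : h1 • y ∈ h1 • setOf O0 := Finset.smul_mem_smul_finset (Finset.mem_coe.mp hy)
    rw [ho, Finset.mem_filter] at h2
    have h3 : (z : Equiv.Perm GolayPt) (h1 y) = h1 y := h2.2
    rw [Equiv.Perm.smul_def, Equiv.Perm.mul_apply, Equiv.Perm.mul_apply, h3]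
    simp
  have hne : h1⁻¹ * z.1 * h1 ≠ 1 := by
    intro h
    have e : z.1 = h1 * (h1⁻¹ * z.1 * h1) * h1⁻¹ := by group
    have h2 : z.1 = 1 := by
      rw [e, h]; group
    have h3 : z = 1 := Subtype.ext h2
    rw [h3, orderOf_one] at hz
    norm_num at hz
  obtain ⟨h2, hh2, e⟩ := conj_z0 hz' hne
  refine ⟨⟨h1 * h2, M24.mul_mem hh1 hh2⟩, Subtype.ext ?_⟩
  show z.1 = h1 * h2 * z0 * (h1 * h2)⁻¹
  have e2 : z.1 = h1 * (h1⁻¹ * z.1 * h1) * h1⁻¹ := by group
  rw [e2, ← e]
  group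

/-- The centraliser in `M24` of an involution whose fixed points form an octad is isomorphic to
the centraliser of a transvection in `SL(5, 2)`. -/
theorem cent_iso_octad (z : ↥M24) (hz : orderOf z = 2)
    (hfix : (Finset.univ.filter fun p : GolayPt => (z : Equiv.Perm GolayPt) p = p) ∈ octads)
    (s : SL5) (hs : (s : Matrix (Fin 5) (Fin 5) (ZMod 2)) = Matrix.transvection 0 1 1) :
    Nonempty (↥(Subgroup.centralizer ({z} : Set ↥M24)) ≃*
      ↥(Subgroup.centralizer ({s} : Set SL5))) := by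
  obtain ⟨k, rfl⟩ := exists_conj_z0 z hz hfix
  obtain ⟨φ⟩ := cent_z0_iso s hs
  rw [centralizer_conj]
  exact ⟨((MulEquiv.subgroupMap (MulAut.conj k) _).symm).trans φ⟩

end Cfsg.Agent.Helper93
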