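/-
Helper93: in `M24`, the `2`-core of the centraliser of an involution fixing an octad pointwise
normalises no non-trivial subgroup of odd order; structure of that centraliser.
-/
import Cfsg.Agent.Helper93.OctConj
import Cfsg.Agent.Helper93.CentTransfer

set_option autoImplicit false

namespace Cfsg.Agent.Helper93

open Cfsg Cfsg.Agent.Helper7
open scoped Pointwise

/-- The pointwise stabiliser in `M24` of a finset. -/
def fixT (o : Finset GolayPt) : Subgroup (Equiv.Perm GolayPt) :=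
  M24 ⊓ fixingSubgroup (Equiv.Perm GolayPt) (o : Set GolayPt)

theorem mem_fixT {o : Finset GolayPt} {g : Equiv.Perm GolayPt} :
    g ∈ fixT o ↔ g ∈ M24 ∧ ∀ p ∈ o, g p = p := by
  rw [fixT, Subgroup.mem_inf, mem_fixingSubgroup_iff]
  constructor
  · rintro ⟨h1, h2⟩
    exact ⟨h1, fun p hp => h2 p (Finset.mem_coe.mpr hp)⟩
  · rintro ⟨h1, h2⟩
    exact ⟨h1, fun p hp => h2 p (Finset.mem_coe.mp hp)⟩

theorem fixT_sq {o : Finset GolayPt} (ho : o ∈ octads) {g : Equiv.Perm GolayPt}
    (hg : g ∈ fixT o) : g * g = 1 := (octad_fixing ho).2 g hg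

theorem fixT_fix_iff {o : Finset GolayPt} (ho : o ∈ octads) {t : Equiv.Perm GolayPt}
    (ht : t ∈ fixT o) (h1 : t ≠ 1) (p : GolayPt) : t p = p ↔ p ∈ o := by
  constructor
  · intro h
    by_contra hp
    exact h1 (octad_fix_free ho hp ht h)
  · intro hp
    exact (mem_fixT.mp ht).2 p hp

theorem pres_of_comm {o : Finset GolayPt} (ho : o ∈ octads) {t : Equiv.Perm GolayPt}
    (ht : t ∈ fixT o) (h1 : t ≠ 1) {k : Equiv.Perm GolayPt} (hk : k * t = t * k) (p : GolayPt) :
    k p ∈ o ↔ p ∈ o := by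
  rw [← fixT_fix_iff ho ht h1, ← fixT_fix_iff ho ht h1 p]
  have h : t (k p) = k (t p) := by
    have h2 := congrArg (fun f : Equiv.Perm GolayPt => f p) hk
    exact h2.symm
  rw [h]
  exact k.apply_eq_iff_eq

theorem conj_mem_fixT {o : Finset GolayPt} {k : Equiv.Perm GolayPt} (hk : k ∈ M24)
    (hpres : ∀ p, k p ∈ o ↔ p ∈ o) {t : Equiv.Perm GolayPt} (ht : t ∈ fixT o) :
    k * t * k⁻¹ ∈ fixT o := by
  rw [mem_fixT] at ht ⊢
  refine ⟨M24.mul_mem (M24.mul_mem hk ht.1) (M24.inv_mem hk), fun p hp => ?_⟩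
  have h1 : k⁻¹ p ∈ o := by
    rw [← hpres]
    simpa using hp
  rw [Equiv.Perm.mul_apply, Equiv.Perm.mul_apply, ht.2 _ h1]
  simp

theorem odd_pow_of_sq {t : Equiv.Perm GolayPt} (ht : t * t = 1) {n : ℕ} (hn : Odd n) :
    t ^ n = t := by
  obtain ⟨m, rfl⟩ := hn
  rw [pow_succ, pow_mul, pow_two, ht, one_pow, one_mul]

/-- A subgroup of odd order of `M24` normalised by the pointwise stabiliser of an octad is
trivial. -/
theorem odd_normalized_trivial {o : Finset GolayPt} (ho : o ∈ octads)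
    (K : Subgroup (Equiv.Perm GolayPt)) (hK : K ≤ M24) (hodd : Odd (Nat.card K))
    (hT : ∀ t ∈ fixT o, ∀ k ∈ K, t * k * t⁻¹ ∈ K) : K = ⊥ := by
  have hord : ∀ k ∈ K, Odd (orderOf k) := by
    intro k hk
    have h1 : orderOf (⟨k, hk⟩ : ↥K) ∣ Nat.card K := orderOf_dvd_natCard _
    rw [Subgroup.orderOf_mk] at h1
    exact hodd.of_dvd_nat h1
  have key1 : ∀ t ∈ fixT o, t ≠ 1 → ∀ k ∈ K, k * t = t * k → k = 1 := by
    intro t ht ht1 k hk hkt
    have hpres := pres_of_comm ho ht ht1 hkt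
    have hkM := hK hk
    have hcomm : ∀ t' ∈ fixT o, t' * k = k * t' := by
      intro t' ht'
      have hc1 : t' * k * t'⁻¹ * k⁻¹ ∈ K := K.mul_mem (hT t' ht' k hk) (K.inv_mem hk)
      have hc2 : t' * k * t'⁻¹ * k⁻¹ ∈ fixT o := by
        have h := (fixT o).mul_mem ht' (conj_mem_fixT hkM hpres ((fixT o).inv_mem ht'))
        have e : t' * (k * t'⁻¹ * k⁻¹) = t' * k * t'⁻¹ * k⁻¹ := by group
        rw [e] at h
        exact h
      have hc3 := fixT_sq ho hc2
      have hc4 : t' * k * t'⁻¹ * k⁻¹ = 1 := by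
        have ho1 := hord _ hc1
        have hd : orderOf (t' * k * t'⁻¹ * k⁻¹) ∣ 2 :=
          orderOf_dvd_of_pow_eq_one (by rw [pow_two]; exact hc3)
        have h1 : orderOf (t' * k * t'⁻¹ * k⁻¹) = 1 := by
          rcases (Nat.dvd_prime Nat.prime_two).mp hd with h | h
          · exact h
          · rw [h] at ho1
            exact absurd ho1 (by decide)
        exact orderOf_eq_one_iff.mp h1
      have e : t' * k = (t' * k * t'⁻¹ * k⁻¹) * (k * t') := by group
      rw [e, hc4, one_mul]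
    apply eq_one_of_nine_fixed hkM
    have hsub : (Finset.univ \ o) ⊆ Finset.univ.filter (fun p => k p = p) := by
      intro p hp
      have hp' : p ∉ o := (Finset.mem_sdiff.mp hp).2
      have hkp : k p ∉ o := fun h => hp' ((hpres p).mp h)
      obtain ⟨t', ht', htp⟩ := octad_fix_trans ho hp' hkp
      have hpow : ∀ n : ℕ, (k ^ n) p = (t' ^ n) p := by
        intro n
        induction n with
        | zero => simp
        | succ n ih =>
          have hc : t' ^ n * k = k * t' ^ n := (Commute.pow_left (hcomm t' ht') n).eq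
          rw [pow_succ', pow_succ, Equiv.Perm.mul_apply, Equiv.Perm.mul_apply, ih, htp,
            ← Equiv.Perm.mul_apply, ← Equiv.Perm.mul_apply, hc]
      have h1 := hpow (orderOf k)
      rw [pow_orderOf_eq_one, odd_pow_of_sq (fixT_sq ho ht') (hord k hk), Equiv.Perm.one_apply,
        htp] at h1
      exact Finset.mem_filter.mpr ⟨Finset.mem_univ _, h1.symm⟩
    have hc : (Finset.univ \ o).card = 16 := by
      rw [Finset.card_sdiff_of_subset (Finset.subset_univ _), Finset.card_univ, card_golayPt, ho.2]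
    have := Finset.card_le_card hsub
    omega
  have key2 : ∀ t ∈ fixT o, t ≠ 1 → ∀ k ∈ K, t * k * t⁻¹ = k⁻¹ := by
    intro t ht ht1
    have htt := fixT_sq ho ht
    have htinv : t⁻¹ = t := inv_eq_of_mul_eq_one_right htt
    let f : ↥K → ↥K := fun k =>
      ⟨k.1⁻¹ * (t * k.1 * t⁻¹), K.mul_mem (K.inv_mem k.2) (hT t ht k.1 k.2)⟩
    have hf : Function.Injective f := by
      intro k k' h
      have h1 : k.1⁻¹ * (t * k.1 * t⁻¹) = k'.1⁻¹ * (t * k'.1 * t⁻¹) := congrArg Subtype.val h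
      have h2 : (k'.1 * k.1⁻¹) * t = t * (k'.1 * k.1⁻¹) := by
        have e : k'.1 * k.1⁻¹ * t = k'.1 * (k.1⁻¹ * (t * k.1 * t⁻¹)) * t * k.1⁻¹ := by group
        rw [e, h1]
        group
      have h3 := key1 t ht ht1 _ (K.mul_mem k'.2 (K.inv_mem k.2)) h2
      apply Subtype.ext
      exact (mul_inv_eq_one.mp h3).symm
    have hfin : Finite ↥K := Nat.finite_of_card_ne_zero (by
      intro h
      rw [h] at hodd
      exact absurd hodd (by decide))
    have hsurj := Finite.injective_iff_surjective.mp hf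
    intro k hk
    obtain ⟨x, hx⟩ := hsurj ⟨k, hk⟩
    have hx' : x.1⁻¹ * (t * x.1 * t⁻¹) = k := congrArg Subtype.val hx
    rw [← hx', htinv]
    have e1 : t * (x.1⁻¹ * (t * x.1 * t)) * t = t * x.1⁻¹ * t * x.1 * (t * t) := by group
    have e2 : (x.1⁻¹ * (t * x.1 * t))⁻¹ = t⁻¹ * x.1⁻¹ * t⁻¹ * x.1 := by group
    rw [e1, e2, htt, htinv, mul_one]
  have hcard : 2 < (Finset.univ \ o).card := by
    rw [Finset.card_sdiff_of_subset (Finset.subset_univ _), Finset.card_univ, card_golayPt, ho.2]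
    norm_num
  obtain ⟨a, ha, b, hb, c, hc, hab, hac, hbc⟩ := Finset.two_lt_card.mp hcard
  have ha' : a ∉ o := (Finset.mem_sdiff.mp ha).2
  have hb' : b ∉ o := (Finset.mem_sdiff.mp hb).2
  have hc' : c ∉ o := (Finset.mem_sdiff.mp hc).2
  obtain ⟨t1, ht1, h1⟩ := octad_fix_trans ho ha' hb'
  obtain ⟨t2, ht2, h2⟩ := octad_fix_trans ho ha' hc'
  have ht1ne : t1 ≠ 1 := by
    rintro rfl
    exact hab h1
  have ht2ne : t2 ≠ 1 := by
    rintro rfl
    exact hac h2
  have ht12 : t1 * t2 ≠ 1 := by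
    intro h
    have e : t2 = t1 := by
      have h3 := fixT_sq ho ht1
      calc t2 = (t1 * t1) * t2 := by rw [h3, one_mul]
        _ = t1 * (t1 * t2) := by group
        _ = t1 := by rw [h, mul_one]
    rw [e, h1] at h2
    exact hbc h2
  rw [Subgroup.eq_bot_iff_forall]
  intro k hk
  apply key1 (t1 * t2) ((fixT o).mul_mem ht1 ht2) ht12 k hk
  have e1 := key2 t1 ht1 ht1ne k hk
  have e2 := key2 t2 ht2 ht2ne k hk
  have e3 : t1 * t2 * k = t1 * (t2 * k * t2⁻¹) * t1⁻¹ * (t1 * t2) := by group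
  have e4 : t1 * k⁻¹ * t1⁻¹ = (t1 * k * t1⁻¹)⁻¹ := by group
  rw [e3, e2, e4, e1, inv_inv]

/-- In `M24`, the `2`-core of the centraliser of an involution whose fixed points form an octad
normalises no non-trivial subgroup of odd order. -/
theorem odd_trivial_M24 (z : ↥M24) (hz : orderOf z = 2)
    (hfix : (Finset.univ.filter fun p : GolayPt => (z : Equiv.Perm GolayPt) p = p) ∈ octads)
    (K : Subgroup ↥M24) (hodd : Odd (Nat.card K))
    (hQ : O2in (Subgroup.centralizer ({z} : Set ↥M24)) ≤ Subgroup.normalizer (K : Set ↥M24)) :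
    K = ⊥ := by
  have hzT : z.1 ∈ fixT (Finset.univ.filter fun p : GolayPt => (z : Equiv.Perm GolayPt) p = p) :=
    mem_fixT.mpr ⟨z.2, fun p hp => (Finset.mem_filter.mp hp).2⟩
  have hz1 : z.1 ≠ 1 := by
    intro h
    have h3 : z = 1 := Subtype.ext h
    rw [h3, orderOf_one] at hz
    norm_num at hz
  have hTQ : (fixT (Finset.univ.filter fun p : GolayPt => (z : Equiv.Perm GolayPt) p = p)).subgroupOf
      M24 ≤ O2in (Subgroup.centralizer ({z} : Set ↥M24)) := by
    apply le_O2in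
    · intro t ht
      rw [Subgroup.mem_subgroupOf] at ht
      rw [Subgroup.mem_centralizer_singleton_iff]
      apply Subtype.ext
      show t.1 * z.1 = z.1 * t.1
      have h1 := fixT_sq hfix ht
      have h2 := fixT_sq hfix hzT
      have h3 := fixT_sq hfix (Subgroup.mul_mem _ ht hzT)
      calc t.1 * z.1 = t.1 * (t.1 * z.1 * (t.1 * z.1)) * z.1 := by rw [h3, mul_one]
        _ = (t.1 * t.1) * (z.1 * t.1) * (z.1 * z.1) := by group
        _ = z.1 * t.1 := by rw [h1, h2, one_mul, mul_one]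
    · intro h hh n hn
      rw [Subgroup.mem_subgroupOf] at hn ⊢
      have hh' := Subgroup.mem_centralizer_singleton_iff.mp hh
      have hpres := pres_of_comm hfix hzT hz1 (congrArg Subtype.val hh')
      exact conj_mem_fixT h.2 hpres hn
    · intro g
      refine ⟨1, ?_⟩
      have h := fixT_sq hfix (Subgroup.mem_subgroupOf.mp g.2)
      rw [pow_one, pow_two]
      exact Subtype.ext (Subtype.ext h)
  have hK' : K.map M24.subtype = ⊥ := by
    apply odd_normalized_trivial hfix (K.map M24.subtype)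
    · rintro _ ⟨k, _, rfl⟩
      exact k.2
    · rw [Subgroup.card_subtype]
      exact hodd
    · intro t ht k hk
      obtain ⟨k', hk', rfl⟩ := hk
      have htN : (⟨t, (mem_fixT.mp ht).1⟩ : ↥M24) ∈ Subgroup.normalizer (K : Set ↥M24) :=
        hQ (hTQ (Subgroup.mem_subgroupOf.mpr ht))
      have h1 := (Subgroup.mem_normalizer_iff.mp htN k').mp hk'
      exact ⟨_, h1, rfl⟩
  exact (Subgroup.map_eq_bot_iff_of_injective K M24.subtype_injective).mp hK'

end Cfsg.Agent.Helper93
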