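import Cfsg.Agent.Helper93.STU3Rows
import Cfsg.Prelude.Def_ChevF4

/-!
# CALL S2103 (helper64), piece CF44: `Cert3 chevF4 3 1`

The witnesses of `Dec` for the pairs `(r, r)` were found by a search outside the repository and
are re-checked here by kernel evaluation.
-/

set_option autoImplicit false
set_option maxRecDepth 1000000

namespace Cfsg.Agent.Helper93.STU3CF4

open Cfsg Cfsg.Lie Cfsg.Agent.Helper36 Cfsg.Agent.Helper64.UC Cfsg.Agent.Helper64.UC3
open Cfsg.Agent.Helper93.STU3

/-- For each root `r` a pair `(a, b)` of roots commuting with `r` with `[x_b, x_a] = x_r(C ..)`. -/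
def selfW : List (ℕ × ℕ × ℤ) :=
  [(1, 23, 1), (0, 24, 1), (0, 26, 1), (7, 14, 1), (0, 31, -1), (0, 32, 1), (1, 32, 1),
   (3, 33, 1), (3, 34, 1), (3, 35, -1), (3, 36, 1), (3, 37, -1), (3, 38, 1),
   (3, 39, -1), (3, 40, -1), (0, 42, -1), (0, 43, 1), (1, 43, 1), (7, 37, -1),
   (7, 38, 1), (7, 39, -1), (0, 45, -1), (1, 45, -1), (0, 46, -1), (1, 47, -1),
   (2, 46, -1), (2, 47, -1), (8, 40, -1), (9, 40, 1), (10, 40, -1), (4, 46, 1),
   (4, 47, 1), (5, 47, -1), (7, 44, -1), (8, 44, -1), (9, 44, 1), (10, 44, -1),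
   (11, 44, 1), (12, 44, -1), (13, 44, 1), (14, 44, 1), (15, 46, 1), (15, 47, 1),
   (16, 47, -1), (33, 40, 1), (21, 47, 1), (23, 47, 1), (24, 46, 1)]

theorem full3 : rowsOK (fullRow3 chevF4 3) 0 48 = true := by decide +kernel

theorem self3 : rowsOK (selfRow3 chevF4 1 selfW) 0 48 = true := by decide +kernel

theorem zero3_0 : rowsOK (zeroRow3 chevF4 3) 0 12 = true := by decide +kernel
theorem zero3_12 : rowsOK (zeroRow3 chevF4 3) 12 12 = true := by decide +kernel
theorem zero3_24 : rowsOK (zeroRow3 chevF4 3) 24 12 = true := by decide +kernel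
theorem zero3_36 : rowsOK (zeroRow3 chevF4 3) 36 12 = true := by decide +kernel

theorem sep3_0 : rowsOK (sepRow3 chevF4 3) 0 12 = true := by decide +kernel
theorem sep3_12 : rowsOK (sepRow3 chevF4 3) 12 12 = true := by decide +kernel
theorem sep3_24 : rowsOK (sepRow3 chevF4 3) 24 12 = true := by decide +kernel
theorem sep3_36 : rowsOK (sepRow3 chevF4 3) 36 12 = true := by decide +kernel

theorem rows_of_chunks {f : ℕ → Bool} (h0 : rowsOK f 0 12 = true) (h12 : rowsOK f 12 12 = true)
    (h24 : rowsOK f 24 12 = true) (h36 : rowsOK f 36 12 = true) :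
    ∀ r < chevF4.nroots, f r = true := by
  intro r hr
  change r < 48 at hr
  by_cases c0 : r < 12
  · exact rowsOK_spec h0 r (by omega) (by omega)
  by_cases c12 : r < 24
  · exact rowsOK_spec h12 r (by omega) (by omega)
  by_cases c24 : r < 36
  · exact rowsOK_spec h24 r (by omega) (by omega)
  exact rowsOK_spec h36 r (by omega) (by omega)

theorem rows_of_all {f : ℕ → Bool} (h : rowsOK f 0 48 = true) :
    ∀ r < chevF4.nroots, f r = true := by
  intro r hr
  change r < 48 at hr
  exact rowsOK_spec h r (by omega) (by omega)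

/-- PIECE CF44: the table certificate of type `F₄` for a unit of order 3. -/
theorem cert3_F4_three : Cfsg.Agent.Helper64.UC3.Cert3 Cfsg.Lie.chevF4 3 1 :=
  cert3_of_rows (W := selfW) (rows_of_all full3) (rows_of_all self3)
    (rows_of_chunks zero3_0 zero3_12 zero3_24 zero3_36)
    (rows_of_chunks sep3_0 sep3_12 sep3_24 sep3_36)

end Cfsg.Agent.Helper93.STU3CF4
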