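import Cfsg.Agent.Helper64.UC3Defs
import Cfsg.Agent.Helper36.UCCert

/-!
# CALL S2103 (helper64): Boolean row checkers for the table certificate `Cert3 D m N`

`Sep` is searched for; `Dec` is checked on a table of witnesses `(a, b, C)`.
-/

set_option autoImplicit false

namespace Cfsg.Agent.Helper93.STU3

open Cfsg Cfsg.Lie Cfsg.Agent.Helper36 Cfsg.Agent.Helper64.UC Cfsg.Agent.Helper64.UC3

instance (D : ChevalleyDatum) (N : ℤ) (a b k : ℕ) (C : ℤ) : Decidable (T1w D N a b k C) := by
  unfold T1w; infer_instance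

/-- Some coroot separates `p` from `q` modulo `m`. -/
def sepB (D : ChevalleyDatum) (m : ℤ) (p q : ℕ) : Bool :=
  (List.range D.nroots).any fun γ => decide (m ∣ D.pairing γ p) && !decide (m ∣ D.pairing γ q)

theorem sepB_spec {D : ChevalleyDatum} {m : ℤ} {p q : ℕ} (h : sepB D m p q = true) :
    Sep D m p q := by
  unfold sepB at h
  simp only [List.any_eq_true, List.mem_range, Bool.and_eq_true, decide_eq_true_eq,
    Bool.not_eq_true', decide_eq_false_iff_not] at h
  obtain ⟨γ, hγ, h1, h2⟩ := h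
  exact ⟨γ, hγ, h1, h2⟩

/-- The decomposition `Dec D N p q` with the witness `w = (a, b, C)`. -/
def decB (D : ChevalleyDatum) (N : ℤ) (p q : ℕ) (w : ℕ × ℕ × ℤ) : Bool :=
  decide (T1w D N w.1 w.2.1 q w.2.2 ∧ Is0 D p w.1 ∧ Is0 D p w.2.1)

theorem decB_spec {D : ChevalleyDatum} {N : ℤ} {p q : ℕ} {w : ℕ × ℕ × ℤ}
    (h : decB D N p q w = true) : Dec D N p q :=
  ⟨w.1, w.2.1, w.2.2, of_decide_eq_true h⟩

/-- Some coroot has a value prime to `m` on `r`. -/
def fullRow3 (D : ChevalleyDatum) (m : ℤ) (r : ℕ) : Bool :=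
  (List.range D.nroots).any fun γ => !decide (m ∣ D.pairing γ r)

theorem fullRow3_spec {D : ChevalleyDatum} {m : ℤ} {r : ℕ} (h : fullRow3 D m r = true) :
    ∃ γ < D.nroots, ¬ m ∣ D.pairing γ r := by
  unfold fullRow3 at h
  simp only [List.any_eq_true, List.mem_range, Bool.not_eq_true', decide_eq_false_iff_not] at h
  exact h

/-- `Dec D N r r` with the witness read off the table `W`. -/
def selfRow3 (D : ChevalleyDatum) (N : ℤ) (W : List (ℕ × ℕ × ℤ)) (r : ℕ) : Bool :=
  decB D N r r (W.getD r (0, 0, 0))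

/-- Every commuting pair `(p, q)` is separated. -/
def zeroRow3 (D : ChevalleyDatum) (m : ℤ) (p : ℕ) : Bool :=
  (List.range D.nroots).all fun q => !decide (Is0 D p q) || sepB D m p q

theorem zeroRow3_spec {D : ChevalleyDatum} {m : ℤ} {p : ℕ} (h : zeroRow3 D m p = true) {q : ℕ}
    (hq : q < D.nroots) (h0 : Is0 D p q) : Sep D m p q := by
  unfold zeroRow3 at h
  rw [List.all_eq_true] at h
  have h3 := h q (List.mem_range.mpr hq)
  simp only [Bool.or_eq_true, Bool.not_eq_true', decide_eq_false_iff_not] at h3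
  rcases h3 with h3 | h3
  · exact absurd h0 h3
  · exact sepB_spec h3

/-- Every non-commuting pair `(r, s)`, `s ≠ ± r`, is separated both ways. -/
def sepRow3 (D : ChevalleyDatum) (m : ℤ) (r : ℕ) : Bool :=
  (List.range D.nroots).all fun s => s == r || s == D.neg r ||
    decide (D.commTerms r s = []) || (sepB D m r s && sepB D m s r)

theorem sepRow3_spec {D : ChevalleyDatum} {m : ℤ} {r : ℕ} (h : sepRow3 D m r = true) {s : ℕ}
    (hs : s < D.nroots) (h1 : s ≠ r) (h2 : s ≠ D.neg r) (h3 : D.commTerms r s ≠ []) :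
    Sep D m r s ∧ Sep D m s r := by
  unfold sepRow3 at h
  rw [List.all_eq_true] at h
  have h4 := h s (List.mem_range.mpr hs)
  simp only [Bool.or_eq_true, beq_iff_eq, decide_eq_true_eq, Bool.and_eq_true] at h4
  rcases h4 with ((h4 | h4) | h4) | h4
  · exact absurd h4 h1
  · exact absurd h4 h2
  · exact absurd h4 h3
  · exact ⟨sepB_spec h4.1, sepB_spec h4.2⟩

/-- The certificate from the row checks, when every commuting pair is separated. -/
theorem cert3_of_rows {D : ChevalleyDatum} {m N : ℤ} {W : List (ℕ × ℕ × ℤ)}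
    (h1 : ∀ r < D.nroots, fullRow3 D m r = true)
    (h2 : ∀ r < D.nroots, selfRow3 D N W r = true)
    (h3 : ∀ p < D.nroots, zeroRow3 D m p = true)
    (h4 : ∀ r < D.nroots, sepRow3 D m r = true) : Cert3 D m N where
  full := fun r hr => fullRow3_spec (h1 r hr)
  self := fun r hr => decB_spec (h2 r hr)
  zero := fun p hp _ hq h0 => Or.inl (zeroRow3_spec (h3 p hp) hq h0)
  sep := fun r hr _ hs hsr hsn hc => sepRow3_spec (h4 r hr) hs hsr hsn hc

end Cfsg.Agent.Helper93.STU3
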