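import Cfsg.Agent.Helper40.SUDefs

set_option autoImplicit false

namespace Cfsg.Agent.Helper93.SU

open Cfsg Cfsg.Lie Cfsg.Agent.Helper36 Cfsg.Agent.Helper40.DZ Cfsg.Agent.Helper40.SU

variable {D : ChevalleyDatum} {F : Type*} [Field F] {η : ℕ → ℕ → ℤ}

/-- BNB -/
theorem chev_BNB (hD : D ∈ [chevG2, chevB2, chevD4, chevF4, chevE6, chevE7, chevE8]) :
    ∀ g ∈ D.group F, ∃ b₁ ∈ D.borelSubgroup F, ∃ n ∈ D.monomialSubgroup F,
      ∃ b₂ ∈ D.borelSubgroup F, g = b₁ * n * b₂ := by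
  intro g hg
  obtain ⟨P, hB, hN, -⟩ := Cfsg.Agent.S1042.result (F := F) D hD
  obtain ⟨n, hn, hgn⟩ := Cfsg.Agent.Helper6.bruhat_exists P (⟨g, hg⟩ : ↥(D.group F))
  obtain ⟨b, hb, b', hb', he⟩ := (Cfsg.Agent.Helper6.mem_DC P).1 hgn
  rw [hB] at hb hb'
  rw [hN] at hn
  refine ⟨(b : GL D.Idx F), Subgroup.mem_subgroupOf.mp hb, (n : GL D.Idx F),
    Subgroup.mem_subgroupOf.mp hn, (b' : GL D.Idx F), Subgroup.mem_subgroupOf.mp hb', ?_⟩
  have := congrArg Subtype.val he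
  simpa using this

end Cfsg.Agent.Helper93.SU
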