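import Cfsg.Agent.Helper40.SUDefs

set_option autoImplicit false

namespace Cfsg.Agent.Helper93.SU

open Cfsg Cfsg.Lie Cfsg.Agent.Helper36 Cfsg.Agent.Helper40.DZ Cfsg.Agent.Helper40.SU

variable {D : ChevalleyDatum} {F : Type*} [Field F] {η : ℕ → ℕ → ℤ}

/-- GH3 -/
theorem chev_genH_all (R : BRel D F η) (K : Subgroup (GL D.Idx F))
    (hc : ∀ i < D.rank, ∀ r < D.nroots,
      (∀ c : F, c ≠ 0 →
        R.n i * hGL R.xadd r c * (R.n i)⁻¹ = hGL R.xadd (D.reflectRoot i r) c) ∨
      (∀ c : F, c ≠ 0 → R.n i * hGL R.xadd r c * (R.n i)⁻¹ =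
        hGL R.xadd (D.reflectRoot i r) (-c) * (hGL R.xadd (D.reflectRoot i r) (-1))⁻¹))
    (h0 : ∀ i < D.rank, ∀ a : F, a ≠ 0 → hGL R.xadd (D.simple i) a ∈ K)
    (h2 : ∀ i < D.rank, ∀ g ∈ D.diagonalSubgroup F, g ∈ K → R.n i * g * (R.n i)⁻¹ ∈ K) :
    ∀ r < D.nroots, ∀ a : F, a ≠ 0 → hGL R.xadd r a ∈ K := by
  intro r
  induction h : depthOf D r using Nat.strong_induction_on generalizing r with
  | _ k ih =>
    intro hr
    rcases R.wf.depth r hr with ⟨i, hi, rfl⟩ | ⟨i, hi, hlt⟩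
    · exact h0 i hi
    · have hs := R.wf.refl_lt i hi r hr
      have hK := ih _ (h ▸ hlt) (D.reflectRoot i r) rfl hs
      have hrr : D.reflectRoot i (D.reflectRoot i r) = r := R.wf.refl_refl i hi r hr
      have hone : hGL R.xadd r (1 : F) = 1 := by
        rw [hGL_eq]
        exact R.nGL_mul_neg hr one_ne_zero
      have key : ∀ c : F, c ≠ 0 →
          R.n i * hGL R.xadd (D.reflectRoot i r) c * (R.n i)⁻¹ ∈ K := fun c hc0 =>
        h2 i hi _ (hGL_mem _ hs hc0) (hK c hc0)
      rcases hc i hi (D.reflectRoot i r) hs with h1 | h1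
      · intro a ha
        have := key a ha
        rwa [h1 a ha, hrr] at this
      · have hm1 : hGL R.xadd r (-1 : F) ∈ K := by
          have := key (-1) (neg_ne_zero.mpr one_ne_zero)
          rw [h1 (-1) (neg_ne_zero.mpr one_ne_zero), hrr, neg_neg, hone, one_mul] at this
          have h3 := inv_mem this
          rwa [inv_inv] at h3
        intro a ha
        have := key (-a) (neg_ne_zero.mpr ha)
        rw [h1 (-a) (neg_ne_zero.mpr ha), hrr, neg_neg] at this
        have h3 := mul_mem this hm1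
        rwa [inv_mul_cancel_right] at h3

end Cfsg.Agent.Helper93.SU
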