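import Mathlib
import Cfsg.Prelude.Def_GeometricClasses
import Cfsg.Prelude.Def_Classical
import Cfsg.Agent.Helper58.TSDefs
import Cfsg.Agent.Helper43.PrimeOrdO3
import Cfsg.Agent.Helper33.OType
import Cfsg.Agent.Helper43.UniMinus
import Cfsg.Agent.Helper43.OrthPlane
import Cfsg.Agent.Helper43.OrthEven
import Cfsg.Agent.Helper43.TwoFamGeo
import Cfsg.Agent.Helper98.OPar
import Cfsg.Agent.S2617

set_option autoImplicit false

/-!
# Sub-CALL TB (helper43) of CALL TS: piece XISO (double by helper93).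
A quadratic space of dimension `2 d` and of the type of `Q` is isometric to `Q`.
-/

namespace Cfsg.Agent.Helper93.TB

open Module Polynomial Cfsg Cfsg.Geo Cfsg.Agent.Helper58.TS
open Cfsg.Agent.Helper43 Cfsg.Agent.Helper43.OrthEven

universe u

section fin

variable {F : Type u} [Field F] [Fintype F]

omit [Fintype F] in
/-- bridge: plus type of the whole space vs `HasTS`. -/
theorem xiso_plus_iff {ι : Type} [Fintype ι] [DecidableEq ι] (Q : (ι → F) → F)
    (hQ : IsNondegenerateQuadraticForm Q) (d : ℕ) (hcard : Fintype.card ι = 2 * d) :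
    IsPlusTypeOn Q ⊤ ↔ HasTS (Cfsg.Agent.Helper98.op_qf Q hQ) d := by
  have hV : finrank F (ι → F) = 2 * d := by
    rw [Module.finrank_fintype_fun_eq_card, hcard]
  constructor
  · rintro ⟨U, -, hts, hd⟩
    rw [finrank_top, hV] at hd
    exact ⟨U, by omega, fun u hu => hts u hu⟩
  · rintro ⟨U, hU, h0⟩
    have hle : finrank F U ≤ d := (TwoFam.qspace_of Q hQ hcard).finrank_ts_le h0
    refine ⟨U, le_top, fun u hu => h0 u hu, ?_⟩
    rw [finrank_top, hV]
    omega

/-- XISO: a quadratic space of dimension `2 d` and of the type of `Q` is isometric to `Q`. -/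
theorem tb_xiso {ι : Type} [Fintype ι] [DecidableEq ι] (Q : (ι → F) → F)
    (hQ : IsNondegenerateQuadraticForm Q) (d δ : ℕ) (hd : 1 ≤ d)
    (hcard : Fintype.card ι = 2 * d) (hδ : TypeDefect Q δ) {V' : Type u} [AddCommGroup V']
    [Module F V'] [FiniteDimensional F V'] (Q' : QuadraticForm F V') (hnd : PolarNondeg Q')
    (hdim : finrank F V' = 2 * d) (htype : HasTS Q' d ↔ δ = 0) :
    ∃ Φ : V' ≃ₗ[F] (ι → F), ∀ v, Q (Φ v) = Q' v := by
  have hV : finrank F (ι → F) = 2 * d := by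
    rw [Module.finrank_fintype_fun_eq_card, hcard]
  have hnd0 : PolarNondeg (Cfsg.Agent.Helper98.op_qf Q hQ) :=
    polarNondeg_of_nondegenerate _ (Cfsg.Agent.Helper98.op_qf_nondeg Q hQ)
  have hbr := xiso_plus_iff Q hQ d hcard
  rcases hδ with ⟨h0, hplus⟩ | ⟨h1, hminus⟩
  · -- plus type
    have hTS : HasTS (Cfsg.Agent.Helper98.op_qf Q hQ) d := hbr.mp hplus
    have hTS' : HasTS Q' d := htype.mpr h0
    obtain ⟨Ψ, hΨ⟩ := Cfsg.Agent.Helper43.UniMinus.exists_plus_of_hasTS' hV _ hnd0 hTS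
    obtain ⟨Ψ', hΨ'⟩ := Cfsg.Agent.Helper43.UniMinus.exists_plus_of_hasTS' hdim Q' hnd hTS'
    refine ⟨Ψ'.symm.trans Ψ, fun v => ?_⟩
    have e1 := hΨ (Ψ'.symm v)
    have e2 := hΨ' (Ψ'.symm v)
    rw [LinearEquiv.apply_symm_apply] at e2
    rw [LinearEquiv.trans_apply, e2]
    exact e1
  · -- minus type
    have hTS : ¬ HasTS (Cfsg.Agent.Helper98.op_qf Q hQ) d := fun h => hminus (hbr.mpr h)
    have hTS' : ¬ HasTS Q' d := fun h => by
      have := htype.mp h
      omega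
    obtain ⟨ζ, hζ, Ψ, hΨ⟩ := OrthEven.exists_minus_of_not_hasTS hd hV _ hnd0 hTS
    obtain ⟨Ψ', hΨ'⟩ := Cfsg.Agent.Helper43.OrthEven.exists_minus_of_not_hasTS' hd hdim Q' hnd hTS' 1 ζ
      (Cfsg.Agent.S2617.aniso ζ hζ)
    refine ⟨Ψ'.symm.trans Ψ, fun v => ?_⟩
    have e1 := hΨ (Ψ'.symm v)
    have e2 := hΨ' (Ψ'.symm v)
    rw [LinearEquiv.apply_symm_apply] at e2
    rw [LinearEquiv.trans_apply, e2]
    exact e1

end fin

end Cfsg.Agent.Helper93.TB
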