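/-
helper93: CALL S2415 (helper97), piece AN (`tm_aniso`).
-/
import Mathlib

set_option autoImplicit false

namespace Cfsg.Agent.Helper93

/-- AN -/
theorem tm_aniso {K : Type*} [Field K] [Fintype K] (a b : K)
    (hab : ∀ z₁ z₂ : K, z₁ ^ 2 + a * z₁ * z₂ + b * z₂ ^ 2 = 0 → z₁ = 0 ∧ z₂ = 0) :
    b ≠ 0 ∧ (a ≠ 0 ∨ (2 : K) ≠ 0) ∧ 1 + a + b ≠ 0 := by
  refine ⟨?_, ?_, ?_⟩
  · intro hb
    exact one_ne_zero (hab 0 1 (by rw [hb]; ring)).2
  · by_contra hcon
    push Not at hcon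
    obtain ⟨ha, h2⟩ := hcon
    have : CharP K 2 := CharTwo.of_one_ne_zero_of_two_eq_zero one_ne_zero h2
    obtain ⟨c, hc⟩ := FiniteField.isSquare_of_char_two (ringChar.eq K 2) b
    exact one_ne_zero (hab c 1 (by rw [ha, hc]; linear_combination (c * c) * h2)).2
  · intro h
    exact one_ne_zero (hab 1 1 (by linear_combination h)).2

end Cfsg.Agent.Helper93
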