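/-
helper93: CALL S2415 (helper97), piece CASES (`tm_cases`).
-/
import Mathlib
import Cfsg.Agent.Helper51.TGCH

set_option autoImplicit false

namespace Cfsg.Agent.Helper93

theorem tmcases_four {K : Type*} [Fintype K] [DecidableEq K] (w x y z : K) (h1 : w ≠ x)
    (h2 : w ≠ y) (h3 : w ≠ z) (h4 : x ≠ y) (h5 : x ≠ z) (h6 : y ≠ z) : 4 ≤ Fintype.card K := by
  have h : ({w, x, y, z} : Finset K).card = 4 := by
    rw [Finset.card_insert_of_notMem, Finset.card_insert_of_notMem, Finset.card_pair h6]
    · simp [h4, h5]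
    · simp [h1, h2, h3]
  rw [← h]
  exact Finset.card_le_univ _

/-- CASES -/
theorem tm_cases {K : Type*} [Field K] [Fintype K] (hK : Fintype.card K ≤ 3) (a b : K)
    (hab : ∀ z₁ z₂ : K, z₁ ^ 2 + a * z₁ * z₂ + b * z₂ ^ 2 = 0 → z₁ = 0 ∧ z₂ = 0) :
    (CharP K 2 ∧ a = 1 ∧ b = 1) ∨
      (CharP K 3 ∧ ((a = 0 ∧ b = 1) ∨ (a = 1 ∧ b = -1) ∨ (a = -1 ∧ b = -1))) := by
  classical
  have hb : b ≠ 0 := fun hb => one_ne_zero (hab 0 1 (by rw [hb]; ring)).2
  rcases Cfsg.Agent.Helper51.tg_char_small hK with h2 | h3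
  · left
    refine ⟨h2, ?_⟩
    have h20 : (2 : K) = 0 := CharTwo.two_eq_zero
    have hall : ∀ x : K, x = 0 ∨ x = 1 := by
      intro x
      by_contra hx
      push Not at hx
      have h4 := tmcases_four (0 : K) 1 x (x + 1) zero_ne_one (Ne.symm hx.1)
        (fun h => hx.2 (by linear_combination (-1 : K) * h - h20)) (Ne.symm hx.2)
        (fun h => hx.1 (by linear_combination (-1 : K) * h))
        (fun h => one_ne_zero (by linear_combination (-1 : K) * h))
      omega
    rcases hall b with hb0 | hb1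
    · exact absurd hb0 hb
    · rcases hall a with ha0 | ha1
      · exfalso
        exact one_ne_zero (hab 1 1 (by rw [ha0, hb1]; linear_combination h20)).2
      · exact ⟨ha1, hb1⟩
  · right
    refine ⟨h3, ?_⟩
    have h30 : (3 : K) = 0 := by exact_mod_cast CharP.cast_eq_zero K 3
    have h2ne : (2 : K) ≠ 0 := by
      intro h2
      have : (1 : K) = 0 := by linear_combination h30 - h2
      exact one_ne_zero this
    have hall : ∀ x : K, x = 0 ∨ x = 1 ∨ x = -1 := by
      intro x
      by_contra hx
      push Not at hx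
      have h4 := tmcases_four (0 : K) 1 (-1) x zero_ne_one
        (fun h => one_ne_zero (by linear_combination h)) (Ne.symm hx.1)
        (fun h => h2ne (by linear_combination h)) (Ne.symm hx.2.1) (Ne.symm hx.2.2)
      omega
    rcases hall b with hb0 | hb1 | hb1
    · exact absurd hb0 hb
    · rcases hall a with ha | ha | ha
      · left; exact ⟨ha, hb1⟩
      · exfalso
        exact one_ne_zero (hab 1 1 (by rw [ha, hb1]; linear_combination h30)).2
      · exfalso
        exact one_ne_zero (hab 1 (-1) (by rw [ha, hb1]; linear_combination h30)).1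
    · rcases hall a with ha | ha | ha
      · exfalso
        exact one_ne_zero (hab 1 1 (by rw [ha, hb1]; ring)).2
      · right; left; exact ⟨ha, hb1⟩
      · right; right; exact ⟨ha, hb1⟩

end Cfsg.Agent.Helper93
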