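/-
helper93: CALL S2415 (helper97), piece EX2 (`tm_exists_ne`).
-/
import Mathlib

set_option autoImplicit false

namespace Cfsg.Agent.Helper93

/-- EX2 -/
theorem tm_exists_ne {K : Type*} [Field K] [Fintype K] (h : 2 < Fintype.card K) :
    ∃ t : K, t ≠ 0 ∧ t ≠ 1 := by
  classical
  by_contra hcon
  push Not at hcon
  have hsub : (Finset.univ : Finset K) ⊆ {0, 1} := by
    intro t _
    by_cases h0 : t = 0
    · simp [h0]
    · simp [hcon t h0]
  have h1 := Finset.card_le_card hsub
  rw [Finset.card_univ] at h1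
  have h2 : ({0, 1} : Finset K).card ≤ 2 := Finset.card_le_two
  omega

end Cfsg.Agent.Helper93
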