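/-
helper93: CALL S2415 (helper97), piece SPF (`tm_span_gU_f`).
-/
import Mathlib
import Cfsg.Agent.Helper97.TMDefs

set_option autoImplicit false

universe u

namespace Cfsg.Agent.Helper93

open Cfsg Matrix Cfsg.Agent.Helper45 Cfsg.Agent.Helper98 Cfsg.Agent.Helper97.TM

variable {k : ℕ} {F : Type u} [Field F]

theorem tmspf_QM_y (a b : F) (i : Fin k) : QM k F a b (zM k F 1 - a • fM k F i) = b := by
  rw [QM_apply]
  simp

theorem tmspf_gU_e (a b : F) (i : Fin k) :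
    mv ⇑(QM k F a b) (gU a b i) (eM k F i) =
      eM k F i + (b - a) • (eM k F i + zM k F 0 - fM k F i) + (zM k F 1 - a • fM k F i) := by
  unfold gU
  rw [mv_eichO]
  unfold Helper44.eich
  rw [tmspf_QM_y]
  simp only [QuadraticMap.polar_add_left, QuadraticMap.polar_sub_left,
    QuadraticMap.polar_smul_left, polar_eM_left, polar_zM0_left, polar_zM1_left, polar_fM_left,
    eM_ee, eM_ff, eM_zz, if_true, smul_eq_mul]
  module

/-- SPF -/
theorem tm_span_gU_f [Fintype F] (a b : F)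
    (hab : ∀ z₁ z₂ : F, z₁ ^ 2 + a * z₁ * z₂ + b * z₂ ^ 2 = 0 → z₁ = 0 ∧ z₂ = 0) (i : Fin k)
    (T : Submodule F ((Fin k ⊕ Fin k) ⊕ Fin 2 → F)) (he : eM k F i ∈ T)
    (hg : ∀ v ∈ T, mv ⇑(QM k F a b) (gU a b i) v ∈ T)
    (δ : ↥(isometryGroup F ⇑(QM k F a b))) (t : F) (ht0 : t ≠ 0) (ht1 : t ≠ 1)
    (hδe : mv ⇑(QM k F a b) δ (eM k F i) = t • eM k F i)
    (hδf : mv ⇑(QM k F a b) δ (fM k F i) = t⁻¹ • fM k F i)
    (hδz : ∀ j, mv ⇑(QM k F a b) δ (zM k F j) = zM k F j)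
    (hδ : ∀ v ∈ T, mv ⇑(QM k F a b) δ v ∈ T) :
    fM k F i ∈ T := by
  have hb : b ≠ 0 := fun hb => one_ne_zero (hab 0 1 (by rw [hb]; ring)).2
  have h1 := hg _ he
  rw [tmspf_gU_e] at h1
  have hr : (b - a) • zM k F 0 + zM k F 1 - b • fM k F i ∈ T := by
    have h2 := T.sub_mem h1 (T.smul_mem (1 + (b - a)) he)
    have e : eM k F i + (b - a) • (eM k F i + zM k F 0 - fM k F i) + (zM k F 1 - a • fM k F i)
        - (1 + (b - a)) • eM k F i = (b - a) • zM k F 0 + zM k F 1 - b • fM k F i := by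
      module
    rw [e] at h2
    exact h2
  have h3 := hδ _ hr
  rw [mv_sub, mv_add, mv_smul, mv_smul, hδz, hδz, hδf] at h3
  have h4 := T.sub_mem h3 hr
  have e4 : (b - a) • zM k F 0 + zM k F 1 - b • t⁻¹ • fM k F i
      - ((b - a) • zM k F 0 + zM k F 1 - b • fM k F i) = (b * (1 - t⁻¹)) • fM k F i := by
    module
  rw [e4] at h4
  have hne : b * (1 - t⁻¹) ≠ 0 := by
    apply mul_ne_zero hb
    intro h
    apply ht1
    have h5 : t⁻¹ = 1 := by linear_combination -h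
    rw [inv_eq_one] at h5
    exact h5
  have h6 := T.smul_mem (b * (1 - t⁻¹))⁻¹ h4
  rw [smul_smul, inv_mul_cancel₀ hne, one_smul] at h6
  exact h6

end Cfsg.Agent.Helper93
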