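import Mathlib
import Cfsg.Agent.Helper43.OTDefs
import Cfsg.Agent.Helper47.HTHORTH

set_option autoImplicit false

/-!
# Sub-CALL TSOG (helper98), piece PROJ.
-/

namespace Cfsg.Agent.Helper93.TSOG

open Module Polynomial Cfsg.Agent.Helper90.HT Cfsg.Agent.Helper43.OT

variable {F : Type*} [Field F] {V : Type*} [AddCommGroup V] [Module F V] [FiniteDimensional F V]

/-- PROJ [M]: `V = C ⊕ D` orthogonal, `W₀ ≤ D` totally singular of half the dimension of the
nondegenerate `D`, `M ⊇ W₀` totally singular.  Then `N = M ⊓ C` (the projection of `M` to `C`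
along `D`) is totally singular of dimension `finrank M - finrank W₀`. -/
theorem og_proj (Q : QuadraticForm F V) (C D : Submodule F V) (hCD : IsCompl C D)
    (horth : ∀ u ∈ C, ∀ v ∈ D, ph Q u v = 0) (hD : HNondegOn (ph Q) D) (W₀ : Submodule F V)
    (hW₀D : W₀ ≤ D) (hW₀ : ∀ w ∈ W₀, Q w = 0) (hhalf : finrank F D = 2 * finrank F W₀)
    (M : Submodule F V) (hM : ∀ w ∈ M, Q w = 0) (hWM : W₀ ≤ M) :
    ∃ N : Submodule F V, N ≤ C ∧ (∀ w ∈ N, Q w = 0) ∧
      finrank F N + finrank F W₀ = finrank F M := by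
  have hh := isHerm_ph Q
  -- totally singular subspaces are totally isotropic for the polar form
  have hMti : ∀ u ∈ M, ∀ v ∈ M, ph Q u v = 0 := by
    intro u hu v hv
    rw [ph_apply, QuadraticMap.polar, hM _ (M.add_mem hu hv), hM u hu, hM v hv]
    simp
  -- the perp of `W₀` in `D` is `W₀`
  obtain ⟨P, hP, hPdim⟩ := Cfsg.Agent.Helper47.HT5953.ht_orth (RingHom.id F) (ph Q) hh D W₀ hD hW₀D
  have hWP : W₀ ≤ P := by
    intro w hw
    rw [hP]
    exact ⟨hW₀D hw, fun w' hw' => hMti w (hWM hw) w' (hWM hw')⟩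
  have hPW : P = W₀ := by
    symm
    apply Submodule.eq_of_le_of_finrank_eq hWP
    omega
  -- the key fact: the `D`-component of an element of `M` lies in `W₀`
  have key : ∀ m ∈ M, ∀ c ∈ C, ∀ e ∈ D, m = c + e → e ∈ W₀ := by
    intro m hm c hc e he hme
    rw [← hPW, hP]
    refine ⟨he, fun w hw => ?_⟩
    have h1 : ph Q m w = 0 := hMti m hm w (hWM hw)
    have h2 : ph Q c w = 0 := horth c hc w (hW₀D hw)
    rw [hme, hh.add_left, h2, zero_add] at h1
    exact h1
  refine ⟨M ⊓ C, inf_le_right, fun w hw => hM w hw.1, ?_⟩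
  have hsup : (M ⊓ C) ⊔ W₀ = M := by
    apply le_antisymm
    · exact sup_le inf_le_left hWM
    · intro m hm
      have hm' : m ∈ C ⊔ D := by rw [hCD.sup_eq_top]; exact Submodule.mem_top
      obtain ⟨c, hc, e, he, hce⟩ := Submodule.mem_sup.1 hm'
      have heW : e ∈ W₀ := key m hm c hc e he hce.symm
      have hcM : c ∈ M := by
        have : c = m - e := by rw [← hce]; abel
        rw [this]
        exact M.sub_mem hm (hWM heW)
      rw [← hce]
      exact Submodule.add_mem_sup ⟨hcM, hc⟩ heW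
  have hinf : (M ⊓ C) ⊓ W₀ = ⊥ := by
    rw [eq_bot_iff, ← hCD.inf_eq_bot]
    exact inf_le_inf inf_le_right hW₀D
  have e := Submodule.finrank_sup_add_finrank_inf_eq (M ⊓ C) W₀
  rw [hsup, hinf, finrank_bot, add_zero] at e
  exact e.symm

end Cfsg.Agent.Helper93.TSOG
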