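import Mathlib
import Cfsg.Agent.Helper40.BNStD
import Cfsg.Agent.Helper40.BNStE

/-!
CALL S2314 (helper40), piece REIDX (double by helper93): the Steinberg character of the induced
BN-pair of `P_J`, as a sum over the subsets of `J0`.
-/

set_option autoImplicit false

namespace Cfsg.Agent.Helper93.UCREIDX

open Cfsg.Agent.Helper6 Cfsg.Agent.Helper40.BNSt Cfsg.Lie

/-- an enumeration of a finite set of naturals by an initial segment -/
theorem reidx_enum (J0 : Finset ℕ) : ∃ e : ℕ → ℕ, (∀ k ∈ Finset.range J0.card, e k ∈ J0) ∧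
    Set.InjOn e (Finset.range J0.card : Set ℕ) ∧ (Finset.range J0.card).image e = J0 := by
  classical
  have hc : (Finset.range J0.card).card = J0.card := Finset.card_range _
  obtain ⟨E⟩ : Nonempty (↥(Finset.range J0.card) ≃ ↥J0) := ⟨Finset.equivOfCardEq hc⟩
  refine ⟨fun k => if h : k ∈ Finset.range J0.card then (E ⟨k, h⟩ : ℕ) else 0, ?_, ?_, ?_⟩
  · intro k hk
    simp only [dif_pos hk]
    exact (E ⟨k, hk⟩).2
  · intro k₁ h₁ k₂ h₂ h
    have h₁' : k₁ ∈ Finset.range J0.card := h₁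
    have h₂' : k₂ ∈ Finset.range J0.card := h₂
    simp only [dif_pos h₁', dif_pos h₂'] at h
    have h3 := E.injective (Subtype.ext h)
    exact congrArg Subtype.val h3
  · ext j
    rw [Finset.mem_image]
    constructor
    · rintro ⟨k, hk, rfl⟩
      simp only [dif_pos hk]
      exact (E ⟨k, hk⟩).2
    · intro hj
      refine ⟨(E.symm ⟨j, hj⟩ : ℕ), (E.symm ⟨j, hj⟩).2, ?_⟩
      simp only [dif_pos (E.symm ⟨j, hj⟩).2, Subtype.coe_eta, Equiv.apply_symm_apply]

/-- REIDX: the Steinberg character of the induced BN-pair of `P_J`, as a sum over the subsets of `J0`. -/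
theorem reidx {G : Type*} [Group G] (P : Cfsg.BNPair G) (σ : ℕ → G) (J0 : Finset ℕ)
    (Q : Cfsg.BNPair ↥(P.parabolic (σ '' (J0 : Set ℕ))))
    (hQB : Q.B = P.B.subgroupOf (P.parabolic (σ '' (J0 : Set ℕ))))
    (hQS : Q.S = {x : ↥(P.parabolic (σ '' (J0 : Set ℕ))) | (x : G) ∈ σ '' (J0 : Set ℕ)}) :
    ∃ (r' : ℕ) (σ' : ℕ → ↥(P.parabolic (σ '' (J0 : Set ℕ)))),
      Q.S = σ' '' ((Finset.range r' : Finset ℕ) : Set ℕ) ∧
      ∀ x : ↥(P.parabolic (σ '' (J0 : Set ℕ))), stChar Q r' σ' x =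
        ∑ K0 ∈ J0.powerset, (-1 : ℂ) ^ K0.card *
          Cfsg.fixedPointCharacter
            ((P.parabolic (σ '' (K0 : Set ℕ))).subgroupOf (P.parabolic (σ '' (J0 : Set ℕ)))) x := by
  classical
  obtain ⟨e, heJ, heinj, heimg⟩ := reidx_enum J0
  have hmemJ : ∀ j ∈ J0, σ j ∈ P.parabolic (σ '' (J0 : Set ℕ)) := by
    intro j hj
    exact (le_sup_right : Subgroup.closure (σ '' (J0 : Set ℕ)) ≤ P.B ⊔ Subgroup.closure _)
      (Subgroup.subset_closure ⟨j, hj, rfl⟩)
  obtain ⟨σ', hσ'⟩ : ∃ σ' : ℕ → ↥(P.parabolic (σ '' (J0 : Set ℕ))),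
      ∀ k ∈ Finset.range J0.card, ((σ' k : ↥(P.parabolic (σ '' (J0 : Set ℕ)))) : G) = σ (e k) := by
    refine ⟨fun k => if h : k ∈ Finset.range J0.card then ⟨σ (e k), hmemJ _ (heJ k h)⟩ else 1, ?_⟩
    intro k hk
    simp only [dif_pos hk]
  refine ⟨J0.card, σ', ?_, ?_⟩
  · rw [hQS]
    ext x
    constructor
    · rintro ⟨j, hj, hjx⟩
      have hj' : j ∈ (Finset.range J0.card).image e := by rw [heimg]; exact hj
      obtain ⟨k, hk, rfl⟩ := Finset.mem_image.mp hj'
      exact ⟨k, hk, Subtype.ext (by rw [hσ' k hk]; exact hjx)⟩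
    · rintro ⟨k, hk, rfl⟩
      exact ⟨e k, heJ k hk, (hσ' k hk).symm⟩
  · intro x
    have hpow : J0.powerset = (Finset.range J0.card).powerset.image (·.image e) := by
      rw [← Finset.powerset_image, heimg]
    have hinjOn : ∀ K₁ ∈ (Finset.range J0.card).powerset, ∀ K₂ ∈ (Finset.range J0.card).powerset,
        K₁.image e = K₂.image e → K₁ = K₂ := by
      intro K₁ h₁ K₂ h₂ h
      rw [Finset.mem_powerset] at h₁ h₂
      ext k
      constructor
      · intro hk
        have hk' : e k ∈ K₂.image e := by rw [← h]; exact Finset.mem_image_of_mem e hk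
        obtain ⟨k', hk'2, hk'e⟩ := Finset.mem_image.mp hk'
        have := heinj (Finset.mem_coe.mpr (h₂ hk'2)) (Finset.mem_coe.mpr (h₁ hk)) hk'e
        rw [← this]
        exact hk'2
      · intro hk
        have hk' : e k ∈ K₁.image e := by rw [h]; exact Finset.mem_image_of_mem e hk
        obtain ⟨k', hk'2, hk'e⟩ := Finset.mem_image.mp hk'
        have := heinj (Finset.mem_coe.mpr (h₁ hk'2)) (Finset.mem_coe.mpr (h₂ hk)) hk'e
        rw [← this]
        exact hk'2
    unfold stChar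
    rw [hpow, Finset.sum_image hinjOn]
    apply Finset.sum_congr rfl
    intro K' hK'
    have hK'sub : K' ⊆ Finset.range J0.card := Finset.mem_powerset.mp hK'
    have hcard : (K'.image e).card = K'.card :=
      Finset.card_image_of_injOn (heinj.mono (by exact_mod_cast hK'sub))
    have hpar : Q.parabolic (σ' '' (K' : Set ℕ))
        = (P.parabolic (σ '' ((K'.image e : Finset ℕ) : Set ℕ))).subgroupOf
            (P.parabolic (σ '' (J0 : Set ℕ))) := by
      show Q.B ⊔ Subgroup.closure (σ' '' (K' : Set ℕ))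
        = (P.B ⊔ Subgroup.closure (σ '' ((K'.image e : Finset ℕ) : Set ℕ))).subgroupOf
            (P.parabolic (σ '' (J0 : Set ℕ)))
      have hX : σ '' ((K'.image e : Finset ℕ) : Set ℕ)
          = (P.parabolic (σ '' (J0 : Set ℕ))).subtype '' (σ' '' (K' : Set ℕ)) := by
        ext g
        constructor
        · rintro ⟨j, hj, rfl⟩
          rw [Finset.mem_coe, Finset.mem_image] at hj
          obtain ⟨k, hk, rfl⟩ := hj
          exact ⟨σ' k, ⟨k, hk, rfl⟩, hσ' k (hK'sub hk)⟩
        · rintro ⟨_, ⟨k, hk, rfl⟩, rfl⟩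
          exact ⟨e k, Finset.mem_coe.mpr (Finset.mem_image_of_mem e hk), (hσ' k (hK'sub hk)).symm⟩
      rw [hX, ← MonoidHom.map_closure, hQB]
      have hBle : P.B ≤ P.parabolic (σ '' (J0 : Set ℕ)) := le_sup_left
      have hle : (Subgroup.closure (σ' '' (K' : Set ℕ))).map
          (P.parabolic (σ '' (J0 : Set ℕ))).subtype ≤ P.parabolic (σ '' (J0 : Set ℕ)) := by
        rintro _ ⟨y, _, rfl⟩
        exact y.2
      rw [Subgroup.subgroupOf_sup hBle hle]
      congr 1
      exact (Subgroup.comap_map_eq_self_of_injective (Subgroup.subtype_injective _) _).symm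
    rw [hpar, hcard]

end Cfsg.Agent.Helper93.UCREIDX
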